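import Cfsg.Agent.Lib.Helper17.PermMod4
import Cfsg.Agent.Lib.Helper80.Galois

set_option autoImplicit false

namespace Cfsg.Agent.Lib.Helper17

open Cfsg Cfsg.Agent.Lib.Helper4 Cfsg.Agent.Lib.Helper80
open scoped ComplexConjugate Matrix

section GenOrth

variable {G : Type*} [Group G] [Fintype G]

/-- Generalized orthogonality relation. -/
theorem gen_orth (χ ψ : IrrCharacter G) (h : G) :
    ∑ g : G, (χ : G → ℂ) g * (ψ : G → ℂ) (g⁻¹ * h) =
      if χ = ψ then (Nat.card G : ℂ) / (χ : G → ℂ) 1 * (χ : G → ℂ) h else 0 := by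
  classical
  obtain ⟨n, ρ, hρ, hψ⟩ := ψ.2
  have := hρ
  obtain ⟨a, h1, h2⟩ := opSum_irr ρ (χ : G → ℂ) (isClassFunction_irr χ)
  have h3 : LinearMap.trace ℂ _ (opSum ρ (χ : G → ℂ) * ρ h) =
      ∑ g : G, (χ : G → ℂ) g * (ψ : G → ℂ) (g⁻¹ * h) := by
    rw [opSum, Finset.sum_mul, map_sum]
    refine Finset.sum_congr rfl fun g _ => ?_
    rw [smul_mul_assoc, map_smul, smul_eq_mul, ← map_mul ρ, ← hψ]
    rfl
  have h4 : LinearMap.trace ℂ _ (opSum ρ (χ : G → ℂ) * ρ h) = a * (ψ : G → ℂ) h := by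
    rw [h1, smul_mul_assoc, map_smul, smul_eq_mul, ← hψ]
    rfl
  have h5 : ∑ g : G, (χ : G → ℂ) g * ρ.character g⁻¹ =
      (Nat.card G : ℂ) * classInner (χ : G → ℂ) (ψ : G → ℂ) := by
    rw [classInner, ← mul_assoc, mul_inv_cancel₀ card_ne_zero_complex, one_mul]
    refine Finset.sum_congr rfl fun g _ => ?_
    rw [hψ, irr_inv ψ g]
  have h6 : (Module.finrank ℂ (Fin n → ℂ) : ℂ) = (ψ : G → ℂ) 1 := by
    rw [← hψ, Representation.char_one]
  rw [← h3, h4]
  rw [h5, classInner_irr, h6] at h2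
  by_cases hχψ : χ = ψ
  · rw [if_pos hχψ] at h2 ⊢
    subst hχψ
    have hne := irr_one_ne_zero χ
    have : a = (Nat.card G : ℂ) / (χ : G → ℂ) 1 := by
      field_simp
      linear_combination h2
    rw [this]
  · rw [if_neg hχψ] at h2 ⊢
    have hne := irr_one_ne_zero ψ
    have : a = 0 := by
      rcases mul_eq_zero.mp (h2.trans (mul_zero _)) with h | h
      · exact h
      · exact absurd h hne
    rw [this, zero_mul]

end GenOrth

section Idem

variable {G : Type*} [Group G] [Fintype G] {Ω : Type*} [Fintype Ω] [DecidableEq Ω] [MulAction G Ω]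

theorem trace_idem_mul_pm [Fintype (IrrCharacter G)] (χ : IrrCharacter G) (h : G) :
    Matrix.trace ((idem (χ : G → ℂ) : Matrix Ω Ω ℂ) * (pm h : Matrix Ω Ω ℂ)) =
      (mult G Ω χ : ℂ) * (χ : G → ℂ) h := by
  classical
  rw [idem_def, Matrix.smul_mul, Matrix.trace_smul, Matrix.sum_mul, Matrix.trace_sum]
  have h1 : ∀ g : G, Matrix.trace (((χ : G → ℂ) g⁻¹ • (pm g : Matrix Ω Ω ℂ)) * (pm h : Matrix Ω Ω ℂ)) =
      ∑ ψ : IrrCharacter G, (mult G Ω ψ : ℂ) * ((χ : G → ℂ) g⁻¹ * (ψ : G → ℂ) (g * h)) := by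
    intro g
    rw [Matrix.smul_mul, Matrix.trace_smul, ← pm_mul, trace_pm, smul_eq_mul]
    have h0 := congrFun (permChar_expansion (G := G) (Ω := Ω)) (g * h)
    rw [permChar] at h0
    rw [h0, Finset.sum_apply, Finset.mul_sum]
    refine Finset.sum_congr rfl fun ψ _ => ?_
    simp only [Pi.smul_apply, smul_eq_mul]
    ring
  rw [Finset.sum_congr rfl fun g _ => h1 g, Finset.sum_comm]
  have h2 : ∀ ψ : IrrCharacter G,
      ∑ g : G, (mult G Ω ψ : ℂ) * ((χ : G → ℂ) g⁻¹ * (ψ : G → ℂ) (g * h)) =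
      (mult G Ω ψ : ℂ) *
        (if χ = ψ then (Nat.card G : ℂ) / (χ : G → ℂ) 1 * (χ : G → ℂ) h else 0) := by
    intro ψ
    rw [← Finset.mul_sum, ← gen_orth χ ψ h, ← Equiv.sum_comp (Equiv.inv G)]
    simp
  rw [Finset.sum_congr rfl fun ψ _ => h2 ψ]
  simp only [mul_ite, mul_zero, Finset.sum_ite_eq, Finset.mem_univ, if_true, smul_eq_mul]
  have hne := irr_one_ne_zero χ
  have hG : (Nat.card G : ℂ) ≠ 0 := card_ne_zero_complex
  field_simp

theorem idem_invMat {χ : G → ℂ} (hχ : IsClassFunction G χ) : InvMat G (idem χ : Matrix Ω Ω ℂ) := by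
  rw [invMat_iff_comm]
  intro h
  rw [idem_def, Matrix.mul_smul, Matrix.smul_mul, Matrix.mul_sum, Matrix.sum_mul]
  congr 1
  rw [← Equiv.sum_comp (Equiv.mulLeft h⁻¹)]
  conv_rhs => rw [← Equiv.sum_comp (Equiv.mulRight h⁻¹)]
  refine Finset.sum_congr rfl fun g _ => ?_
  simp only [Equiv.coe_mulLeft, Equiv.coe_mulRight, Matrix.mul_smul, Matrix.smul_mul, ← pm_mul]
  rw [mul_inv_cancel_left, inv_mul_cancel_right]
  congr 1
  have := hχ (g⁻¹ * h) h
  rw [show h * (g⁻¹ * h) * h⁻¹ = h * g⁻¹ by group] at this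
  rw [mul_inv_rev, inv_inv, mul_inv_rev, inv_inv, this]

theorem idem_sq [Fintype (IrrCharacter G)] (χ : IrrCharacter G) (h1 : mult G Ω χ = 1) :
    (idem (χ : G → ℂ) : Matrix Ω Ω ℂ) * idem (χ : G → ℂ) = idem (χ : G → ℂ) := by
  classical
  have hm : classInner (permChar G Ω) (χ : G → ℂ) = 1 := by rw [mult_spec, h1, Nat.cast_one]
  rw [mul_idem_eq_theta χ.2 hm (idem_invMat (isClassFunction_irr χ))]
  have h2 : theta (χ : G → ℂ) (idem (χ : G → ℂ) : Matrix Ω Ω ℂ) = 1 := by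
    rw [theta_def]
    simp only [trace_idem_mul_pm, h1, Nat.cast_one, one_mul]
    have h3 := classInner_irr χ χ
    rw [if_pos rfl, classInner] at h3
    rw [← h3]
    congr 1
    refine Finset.sum_congr rfl fun g _ => ?_
    rw [irr_inv χ g]
  rw [h2, one_smul]

theorem idem_rowSum (χ : IrrCharacter G) (hχ : χ ≠ trivIrr) (α : Ω) :
    ∑ β, (idem (χ : G → ℂ) : Matrix Ω Ω ℂ) α β = 0 := by
  classical
  have h1 := classInner_irr (trivIrr : IrrCharacter G) χ
  rw [if_neg (Ne.symm hχ), classInner] at h1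
  have h2 : ∑ g : G, (χ : G → ℂ) g⁻¹ = 0 := by
    rcases mul_eq_zero.mp h1 with h | h
    · exact absurd (inv_eq_zero.mp h) card_ne_zero_complex
    · rw [← h]
      refine Finset.sum_congr rfl fun g _ => ?_
      rw [irr_inv χ g, trivIrr_apply, one_mul]
  simp only [idem_def, Matrix.smul_apply, Matrix.sum_apply, smul_eq_mul, pm_apply]
  rw [← Finset.mul_sum, Finset.sum_comm]
  have h3 : ∀ g : G, ∑ β : Ω, (χ : G → ℂ) g⁻¹ * (if α = g • β then (1 : ℂ) else 0) =
      (χ : G → ℂ) g⁻¹ := by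
    intro g
    rw [← Finset.mul_sum, Finset.sum_eq_single (g⁻¹ • α)]
    · simp
    · intro b _ hb
      rw [if_neg]
      intro h
      apply hb
      rw [h, inv_smul_smul]
    · intro h
      exact absurd (Finset.mem_univ _) h
  rw [Finset.sum_congr rfl fun g _ => h3 g, h2, mul_zero]

theorem idem_colSum (χ : IrrCharacter G) (hχ : χ ≠ trivIrr) (β : Ω) :
    ∑ α, (idem (χ : G → ℂ) : Matrix Ω Ω ℂ) α β = 0 := by
  classical
  have h1 := classInner_irr (trivIrr : IrrCharacter G) χ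
  rw [if_neg (Ne.symm hχ), classInner] at h1
  have h2 : ∑ g : G, (χ : G → ℂ) g⁻¹ = 0 := by
    rcases mul_eq_zero.mp h1 with h | h
    · exact absurd (inv_eq_zero.mp h) card_ne_zero_complex
    · rw [← h]
      refine Finset.sum_congr rfl fun g _ => ?_
      rw [irr_inv χ g, trivIrr_apply, one_mul]
  simp only [idem_def, Matrix.smul_apply, Matrix.sum_apply, smul_eq_mul, pm_apply]
  rw [← Finset.mul_sum, Finset.sum_comm]
  have h3 : ∀ g : G, ∑ α : Ω, (χ : G → ℂ) g⁻¹ * (if α = g • β then (1 : ℂ) else 0) =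
      (χ : G → ℂ) g⁻¹ := by
    intro g
    rw [← Finset.mul_sum, Finset.sum_ite_eq']
    simp
  rw [Finset.sum_congr rfl fun g _ => h3 g, h2, mul_zero]

theorem idem_diag [MulAction.IsPretransitive G Ω] (χ : IrrCharacter G) (α : Ω) :
    (Fintype.card Ω : ℂ) * (idem (χ : G → ℂ) : Matrix Ω Ω ℂ) α α =
      (χ : G → ℂ) 1 * (mult G Ω χ : ℂ) := by
  rw [← mult_spec, ← trace_idem χ.2, Matrix.trace]
  have h1 : ∀ β : Ω, (idem (χ : G → ℂ) : Matrix Ω Ω ℂ) β β = (idem (χ : G → ℂ) : Matrix Ω Ω ℂ) α α := by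
    intro β
    obtain ⟨g, rfl⟩ := MulAction.exists_smul_eq G α β
    exact idem_invMat (isClassFunction_irr χ) g α α
  simp only [Matrix.diag_apply, h1, Finset.sum_const, Finset.card_univ, nsmul_eq_mul]

omit [DecidableEq Ω] in
theorem permChar_pow_coprime (k : ℕ) (hk : Nat.Coprime k (Nat.card G)) (g : G) :
    permChar G Ω (g ^ k) = permChar G Ω g := by
  have h1 : ∀ (x : G) (n : ℕ) (ω : Ω), x • ω = ω → x ^ n • ω = ω := by
    intro x n ω hx
    induction n with
    | zero => simp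
    | succ n ih => rw [pow_succ, mul_smul, hx, ih]
  obtain ⟨l, hl⟩ : ∃ l : ℕ, (g ^ k) ^ l = g := by
    by_cases h1G : Nat.card G = 1
    · refine ⟨1, ?_⟩
      have : Subsingleton G := (Nat.card_eq_one_iff_unique.mp h1G).1
      exact Subsingleton.elim _ _
    · have hpos : 0 < Nat.card G := Nat.card_pos
      obtain ⟨l, -, hl⟩ := Nat.exists_mul_mod_eq_one_of_coprime hk (by omega)
      refine ⟨l, ?_⟩
      rw [← pow_mul, ← pow_mod_card, ← Nat.card_eq_fintype_card, hl, pow_one]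
  have h2 : MulAction.fixedBy Ω (g ^ k) = MulAction.fixedBy Ω g := by
    ext ω
    simp only [MulAction.mem_fixedBy]
    constructor
    · intro h
      have := h1 (g ^ k) l ω h
      rwa [hl] at this
    · exact h1 g k ω
  rw [permChar, permChar, h2]

omit [DecidableEq Ω] in
theorem mult_galConj (k : ℕ) (hk : Nat.Coprime k (Nat.card G)) (χ : IrrCharacter G) :
    mult G Ω (galConj k hk χ) = mult G Ω χ := by
  have h1 : classInner (permChar G Ω) (galConj k hk χ : G → ℂ) =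
      classInner (permChar G Ω) (χ : G → ℂ) := by
    rw [classInner, classInner]
    congr 1
    rw [← Equiv.sum_comp (powCoprime hk.symm)
      (fun g => permChar G Ω g * conj ((χ : G → ℂ) g))]
    refine Finset.sum_congr rfl fun g _ => ?_
    rw [powCoprime_apply, permChar_pow_coprime k hk g, galConj_apply]
  rw [mult_spec, mult_spec] at h1
  exact_mod_cast h1

end Idem

theorem exists_coprime_modEq {p : ℕ} (hp : p.Prime) (N s : ℕ) (hN : N ≠ 0) (hs : ¬ p ∣ s) :
    ∃ k, Nat.Coprime k N ∧ k ≡ s [MOD p] := by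
  obtain ⟨e, N', hN', rfl⟩ := Nat.exists_eq_pow_mul_and_not_dvd hN p hp.ne_one
  have hcop : Nat.Coprime p N' := (Nat.Prime.coprime_iff_not_dvd hp).mpr hN'
  obtain ⟨k, hk1, hk2⟩ := Nat.chineseRemainder hcop s 1
  refine ⟨k, ?_, hk1⟩
  apply Nat.Coprime.mul_right
  · apply Nat.Coprime.pow_right
    rw [Nat.coprime_comm, Nat.Prime.coprime_iff_not_dvd hp]
    intro h
    apply hs
    exact (Nat.modEq_zero_iff_dvd).mp (hk1.symm.trans ((Nat.modEq_zero_iff_dvd).mpr h))
  · have := hk2.gcd_eq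
    rw [Nat.gcd_one_left] at this
    exact this

end Cfsg.Agent.Lib.Helper17
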