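import Cfsg.Agent.Lib.Helper17.W2pG

set_option autoImplicit false

namespace Cfsg.Agent.Lib.Helper17

open Cfsg Cfsg.Agent.Lib.Helper4 Cfsg.Agent.Lib.Helper80
open scoped ComplexConjugate Matrix

section Prim

variable {G : Type*} [Group G] {Ω : Type*} [MulAction G Ω]

/-- In a faithful primitive group having a proper non-trivial subgroup, a point stabilizer fixes
no second point. -/
theorem no_fixed_suborbit [MulAction.IsPreprimitive G Ω] [FaithfulSMul G Ω] [Nontrivial Ω]
    (H : Subgroup G) (hH1 : H ≠ ⊥) (hH2 : H ≠ ⊤) (α β : Ω) (hαβ : α ≠ β)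
    (h : ∀ s : G, s • α = α → s • β = β) : False := by
  have hco := MulAction.IsPreprimitive.isCoatom_stabilizer_of_isPreprimitive (G := G) α
  have hle : MulAction.stabilizer G α ≤ MulAction.stabilizer G β := fun s hs => h s hs
  have hβtop : MulAction.stabilizer G β ≠ ⊤ := by
    intro htop
    obtain ⟨g, hg⟩ := MulAction.exists_smul_eq G β α
    have h1 : g ∈ MulAction.stabilizer G β := by
      rw [htop]
      exact Subgroup.mem_top g
    exact hαβ (hg.symm.trans h1)
  have heq : MulAction.stabilizer G β = MulAction.stabilizer G α := by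
    rcases hco.le_iff.mp hle with h1 | h1
    · exact absurd h1 hβtop
    · exact h1
  obtain ⟨g, hg⟩ := MulAction.exists_smul_eq G α β
  have hgn : g ∈ Subgroup.normalizer (MulAction.stabilizer G α : Set G) := by
    rw [Subgroup.mem_normalizer_iff]
    intro s
    constructor
    · intro hs
      have hs' : s • α = α := hs
      have h1 : (g * s * g⁻¹) • β = β := by
        rw [mul_smul, mul_smul, ← hg, inv_smul_smul, hs']
      have h2 : g * s * g⁻¹ ∈ MulAction.stabilizer G β := h1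
      rw [heq] at h2
      exact h2
    · intro hs
      rw [← heq] at hs
      have h1 : (g * s * g⁻¹) • β = β := hs
      rw [mul_smul, mul_smul, ← hg, inv_smul_smul] at h1
      exact smul_left_cancel g h1
  have hgα : g ∉ MulAction.stabilizer G α := by
    intro hmem
    have h1 : g • α = α := hmem
    exact hαβ (h1.symm.trans hg)
  have hnorm : Subgroup.normalizer (MulAction.stabilizer G α : Set G) = ⊤ := by
    apply hco.lt_iff.mp
    exact lt_of_le_of_ne Subgroup.le_normalizer (fun h1 => hgα (by rw [h1]; exact hgn))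
  have hfixall : ∀ s : G, s • α = α → ∀ ω : Ω, s • ω = ω := by
    intro s hs ω
    obtain ⟨k, rfl⟩ := MulAction.exists_smul_eq G α ω
    have hk : k⁻¹ ∈ Subgroup.normalizer (MulAction.stabilizer G α : Set G) := by
      rw [hnorm]
      exact Subgroup.mem_top _
    have h1 : k⁻¹ * s * k⁻¹⁻¹ ∈ MulAction.stabilizer G α :=
      (Subgroup.mem_normalizer_iff.mp hk s).mp hs
    have h2 : (k⁻¹ * s * k⁻¹⁻¹) • α = α := h1
    rw [inv_inv, mul_smul, mul_smul, inv_smul_eq_iff] at h2
    exact h2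
  have hbot : MulAction.stabilizer G α = ⊥ := by
    rw [Subgroup.eq_bot_iff_forall]
    intro s hs
    apply FaithfulSMul.eq_of_smul_eq_smul (α := Ω)
    intro ω
    rw [one_smul]
    exact hfixall s hs ω
  rw [hbot] at hco
  rcases hco.le_iff.mp (bot_le : ⊥ ≤ H) with h1 | h1
  · exact hH2 h1
  · exact hH1 h1

/-- Rank two means doubly transitive. -/
theorem two_trans_of_rank_two [MulAction.IsPretransitive G Ω] (a₀ : Ω)
    (h : Nat.card (MulAction.orbitRel.Quotient (MulAction.stabilizer G a₀) Ω) = 2) :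
    MulAction.IsMultiplyPretransitive G Ω 2 := by
  classical
  have key : ∀ b b' : Ω, b ≠ a₀ → b' ≠ a₀ → ∃ s : G, s • a₀ = a₀ ∧ s • b = b' := by
    intro b b' hb hb'
    haveI : Finite (MulAction.orbitRel.Quotient (MulAction.stabilizer G a₀) Ω) :=
      Nat.finite_of_card_ne_zero (by omega)
    haveI : Fintype (MulAction.orbitRel.Quotient (MulAction.stabilizer G a₀) Ω) :=
      Fintype.ofFinite _
    have hne : ∀ c : Ω, c ≠ a₀ →
        (Quotient.mk'' c : MulAction.orbitRel.Quotient (MulAction.stabilizer G a₀) Ω) ≠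
          Quotient.mk'' a₀ := by
      intro c hc hq
      rw [Quotient.eq'', MulAction.orbitRel_apply] at hq
      obtain ⟨s, hs⟩ := hq
      exact hc (hs.symm.trans s.2)
    have heq : (Quotient.mk'' b : MulAction.orbitRel.Quotient (MulAction.stabilizer G a₀) Ω) =
        Quotient.mk'' b' := by
      by_contra hbb
      have h3 : ({Quotient.mk'' a₀, Quotient.mk'' b, Quotient.mk'' b'} :
          Finset (MulAction.orbitRel.Quotient (MulAction.stabilizer G a₀) Ω)).card = 3 := by
        rw [Finset.card_insert_of_notMem, Finset.card_pair hbb]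
        simp only [Finset.mem_insert, Finset.mem_singleton, not_or]
        exact ⟨fun h => hne b hb h.symm, fun h => hne b' hb' h.symm⟩
      have h4 := Finset.card_le_univ ({Quotient.mk'' a₀, Quotient.mk'' b, Quotient.mk'' b'} :
          Finset (MulAction.orbitRel.Quotient (MulAction.stabilizer G a₀) Ω))
      rw [h3, ← Nat.card_eq_fintype_card, h] at h4
      omega
    rw [Quotient.eq'', MulAction.orbitRel_apply] at heq
    obtain ⟨s, hs⟩ := heq
    refine ⟨(s : G)⁻¹, ?_, ?_⟩
    · rw [inv_smul_eq_iff]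
      exact s.2.symm
    · rw [inv_smul_eq_iff]
      exact hs.symm
  rw [MulAction.is_two_pretransitive_iff]
  intro a b c d hab hcd
  obtain ⟨g1, hg1⟩ := MulAction.exists_smul_eq G a a₀
  obtain ⟨g2, hg2⟩ := MulAction.exists_smul_eq G c a₀
  have hb : g1 • b ≠ a₀ := fun hh => hab (smul_left_cancel g1 (hg1.trans hh.symm))
  have hd : g2 • d ≠ a₀ := fun hh => hcd (smul_left_cancel g2 (hg2.trans hh.symm))
  obtain ⟨s, hs1, hs2⟩ := key (g1 • b) (g2 • d) hb hd
  refine ⟨g2⁻¹ * s * g1, ?_, ?_⟩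
  · rw [mul_smul, mul_smul, hg1, hs1, inv_smul_eq_iff, hg2]
  · rw [mul_smul, mul_smul, hs2, inv_smul_smul]

theorem zp_nat [Finite G] {x : G} (g : Subgroup.zpowers x) : ∃ k : ℕ, (g : G) = x ^ k := by
  have h := (mem_powers_iff_mem_zpowers (x := x) (y := (g : G))).mpr g.2
  obtain ⟨k, hk⟩ := (Submonoid.mem_powers_iff _ _).mp h
  exact ⟨k, hk.symm⟩

end Prim

section Setup

variable {G : Type*} [Group G] [Fintype G] [DecidableEq G] {Ω : Type*} [Fintype Ω] [DecidableEq Ω]
  [MulAction G Ω] [Fintype (IrrCharacter G)] {p : ℕ} {ζ : ℂ} {x : G} {χ₀ : IrrCharacter G}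

omit [DecidableEq G] [DecidableEq Ω] [Fintype (IrrCharacter G)] in
theorem zp_free (hF : Fpf G Ω p ζ x) (g : Subgroup.zpowers x) (ω : Ω) (h : (g : G) • ω = ω) :
    g = 1 := by
  obtain ⟨k, hk⟩ := zp_nat g
  apply Subtype.ext
  rw [hk]
  by_contra hne
  have hpk : ¬ p ∣ k := by
    rintro ⟨m, rfl⟩
    apply hne
    rw [pow_mul, hF.pow, one_pow]
    rfl
  rw [hk] at h
  exact hF.fix k hpk ω h

theorem pset_of [MulAction.IsPretransitive G Ω] [Fintype (Subgroup.zpowers x)]
    (hF : Fpf G Ω p ζ x) (h0 : Chi0 Ω p ζ x χ₀) (a : Fin 2 → Ω)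
    (ha : ∀ g : Subgroup.zpowers x, (g : G) • a 0 ≠ a 1) :
    PSet (Subgroup.zpowers x) a χ₀ p := by
  have hpos := hF.prime.pos
  have hord : orderOf x = p := orderOf_eq_of_fpf hF.prime hF.pow hF.fix (a 0)
  have hcard : Fintype.card (Subgroup.zpowers x) = p := by
    rw [← Nat.card_eq_fintype_card, Nat.card_zpowers, hord]
  have hcomm : ∀ g h : Subgroup.zpowers x, g * h = h * g := by
    intro g h
    obtain ⟨k, hk⟩ := zp_nat g
    obtain ⟨l, hl⟩ := zp_nat h
    apply Subtype.ext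
    rw [Subgroup.coe_mul, Subgroup.coe_mul, hk, hl, ← pow_add, ← pow_add, add_comm]
  refine ⟨hcomm, ?_, hpos, hcard, ?_, h0.mult_one, h0.ne_triv⟩
  · rw [Fintype.bijective_iff_injective_and_card]
    refine ⟨?_, ?_⟩
    · rintro ⟨i, g⟩ ⟨j, h⟩ e
      have e' : (g : G) • a i = (h : G) • a j := e
      have key : ∀ (i : Fin 2) (g h : Subgroup.zpowers x),
          (g : G) • a i = (h : G) • a i → g = h := by
        intro i g h e
        have h1 : h⁻¹ * g = 1 := by
          apply zp_free hF _ (a i)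
          rw [Subgroup.coe_mul, Subgroup.coe_inv, mul_smul, e, inv_smul_smul]
        exact (inv_mul_eq_one.mp h1).symm
      rcases fin2_cases i with rfl | rfl <;> rcases fin2_cases j with rfl | rfl
      · rw [key 0 g h e']
      · exfalso
        apply ha (h⁻¹ * g)
        rw [Subgroup.coe_mul, Subgroup.coe_inv, mul_smul, e', inv_smul_smul]
      · exfalso
        apply ha (g⁻¹ * h)
        rw [Subgroup.coe_mul, Subgroup.coe_inv, mul_smul, ← e', inv_smul_smul]
      · rw [key 1 g h e']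
    · rw [Fintype.card_prod, Fintype.card_fin, hcard, hF.card]
  · intro g
    obtain ⟨k, hk⟩ := zp_nat g
    rw [hk, nn_spec hpos hF.pow hF.root χ₀ k]
    have h1 : ∀ j ∈ Finset.range p, (nn p ζ x χ₀ j : ℂ) * (ζ ^ j) ^ k = (ζ ^ k) ^ j := by
      intro j hj
      have hj' := Finset.mem_range.mp hj
      have h2 : nn p ζ x χ₀ j = 1 := by
        by_cases hj0 : j = 0
        · rw [hj0]
          exact h0.nn_zero
        · exact h0.nn_one j hj0 hj'
      rw [h2, Nat.cast_one, one_mul, ← pow_mul, ← pow_mul, mul_comm]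
    rw [Finset.sum_congr rfl h1, sum_pow_root hpos hF.root k]
    have hiff : g = 1 ↔ p ∣ k := by
      rw [← hord, orderOf_dvd_iff_pow_eq_one, ← hk]
      exact ⟨fun h => by rw [h]; rfl, fun h => Subtype.ext h⟩
    by_cases hg : g = 1
    · rw [if_pos hg, if_pos (hiff.mp hg)]
    · rw [if_neg hg, if_neg (fun h => hg (hiff.mpr h))]

/-- The rank of a primitive group of degree `2p` of the relevant kind is at most three. -/
theorem rank_ge_four_false [MulAction.IsPreprimitive G Ω] [FaithfulSMul G Ω]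
    (hF : Fpf G Ω p ζ x) (h0 : Chi0 Ω p ζ x χ₀)
    (hnofix : ∀ y : G, y ≠ 1 → y ^ p = 1 → ∀ ω : Ω, y • ω ≠ ω) (a₀ : Ω)
    (hrank : 4 ≤ Nat.card (MulAction.orbitRel.Quotient (MulAction.stabilizer G a₀) Ω)) :
    False := by
  letI : Fintype (Subgroup.zpowers x) := Fintype.ofFinite _
  have hpos := hF.prime.pos
  have hord : orderOf x = p := orderOf_eq_of_fpf hF.prime hF.pow hF.fix a₀
  have hcard : Fintype.card (Subgroup.zpowers x) = p := by
    rw [← Nat.card_eq_fintype_card, Nat.card_zpowers, hord]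
  obtain ⟨b, hb⟩ : ∃ b : Ω, ∀ g : Subgroup.zpowers x, (g : G) • a₀ ≠ b := by
    by_contra hcon
    push Not at hcon
    have hsurj : Function.Surjective (fun g : Subgroup.zpowers x => (g : G) • a₀) := hcon
    have h1 := Fintype.card_le_of_surjective _ hsurj
    rw [hcard, hF.card] at h1
    omega
  obtain ⟨a, ha0, ha1⟩ : ∃ a : Fin 2 → Ω, a 0 = a₀ ∧ a 1 = b := ⟨![a₀, b], rfl, rfl⟩
  have hS : PSet (Subgroup.zpowers x) a χ₀ p := pset_of hF h0 a (by rw [ha0, ha1]; exact hb)
  have hx1 : x ≠ 1 := by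
    intro h
    apply hF.fix 1 (fun hd => hF.prime.one_lt.ne' (Nat.dvd_one.mp hd)) a₀
    rw [h, one_pow, one_smul]
  haveI : Nontrivial Ω := by
    rw [← Fintype.one_lt_card_iff_nontrivial, hF.card]
    have := hF.prime.two_le
    omega
  have hK1 : ∀ w : Ω × Ω, KK G w = 1 → w.1 = w.2 := by
    intro w hw
    by_contra hne
    apply no_fixed_suborbit (G := G) (Subgroup.zpowers x) ?_ ?_ w.1 w.2 hne ?_
    · intro h
      apply hx1
      have h1 := Subgroup.mem_zpowers x
      rw [h, Subgroup.mem_bot] at h1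
      exact h1
    · intro h
      obtain ⟨g, hg⟩ := MulAction.exists_smul_eq G a₀ b
      have hgm : g ∈ Subgroup.zpowers x := by
        rw [h]
        exact Subgroup.mem_top g
      exact hb ⟨g, hgm⟩ hg
    · intro s hs
      unfold KK at hw
      have hsub := (Nat.card_eq_one_iff_unique.mp hw).1
      have e := @Subsingleton.elim _ hsub
        (⟨(⟨s, hs⟩ : MulAction.stabilizer G w.1) • w.2, MulAction.mem_orbit _ _⟩ :
          MulAction.orbit (MulAction.stabilizer G w.1) w.2)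
        ⟨w.2, MulAction.mem_orbit_self _⟩
      exact congrArg Subtype.val e
  have hD := wdata_of hS hK1
  obtain ⟨n, wp, wm, hn, hwp, hwm, hUp, hUm, hKp, hKm, hup, hum, hZ⟩ := structure_thm hD
  have hE : EndSetup (Subgroup.zpowers x) a (KK G) (UU (Subgroup.zpowers x) a) x p n wp wm :=
    { data := hD, prime := hF.prime, card := hcard, cardΩ := hF.card,
      xmem := Subgroup.mem_zpowers x, cyc := zp_nat, nofix := hnofix, npos := hn, wp_nd := hwp,
      wm_nd := hwm, U_wp := hUp, K_wp := hKp, uniq := hup, uniq_m := hum, Zcard := hZ }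
  have hII := charII hF h0 a₀ hrank
  rw [← card_orbits_prod a₀] at hII hrank
  exact endgame hE hrank hII

/-- A non-principal linear constituent whose kernel is non-trivial is impossible in a faithful
primitive group. -/
theorem linear_false [MulAction.IsPreprimitive G Ω] [FaithfulSMul G Ω] (χ₀ : IrrCharacter G)
    (hne : χ₀ ≠ trivIrr) (hmult : mult G Ω χ₀ = 1) (hdeg : (χ₀ : G → ℂ) 1 = 1) (x : G)
    (hx1 : x ≠ 1) (hxχ : (χ₀ : G → ℂ) x = 1) : False := by
  obtain ⟨n, D, hD, hD1, hDχ, -, -⟩ := exists_matrix_rep χ₀.2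
  have hn : n = 1 := by
    have h1 := hDχ 1
    rw [hD1, Matrix.trace_one, Fintype.card_fin, hdeg] at h1
    exact_mod_cast h1
  subst hn
  have hmul : ∀ g h : G, (χ₀ : G → ℂ) (g * h) = (χ₀ : G → ℂ) g * (χ₀ : G → ℂ) h := by
    intro g h
    rw [← hDχ, ← hDχ, ← hDχ, hD, Matrix.trace_fin_one, Matrix.trace_fin_one, Matrix.trace_fin_one,
      Matrix.mul_apply, Fin.sum_univ_one]
  let Ker : Subgroup G :=
    { carrier := {g | (χ₀ : G → ℂ) g = 1}
      mul_mem' := by
        intro g h hg hh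
        show (χ₀ : G → ℂ) (g * h) = 1
        rw [hmul, show (χ₀ : G → ℂ) g = 1 from hg, show (χ₀ : G → ℂ) h = 1 from hh, mul_one]
      one_mem' := hdeg
      inv_mem' := by
        intro g hg
        show (χ₀ : G → ℂ) g⁻¹ = 1
        have h1 := hmul g⁻¹ g
        rw [inv_mul_cancel, hdeg, show (χ₀ : G → ℂ) g = 1 from hg, mul_one] at h1
        exact h1.symm }
  have hKer : ∀ g : G, g ∈ Ker ↔ (χ₀ : G → ℂ) g = 1 := fun g => Iff.rfl
  haveI hKn : Ker.Normal := by
    constructor
    intro g hg h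
    rw [hKer] at hg ⊢
    rw [hmul, hmul, hg, mul_one, ← hmul, mul_inv_cancel, hdeg]
  have hfp : MulAction.fixedPoints Ker Ω ≠ Set.univ := by
    intro h
    apply hx1
    apply FaithfulSMul.eq_of_smul_eq_smul (α := Ω)
    intro ω
    rw [one_smul]
    have hω : ω ∈ MulAction.fixedPoints Ker Ω := by
      rw [h]
      exact Set.mem_univ ω
    exact hω ⟨x, (hKer x).mpr hxχ⟩
  haveI hKt : MulAction.IsPretransitive Ker Ω :=
    MulAction.IsQuasiPreprimitive.isPretransitive_of_normal hfp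
  have hkE : ∀ k : G, k ∈ Ker →
      (pm k : Matrix Ω Ω ℂ) * idem (χ₀ : G → ℂ) = idem (χ₀ : G → ℂ) := by
    intro k hk
    rw [idem_def, Matrix.mul_smul, Matrix.mul_sum]
    congr 1
    have h1 : ∑ g : G, (χ₀ : G → ℂ) g⁻¹ • (pm g : Matrix Ω Ω ℂ) =
        ∑ g : G, (χ₀ : G → ℂ) (k * g)⁻¹ • (pm (k * g) : Matrix Ω Ω ℂ) :=
      (Equiv.sum_comp (Equiv.mulLeft k)
        (fun g => (χ₀ : G → ℂ) g⁻¹ • (pm g : Matrix Ω Ω ℂ))).symm
    rw [h1]
    refine Finset.sum_congr rfl fun g _ => ?_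
    rw [Matrix.mul_smul, ← pm_mul, mul_inv_rev, hmul, (hKer k⁻¹).mp (inv_mem hk), mul_one]
  rcases isEmpty_or_nonempty Ω with hemp | ⟨⟨β⟩⟩
  · apply hx1
    apply FaithfulSMul.eq_of_smul_eq_smul (α := Ω)
    intro ω
    exact hemp.elim ω
  have hconst : ∀ α : Ω, (idem (χ₀ : G → ℂ) : Matrix Ω Ω ℂ) α β = idem (χ₀ : G → ℂ) β β := by
    intro α
    obtain ⟨k, hk⟩ := MulAction.exists_smul_eq Ker β α
    have h1 := congrFun (congrFun (hkE (k : G) k.2) α) β
    rw [pm_mul_apply] at h1
    rw [← h1, ← hk]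
    show (idem (χ₀ : G → ℂ) : Matrix Ω Ω ℂ) ((k : G)⁻¹ • (k : G) • β) β = _
    rw [inv_smul_smul]
  have hcol := idem_colSum (Ω := Ω) χ₀ hne β
  rw [Finset.sum_congr rfl fun α _ => hconst α, Finset.sum_const, Finset.card_univ,
    nsmul_eq_mul] at hcol
  have hdiag := idem_diag (Ω := Ω) χ₀ β
  rw [hcol, hdeg, hmult] at hdiag
  norm_num at hdiag

/-- A constituent of degree at least `2p - 1` forces rank two. -/
theorem rank_two_of_deg [MulAction.IsPretransitive G Ω] (hΩ : Fintype.card Ω = 2 * p)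
    (χ₀ : IrrCharacter G) (hne : χ₀ ≠ trivIrr) (hmult : mult G Ω χ₀ = 1)
    (hdeg : 2 * p - 1 ≤ deg χ₀) (hp : 0 < p) (a₀ : Ω) :
    Nat.card (MulAction.orbitRel.Quotient (MulAction.stabilizer G a₀) Ω) = 2 := by
  have h1 := card_eq_sum_mult_deg (G := G) (Ω := Ω)
  have hdt : deg (trivIrr : IrrCharacter G) = 1 := by
    have h2 := deg_spec (trivIrr : IrrCharacter G)
    rw [trivIrr_apply] at h2
    exact_mod_cast h2.symm
  rw [hΩ, ← Finset.add_sum_erase Finset.univ _ (Finset.mem_univ (trivIrr : IrrCharacter G)),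
    ← Finset.add_sum_erase _ _ (Finset.mem_erase.mpr ⟨hne, Finset.mem_univ χ₀⟩), mult_triv a₀,
    hmult, hdt] at h1
  have hrest : ∑ χ ∈ ((Finset.univ : Finset (IrrCharacter G)).erase trivIrr).erase χ₀,
      mult G Ω χ * deg χ = 0 := by omega
  rw [rank_eq_sum_sq a₀,
    ← Finset.add_sum_erase Finset.univ _ (Finset.mem_univ (trivIrr : IrrCharacter G)),
    ← Finset.add_sum_erase _ _ (Finset.mem_erase.mpr ⟨hne, Finset.mem_univ χ₀⟩), mult_triv a₀,
    hmult]
  have h2 : ∑ χ ∈ ((Finset.univ : Finset (IrrCharacter G)).erase trivIrr).erase χ₀,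
      mult G Ω χ ^ 2 = 0 := by
    apply Finset.sum_eq_zero
    intro χ hχ
    have h3 := Finset.sum_eq_zero_iff.mp hrest χ hχ
    rcases Nat.mul_eq_zero.mp h3 with h4 | h4
    · rw [h4]
      norm_num
    · exact absurd h4 (deg_pos χ).ne'
  rw [h2]
  norm_num

/-- The decomposition of the permutation character in the rank three case. -/
theorem permChar_decomp [MulAction.IsPretransitive G Ω] (hF : Fpf G Ω p ζ x)
    (h0 : Chi0 Ω p ζ x χ₀) (ψ : IrrCharacter G) (hΨ : psiSet Ω χ₀ = {ψ}) :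
    (fun g : G => (Nat.card (MulAction.fixedBy Ω g) : ℂ)) =
      fun g => 1 + (ψ : G → ℂ) g + (χ₀ : G → ℂ) g := by
  have hΩne : Nonempty Ω := by
    apply Fintype.card_pos_iff.mp
    have := hF.card
    have := hF.prime.pos
    omega
  obtain ⟨a₀⟩ := hΩne
  have hψ : ψ ∈ psiSet Ω χ₀ := by
    rw [hΨ]
    exact Finset.mem_singleton_self ψ
  obtain ⟨hψ1, hψ2, hψ3⟩ := (mem_psiSet χ₀ ψ).mp hψ
  have hmψ := (psi_basic hF h0 ψ hψ1 hψ2 hψ3).2.1
  have h := permChar_expansion (G := G) (Ω := Ω)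
  funext g
  have hg := congrFun h g
  show permChar G Ω g = _
  rw [hg, Finset.sum_apply,
    ← Finset.add_sum_erase Finset.univ _ (Finset.mem_univ (trivIrr : IrrCharacter G)),
    ← Finset.add_sum_erase _ _ (Finset.mem_erase.mpr ⟨h0.ne_triv, Finset.mem_univ χ₀⟩),
    ← Finset.add_sum_erase _ _ (show ψ ∈ ((Finset.univ : Finset (IrrCharacter G)).erase
      trivIrr).erase χ₀ from Finset.mem_erase.mpr ⟨hψ2, Finset.mem_erase.mpr
        ⟨hψ1, Finset.mem_univ ψ⟩⟩)]
  have hrest : ∑ χ ∈ (((Finset.univ : Finset (IrrCharacter G)).erase trivIrr).erase χ₀).erase ψ,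
      ((mult G Ω χ : ℂ) • (χ : G → ℂ)) g = 0 := by
    apply Finset.sum_eq_zero
    intro χ hχ
    have h1 := Finset.mem_erase.mp hχ
    have h2 := Finset.mem_erase.mp h1.2
    have h3 := Finset.mem_erase.mp h2.2
    have hm : mult G Ω χ = 0 := by
      by_contra hm
      have h4 : χ ∈ psiSet Ω χ₀ := (mem_psiSet χ₀ χ).mpr ⟨h3.1, h2.1, hm⟩
      rw [hΨ] at h4
      exact h1.1 (Finset.mem_singleton.mp h4)
    rw [hm]
    simp
  rw [hrest, mult_triv a₀, h0.mult_one, hmψ]
  simp only [Pi.smul_apply, smul_eq_mul, Nat.cast_one, one_mul, add_zero, trivIrr_apply]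
  ring

end Setup

end Cfsg.Agent.Lib.Helper17
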