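import Cfsg.Agent.Lib.Helper17.PermMod3

set_option autoImplicit false

namespace Cfsg.Agent.Lib.Helper17

open Module
open scoped ComplexConjugate Matrix

section Decomp

variable {G : Type*} [Group G] [Fintype G] {Ω : Type*} [Fintype Ω] [DecidableEq Ω] [MulAction G Ω]

theorem idem_eq_zero {χ : G → ℂ} (hχ : IsIrrCharacter G χ)
    (h0 : classInner (permChar G Ω) χ = 0) : (idem χ : Matrix Ω Ω ℂ) = 0 := by
  obtain ⟨n, D, hD, hD1, hDχ, -, -⟩ := exists_matrix_rep hχ
  have h1 : (avg D : Matrix Ω (Fin n) ℂ →ₗ[ℂ] Matrix Ω (Fin n) ℂ) = 0 := by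
    apply avg_eq_zero D hD hD1
    rw [classInner_permChar hχ] at h0
    simp only [hDχ]
    rcases mul_eq_zero.mp h0 with h | h
    · exact absurd (inv_eq_zero.mp h) Cfsg.Agent.Lib.Helper4.card_ne_zero_complex
    · exact h
  ext α ω
  rw [idem_apply D hDχ, h1]
  simp

theorem trace_idem {χ : G → ℂ} (hχ : IsIrrCharacter G χ) :
    Matrix.trace (idem χ : Matrix Ω Ω ℂ) = χ 1 * classInner (permChar G Ω) χ := by
  rw [idem_def, Matrix.trace_smul, Matrix.trace_sum, classInner_permChar hχ, smul_eq_mul, mul_assoc]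
  congr 2
  refine Finset.sum_congr rfl fun g _ => ?_
  rw [Matrix.trace_smul, smul_eq_mul, mul_comm]

theorem trace_mul_idem (χ : G → ℂ) (A : Matrix Ω Ω ℂ) :
    Matrix.trace (A * (idem χ : Matrix Ω Ω ℂ)) = χ 1 * theta χ A := by
  rw [idem_def, Matrix.mul_smul, Matrix.trace_smul, Matrix.mul_sum, Matrix.trace_sum, theta_def,
    smul_eq_mul, mul_assoc]
  congr 2
  refine Finset.sum_congr rfl fun g _ => ?_
  rw [Matrix.mul_smul, Matrix.trace_smul, smul_eq_mul, mul_comm]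

theorem mul_idem_eq_theta {χ : G → ℂ} (hχ : IsIrrCharacter G χ)
    (h1 : classInner (permChar G Ω) χ = 1) {M : Matrix Ω Ω ℂ} (hM : InvMat G M) :
    M * (idem χ : Matrix Ω Ω ℂ) = theta χ M • (idem χ : Matrix Ω Ω ℂ) := by
  obtain ⟨c, hc⟩ := mul_idem_of_le_one hχ (Or.inr h1) hM
  have h2 := congrArg Matrix.trace hc
  rw [trace_mul_idem, Matrix.trace_smul, trace_idem hχ, h1, mul_one, smul_eq_mul] at h2
  have hne : χ 1 ≠ 0 := Cfsg.Agent.Lib.Helper4.irr_one_ne_zero ⟨χ, hχ⟩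
  have h3 : theta χ M = c := by
    apply mul_left_cancel₀ hne
    rw [h2, mul_comm]
  rw [h3, hc]

theorem decomp_of_multFree [Fintype (IrrCharacter G)]
    (h : ∀ χ : G → ℂ, IsIrrCharacter G χ →
      classInner (permChar G Ω) χ = 0 ∨ classInner (permChar G Ω) χ = 1)
    {M : Matrix Ω Ω ℂ} (hM : InvMat G M) :
    M = ∑ χ : IrrCharacter G, theta (χ : G → ℂ) M • (idem (χ : G → ℂ) : Matrix Ω Ω ℂ) := by
  conv_lhs => rw [← Matrix.mul_one M, ← sum_idem (G := G), Matrix.mul_sum]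
  refine Finset.sum_congr rfl fun χ _ => ?_
  rcases h χ χ.2 with h0 | h1
  · rw [idem_eq_zero χ.2 h0, Matrix.mul_zero, smul_zero]
  · exact mul_idem_eq_theta χ.2 h1 hM

omit [Fintype G] [Fintype Ω] in
theorem pm_transpose (g : G) : (pm g : Matrix Ω Ω ℂ)ᵀ = pm g⁻¹ := by
  ext α β
  rw [Matrix.transpose_apply, pm_apply, pm_apply]
  congr 1
  rw [eq_iff_iff]
  constructor <;> intro h
  · rw [h, inv_smul_smul]
  · rw [h, smul_inv_smul]

omit [Fintype Ω] in
theorem idem_transpose (χ : G → ℂ) :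
    (idem χ : Matrix Ω Ω ℂ)ᵀ = idem (fun g => χ g⁻¹) := by
  rw [idem_def, idem_def, Matrix.transpose_smul, Matrix.transpose_sum, inv_one]
  congr 1
  rw [← Equiv.sum_comp (Equiv.inv G)]
  refine Finset.sum_congr rfl fun g _ => ?_
  simp only [Equiv.inv_apply, inv_inv]
  rw [Matrix.transpose_smul, pm_transpose, inv_inv]

omit [Fintype Ω] in
theorem idem_transpose_of_real {χ : G → ℂ} (hχ : IsIrrCharacter G χ)
    (hreal : ∀ g, conj (χ g) = χ g) : (idem χ : Matrix Ω Ω ℂ)ᵀ = idem χ := by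
  rw [idem_transpose]
  congr 1
  funext g
  rw [show χ g⁻¹ = conj (χ g) from Cfsg.Agent.Lib.Helper4.irr_inv ⟨χ, hχ⟩ g, hreal]

/-- If the permutation character is multiplicity-free with real constituents, then every
invariant matrix is symmetric. -/
theorem symm_of_multFree_real
    (h : ∀ χ : G → ℂ, IsIrrCharacter G χ → classInner (permChar G Ω) χ ≠ 0 →
      classInner (permChar G Ω) χ = 1 ∧ ∀ g, conj (χ g) = χ g)
    {M : Matrix Ω Ω ℂ} (hM : InvMat G M) : Mᵀ = M := by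
  classical
  have := Cfsg.Agent.Lib.Helper4.irr_finite (G := G)
  let _ : Fintype (IrrCharacter G) := Fintype.ofFinite _
  have hmf : ∀ χ : G → ℂ, IsIrrCharacter G χ →
      classInner (permChar G Ω) χ = 0 ∨ classInner (permChar G Ω) χ = 1 := by
    intro χ hχ
    by_cases h0 : classInner (permChar G Ω) χ = 0
    · exact Or.inl h0
    · exact Or.inr (h χ hχ h0).1
  have hd := decomp_of_multFree hmf hM
  conv_lhs => rw [hd]
  conv_rhs => rw [hd]
  rw [Matrix.transpose_sum]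
  refine Finset.sum_congr rfl fun χ _ => ?_
  rw [Matrix.transpose_smul]
  by_cases h0 : classInner (permChar G Ω) (χ : G → ℂ) = 0
  · rw [idem_eq_zero χ.2 h0, Matrix.transpose_zero]
  · rw [idem_transpose_of_real χ.2 (h χ χ.2 h0).2]

/-- A non-zero intertwiner has a left inverse which is a reverse intertwiner. -/
theorem exists_rev {n : ℕ} (D : G → Matrix (Fin n) (Fin n) ℂ)
    (hD : ∀ g h, D (g * h) = D g * D h) (hD1 : D 1 = 1)
    (hS : ∀ M : Matrix (Fin n) (Fin n) ℂ, (∀ g, M * D g = D g * M) → ∃ c : ℂ, M = c • 1)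
    {X : Matrix Ω (Fin n) ℂ} (hX : X ∈ tw D) (hX0 : X ≠ 0) :
    ∃ Y : Matrix (Fin n) Ω ℂ, (∀ h : G, D h * Y = Y * (pm h : Matrix Ω Ω ℂ)) ∧ Y * X = 1 := by
  obtain ⟨ω, i, hωi⟩ : ∃ ω i, X ω i ≠ 0 := by
    by_contra hcon
    push Not at hcon
    exact hX0 (Matrix.ext hcon)
  set Y : Matrix (Fin n) Ω ℂ := ravg D (Matrix.single i ω 1) with hY
  have hYD : ∀ h : G, D h * Y = Y * (pm h : Matrix Ω Ω ℂ) := ravg_comm D hD _
  obtain ⟨c, hc⟩ : ∃ c : ℂ, Y * X = c • 1 := by
    apply hS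
    intro g
    rw [Matrix.mul_assoc, ← hX g, ← Matrix.mul_assoc, ← hYD g, Matrix.mul_assoc]
  have hc0 : c ≠ 0 := by
    intro h0
    have h1 := trace_ravg_mul D hD hD1 (Matrix.single i ω 1) hX
    rw [← hY, hc, h0, zero_smul, Matrix.trace_zero] at h1
    have h2 : Matrix.trace (Matrix.single i ω (1 : ℂ) * X) = X ω i := by
      rw [Matrix.trace_mul_comm, Matrix.trace, Finset.sum_eq_single ω]
      · rw [Matrix.diag_apply, Matrix.mul_apply, Finset.sum_eq_single i]
        · simp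
        · intro b _ hb
          simp [hb.symm]
        · intro h; exact absurd (Finset.mem_univ _) h
      · intro b _ hb
        rw [Matrix.diag_apply, Matrix.mul_apply]
        apply Finset.sum_eq_zero
        intro j _
        simp [hb.symm]
      · intro h; exact absurd (Finset.mem_univ _) h
    rw [h2] at h1
    exact hωi h1.symm
  refine ⟨c⁻¹ • Y, fun h => ?_, ?_⟩
  · rw [Matrix.mul_smul, Matrix.smul_mul, hYD h]
  · rw [Matrix.smul_mul, hc, smul_smul, inv_mul_cancel₀ hc0, one_smul]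

/-- If all invariant matrices are symmetric, the constituents of the permutation character
are real-valued. -/
theorem real_of_symm (hsymm : ∀ M : Matrix Ω Ω ℂ, InvMat G M → Mᵀ = M)
    {χ : G → ℂ} (hχ : IsIrrCharacter G χ) (h0 : classInner (permChar G Ω) χ ≠ 0) (g : G) :
    conj (χ g) = χ g := by
  obtain ⟨n, D, hD, hD1, hDχ, hS, -⟩ := exists_matrix_rep hχ
  have hfr := finrank_tw_eq_classInner (Ω := Ω) hχ D hD hD1 hDχ
  have hbot : (tw D : Submodule ℂ (Matrix Ω (Fin n) ℂ)) ≠ ⊥ := by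
    intro hb
    rw [hb, finrank_bot, Nat.cast_zero] at hfr
    exact h0 hfr.symm
  obtain ⟨X, hX, hX0⟩ := (Submodule.ne_bot_iff _).mp hbot
  obtain ⟨Y, hYD, hYX⟩ := exists_rev D hD hD1 hS hX hX0
  have hinv : InvMat G (X * Y) := by
    rw [invMat_iff_comm]
    intro h
    rw [← Matrix.mul_assoc, hX h, Matrix.mul_assoc, hYD h, Matrix.mul_assoc]
  have hsym := hsymm _ hinv
  rw [Matrix.transpose_mul] at hsym
  -- `Y = (Y Yᵀ) Xᵀ`
  have hY : Y = Y * Yᵀ * Xᵀ := by
    conv_lhs => rw [← Matrix.one_mul Y, ← hYX]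
    rw [Matrix.mul_assoc, ← hsym, Matrix.mul_assoc]
  have hMM' : Y * Yᵀ * (Xᵀ * X) = 1 := by
    rw [← Matrix.mul_assoc, ← hY, hYX]
  have hM'M : Xᵀ * X * (Y * Yᵀ) = 1 := mul_eq_one_comm.mp hMM'
  have hDM : D g * (Y * Yᵀ) = Y * Yᵀ * (D g⁻¹)ᵀ := by
    rw [← Matrix.mul_assoc, hYD g, Matrix.mul_assoc Y Yᵀ, ← Matrix.transpose_mul, hYD g⁻¹,
      Matrix.transpose_mul, pm_transpose, inv_inv, Matrix.mul_assoc]
  have h1 : Matrix.trace (D g) = Matrix.trace (D g⁻¹) := by
    calc Matrix.trace (D g) = Matrix.trace (D g * (Y * Yᵀ * (Xᵀ * X))) := by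
          rw [hMM', Matrix.mul_one]
      _ = Matrix.trace (Y * Yᵀ * (D g⁻¹)ᵀ * (Xᵀ * X)) := by
          rw [← Matrix.mul_assoc, hDM]
      _ = Matrix.trace (Xᵀ * X * (Y * Yᵀ) * (D g⁻¹)ᵀ) := by
          rw [Matrix.trace_mul_comm, ← Matrix.mul_assoc]
      _ = Matrix.trace (D g⁻¹) := by
          rw [hM'M, Matrix.one_mul, Matrix.trace_transpose]
  rw [hDχ, hDχ] at h1
  rw [← Cfsg.Agent.Lib.Helper4.irr_inv ⟨χ, hχ⟩ g]
  exact h1.symm

end Decomp

section Orbital

variable {G : Type*} [Group G] {Ω : Type*} [Fintype Ω] [DecidableEq Ω] [MulAction G Ω]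

open Classical in
/-- The adjacency matrix of the orbital of `(a, b)`, with integer entries. -/
noncomputable def orbMat (G : Type*) [Group G] {Ω : Type*} [MulAction G Ω] (a b : Ω) :
    Matrix Ω Ω ℤ :=
  Matrix.of fun α β => if ∃ g : G, g • a = α ∧ g • b = β then 1 else 0

omit [Fintype Ω] [DecidableEq Ω] in
open Classical in
theorem orbMat_map_apply (a b α β : Ω) :
    ((orbMat G a b).map (Int.castRingHom ℂ)) α β =
      if ∃ g : G, g • a = α ∧ g • b = β then 1 else 0 := by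
  simp only [orbMat, Matrix.map_apply, Matrix.of_apply]
  split_ifs <;> simp

omit [Fintype Ω] [DecidableEq Ω] in
theorem orbMat_inv (a b : Ω) : InvMat G ((orbMat G a b).map (Int.castRingHom ℂ)) := by
  classical
  intro g α β
  rw [orbMat_map_apply, orbMat_map_apply]
  congr 1
  rw [eq_iff_iff]
  constructor
  · rintro ⟨h, h1, h2⟩
    exact ⟨g⁻¹ * h, by rw [mul_smul, h1, inv_smul_smul], by rw [mul_smul, h2, inv_smul_smul]⟩
  · rintro ⟨h, h1, h2⟩
    exact ⟨g * h, by rw [mul_smul, h1], by rw [mul_smul, h2]⟩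

omit [DecidableEq Ω] in
theorem orbMat_trace {a b : Ω} (hab : b ≠ a) :
    Matrix.trace ((orbMat G a b).map (Int.castRingHom ℂ)) = 0 := by
  classical
  rw [Matrix.trace]
  apply Finset.sum_eq_zero
  intro α _
  rw [Matrix.diag_apply, orbMat_map_apply, if_neg]
  rintro ⟨g, h1, h2⟩
  exact hab (smul_left_cancel g (h2.trans h1.symm))

omit [DecidableEq Ω] in
theorem orbMat_rowSum (a b : Ω) :
    ∑ β, ((orbMat G a b).map (Int.castRingHom ℂ)) a β =
      (Nat.card (MulAction.orbit (MulAction.stabilizer G a) b) : ℂ) := by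
  classical
  simp only [orbMat_map_apply]
  rw [Finset.sum_boole]
  have : (MulAction.orbit (MulAction.stabilizer G a) b) =
      ((Finset.univ.filter fun β => ∃ g : G, g • a = a ∧ g • b = β : Finset Ω) : Set Ω) := by
    ext β
    simp only [MulAction.mem_orbit_iff, Finset.coe_filter, Finset.mem_univ, true_and,
      Set.mem_ofPred_eq]
    constructor
    · rintro ⟨s, hs⟩
      exact ⟨s.1, s.2, hs⟩
    · rintro ⟨g, hg, hgb⟩
      exact ⟨⟨g, hg⟩, hgb⟩
  rw [this, Nat.card_coe_set_eq, Set.ncard_coe_finset]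

end Orbital

end Cfsg.Agent.Lib.Helper17
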