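import Mathlib
import Cfsg.Agent.Lib.Helper11.F15Orb
import Cfsg.Agent.Lib.Helper32.TT5P7

/-!
# S1615 piece F3 (helper17, for helper11)

NOTE: the statement carries the extra hypothesis `hx : x ∈ D` (needed for the `S₅` generated by
`x, e, a', a`).
-/

set_option autoImplicit false

namespace Cfsg.Agent.Lib.Helper17.F15

open Cfsg Cfsg.Agent.Lib.Helper11

variable {G : Type*} [Group G] {D : Set G}

theorem f3_cj_comm_iff (g b y : G) : Commute (g * b * g⁻¹) y ↔ Commute b (g⁻¹ * y * g) := by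
  constructor
  · intro h
    have h' : g * b * g⁻¹ * y = y * (g * b * g⁻¹) := h
    show b * (g⁻¹ * y * g) = g⁻¹ * y * g * b
    calc b * (g⁻¹ * y * g) = g⁻¹ * ((g * b * g⁻¹) * y) * g := by group
      _ = g⁻¹ * (y * (g * b * g⁻¹)) * g := by rw [h']
      _ = g⁻¹ * y * g * b := by group
  · intro h
    have h' : b * (g⁻¹ * y * g) = g⁻¹ * y * g * b := h
    show g * b * g⁻¹ * y = y * (g * b * g⁻¹)
    calc g * b * g⁻¹ * y = g * (b * (g⁻¹ * y * g)) * g⁻¹ := by group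
      _ = g * ((g⁻¹ * y * g) * b) * g⁻¹ := by rw [h']
      _ = y * (g * b * g⁻¹) := by group

/-- the `5`-cycle used in the conjugation trick -/
def f3_sig : Equiv.Perm (Fin 5) :=
  Equiv.swap 2 3 * Equiv.swap 1 2 * Equiv.swap 0 1 * Equiv.swap 3 4 * Equiv.swap 2 3 *
    Equiv.swap 1 2

/-- the conjugator of `(1 2)` to `(0 4)` -/
def f3_rho : Equiv.Perm (Fin 5) :=
  Equiv.swap 0 1 * Equiv.swap 2 3 * Equiv.swap 3 4 * Equiv.swap 2 3

theorem f3_P1 : f3_sig⁻¹ * Equiv.swap 3 4 * f3_sig = Equiv.swap 0 1 := by decide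

theorem f3_P2 : f3_sig⁻¹ * Equiv.swap 0 1 * f3_sig = Equiv.swap 2 3 := by decide

theorem f3_P3 : f3_sig⁻¹ * Equiv.swap 2 3 * f3_sig = f3_rho * Equiv.swap 1 2 * f3_rho⁻¹ := by
  decide

theorem f15_F3 (hD : IsThreeTranspositionClass D) {x : G} (hx : x ∈ D) {N : Subgroup G}
    (hN : F15N D x N)
    {a n e b : G} (ha : a ∈ ttNb D x) (hn : n ∈ N) (he : e ∈ D) (hex : ¬ Commute e x)
    (hea : Commute e a) (hea' : ¬ Commute e (n * a * n⁻¹)) (hb : b ∈ ttNb D x) (hba : b ≠ a)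
    (hbc : Commute b a) : Commute b e := by
  obtain ⟨ha'nb, hfix⟩ := f15_orbit hD hN ha hn
  set a' := n * a * n⁻¹ with ha'def
  have ha'ne : a' ≠ a := fun h => hea' (h ▸ hea)
  have hnc : ¬ Commute a a' := fun h => ha'ne (hfix h)
  have hba' : Commute b a' := f15_step3 hD hN ha hb hn hba hbc
  by_contra hbe
  have haD : a ∈ D := ha.1
  have ha'D : a' ∈ D := ha'nb.1
  have hbD : b ∈ D := hb.1
  obtain ⟨f, -, hf1, hf2, hf3, hf4⟩ := Cfsg.Agent.Lib.Helper32.TT5.cox x e a' a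
    (tt_sq hD hx) (tt_sq hD he) (tt_sq hD ha'D) (tt_sq hD haD)
    (tt_braid hD hx he (fun h => hex h.symm)).1
    (tt_braid hD he ha'D hea').1
    (tt_braid hD ha'D haD (fun h => hnc h.symm)).1
    ha'nb.2.2.eq ha.2.2.eq hea.eq (fun h => ha'nb.2.1 h.symm)
  set g : G := f f3_sig with hg
  have hc1 : g⁻¹ * a * g = x := by
    rw [hg, ← hf4, ← hf1, ← map_inv, ← map_mul, ← map_mul, f3_P1]
  have hc2 : g⁻¹ * x * g = a' := by
    rw [hg, ← hf1, ← hf3, ← map_inv, ← map_mul, ← map_mul, f3_P2]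
  have hc3 : g⁻¹ * a' * g = f f3_rho * e * (f f3_rho)⁻¹ := by
    rw [hg, ← hf3, ← hf2, ← map_inv, ← map_mul, ← map_mul, f3_P3, map_mul, map_mul, map_inv]
  have hrho : f f3_rho = x * a' * a * a' := by
    unfold f3_rho
    rw [map_mul, map_mul, map_mul, hf1, hf3, hf4]
  have hbrho : Commute b (f f3_rho) := by
    rw [hrho]
    exact ((hb.2.2.symm.mul_right hba').mul_right hbc).mul_right hba'
  -- the conjugate `c`
  have hcD : g * b * g⁻¹ ∈ D := tt_conj_mem hD hbD g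
  have hca : Commute (g * b * g⁻¹) a := by
    rw [f3_cj_comm_iff, hc1]; exact hb.2.2.symm
  have hcx : Commute (g * b * g⁻¹) x := by
    rw [f3_cj_comm_iff, hc2]; exact hba'
  have hca' : ¬ Commute (g * b * g⁻¹) a' := by
    rw [f3_cj_comm_iff, hc3]
    intro h
    apply hbe
    -- `b` commutes with `r e r⁻¹` and with `r`
    have h1 : b * (f f3_rho * e * (f f3_rho)⁻¹) = f f3_rho * e * (f f3_rho)⁻¹ * b := h
    have h2 : b * f f3_rho = f f3_rho * b := hbrho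
    have h3 : (f f3_rho)⁻¹ * b = b * (f f3_rho)⁻¹ := by
      rw [inv_mul_eq_iff_eq_mul, ← mul_assoc, ← h2, mul_assoc, mul_inv_cancel, mul_one]
    show b * e = e * b
    calc b * e = (f f3_rho)⁻¹ * (b * (f f3_rho * e * (f f3_rho)⁻¹)) * f f3_rho := by
          rw [← mul_assoc (f f3_rho)⁻¹ b, h3]; group
      _ = (f f3_rho)⁻¹ * (f f3_rho * e * (f f3_rho)⁻¹ * b) * f f3_rho := by rw [h1]
      _ = e * ((f f3_rho)⁻¹ * b * f f3_rho) := by group
      _ = e * b := by rw [h3, mul_assoc, inv_mul_cancel, mul_one]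
  have hcnea : g * b * g⁻¹ ≠ a := by
    intro h
    apply hb.2.1
    have : b = g⁻¹ * a * g := by rw [← h]; group
    rw [this, hc1]
  have hcnex : g * b * g⁻¹ ≠ x := by
    intro h
    have h1 : b = g⁻¹ * x * g := by rw [← h]; group
    rw [hc2] at h1
    exact hnc (h1 ▸ hbc).symm
  have hcnb : g * b * g⁻¹ ∈ ttNb D x := ⟨hcD, hcnex, hcx.symm⟩
  exact hca' (f15_step3 hD hN ha hcnb hn hcnea hca)

end Cfsg.Agent.Lib.Helper17.F15
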