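import Mathlib

set_option autoImplicit false

namespace Cfsg.Agent.Lib.Helper14.OS

theorem osf_mc {G : Type*} [Group G] (u g : G) :
    g ∈ Subgroup.centralizer ({u} : Set G) ↔ u * g = g * u := by
  rw [Subgroup.mem_centralizer_iff]
  constructor
  · intro h; exact h u rfl
  · intro h y hy
    rw [Set.mem_singleton_iff] at hy
    rw [hy]; exact h

theorem osf_invol_unique {G : Type*} [Group G] (a : ℕ) (x : G) (hx : orderOf x = a)
    (ha : Even a) (ha0 : 0 < a)
    (u : G) (hu : u ∈ Subgroup.zpowers x) (hu2 : orderOf u = 2) : u = x ^ (a / 2) := by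
  obtain ⟨m, hm⟩ := ha
  have hm0 : 0 < m := by omega
  have ham : a / 2 = m := by omega
  obtain ⟨k, rfl⟩ := Subgroup.mem_zpowers_iff.mp hu
  have h1 : (x ^ k) ^ 2 = 1 := by rw [← hu2]; exact pow_orderOf_eq_one _
  have h2 : x ^ (k * 2) = 1 := by rw [zpow_mul]; exact_mod_cast h1
  have h3 : ((orderOf x : ℕ) : ℤ) ∣ k * 2 := orderOf_dvd_iff_zpow_eq_one.mpr h2
  rw [hx] at h3
  have h4 : (m : ℤ) ∣ k := by
    obtain ⟨c, hc⟩ := h3
    refine ⟨c, ?_⟩
    have hcast : (a : ℤ) = (m : ℤ) + (m : ℤ) := by exact_mod_cast hm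
    rw [hcast] at hc
    have : k * 2 = ((m : ℤ) * c) * 2 := by rw [hc]; ring
    exact mul_right_cancel₀ (by norm_num) this
  obtain ⟨j, rfl⟩ := h4
  have ht2 : (x ^ m) ^ 2 = 1 := by
    rw [← pow_mul]
    have : m * 2 = orderOf x := by omega
    rw [this]; exact pow_orderOf_eq_one x
  rw [ham]
  have e : x ^ ((m : ℤ) * j) = (x ^ m) ^ j := by rw [zpow_mul, zpow_natCast]
  rw [e] at hu2 ⊢
  have hj : j % 2 = 0 ∨ j % 2 = 1 := by omega
  have e2 : (x ^ m) ^ j = (x ^ m) ^ (j % 2) := by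
    conv_lhs => rw [← Int.emod_add_mul_ediv j 2]
    rw [zpow_add, zpow_mul]
    have : (x ^ m) ^ (2 : ℤ) = 1 := by exact_mod_cast ht2
    rw [this, one_zpow, mul_one]
  rcases hj with h | h
  · rw [e2, h, zpow_zero] at hu2
    simp at hu2
  · rw [e2, h, zpow_one]

theorem osf_core {G : Type*} [Group G] [Finite G] (t : G) (T C : Subgroup G)
    (hCt : ∀ g : G, g ∈ C ↔ t * g = g * t)
    (ht2 : orderOf t = 2) (htT : t ∈ T)
    (hTcomm : ∀ y ∈ T, ∀ z ∈ T, y * z = z * y)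
    (huniq : ∀ u ∈ T, orderOf u = 2 → u = t)
    (hrel : T.relIndex C = 2)
    (hN : Subgroup.normalizer (T : Set G) = C)
    (hc1 : ∀ y ∈ T, (∃ c ∈ C, c * y ≠ y * c) → Subgroup.centralizer ({y} : Set G) = T)
    (hc2 : ∀ y ∈ T, y ≠ 1 → (∀ c ∈ C, c * y = y * c) →
      Subgroup.centralizer ({y} : Set G) = C)
    (hnab : ¬ ∀ c ∈ C, ∀ d ∈ C, c * d = d * c)
    (hconj : ∀ s ∈ C, s ∉ T → ∃ h : G, h * s * h⁻¹ ∈ T)
    (hex : ∃ s ∈ C, s ∉ T) :
    (∀ y ∈ T, (∀ c ∈ C, c * y = y * c) → y = 1 ∨ y = t) ∧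
    (∀ s ∈ C, s ∉ T → orderOf s = 2 ∧ IsConj s t) := by
  classical
  have ht1 : t ≠ 1 := by
    intro h; rw [h, orderOf_one] at ht2; omega
  have hidx : ∀ c ∈ C, ∀ d ∈ C, c ∉ T → d ∉ T → c⁻¹ * d ∈ T := by
    intro c hc d hd hcT hdT
    have key := Subgroup.mul_mem_iff_of_index_two (H := T.subgroupOf C) hrel
      (a := (⟨c, hc⟩ : C)⁻¹) (b := ⟨d, hd⟩)
    have h1 : ((⟨c, hc⟩ : C)⁻¹ ∈ T.subgroupOf C ↔ (⟨d, hd⟩ : C) ∈ T.subgroupOf C) := by
      rw [Subgroup.inv_mem_iff, Subgroup.mem_subgroupOf, Subgroup.mem_subgroupOf]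
      exact ⟨fun h => absurd h hcT, fun h => absurd h hdT⟩
    have := key.mpr h1
    rw [Subgroup.mem_subgroupOf] at this
    exact this
  have hcentral : ∀ s ∈ C, s ∉ T → ∀ y ∈ T, s * y = y * s → ∀ c ∈ C, c * y = y * c := by
    intro s hs hsT y hy hsy c hc
    by_cases hcT : c ∈ T
    · exact hTcomm c hcT y hy
    · have h1 : s⁻¹ * c ∈ T := hidx s hs c hc hsT hcT
      have h2 := hTcomm (s⁻¹ * c) h1 y hy
      calc c * y = s * ((s⁻¹ * c) * y) := by group
        _ = s * (y * (s⁻¹ * c)) := by rw [h2]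
        _ = (s * y) * (s⁻¹ * c) := by group
        _ = (y * s) * (s⁻¹ * c) := by rw [hsy]
        _ = y * c := by group
  have hTC : ∀ y ∈ T, y ∈ C := fun y hy => (hCt y).mpr (hTcomm t htT y hy)
  have hnocentral : ∀ s ∈ C, s ∉ T → (∀ c ∈ C, c * s = s * c) → False := by
    intro s hs hsT hsc
    apply hnab
    intro c hc d hd
    have hTcen : ∀ y ∈ T, ∀ e ∈ C, e * y = y * e := fun y hy =>
      hcentral s hs hsT y hy (hsc y (hTC y hy)).symm
    by_cases hcT : c ∈ T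
    · exact (hTcen c hcT d hd).symm
    · have h1 : s⁻¹ * c ∈ T := hidx s hs c hc hsT hcT
      have h2 := hTcen _ h1 d hd
      have h3 := hsc d hd
      calc c * d = s * ((s⁻¹ * c) * d) := by group
        _ = s * (d * (s⁻¹ * c)) := by rw [h2]
        _ = (s * d) * (s⁻¹ * c) := by group
        _ = (d * s) * (s⁻¹ * c) := by rw [h3]
        _ = d * c := by group
  have hne1 : ∀ s : G, s ∉ T → ∀ h : G, h * s * h⁻¹ ≠ 1 := by
    intro s hsT h h1
    apply hsT
    have : s = h⁻¹ * (h * s * h⁻¹) * h := by group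
    rw [this, h1]
    have : h⁻¹ * 1 * h = 1 := by group
    rw [this]; exact T.one_mem
  have step1 : ∀ s ∈ C, s ∉ T → ∀ h : G, h * s * h⁻¹ ∈ T →
      (∀ c ∈ C, c * (h * s * h⁻¹) = (h * s * h⁻¹) * c) := by
    intro s hs hsT h hy
    by_contra hcon
    push_neg at hcon
    obtain ⟨c, hc, hcy⟩ := hcon
    have hcy' := hc1 _ hy ⟨c, hc, hcy⟩
    have hts : t * s = s * t := (hCt s).mp hs
    have h1 : h * t * h⁻¹ ∈ T := by
      rw [← hcy', osf_mc]
      calc h * s * h⁻¹ * (h * t * h⁻¹) = h * (s * t) * h⁻¹ := by group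
        _ = h * (t * s) * h⁻¹ := by rw [hts]
        _ = h * t * h⁻¹ * (h * s * h⁻¹) := by group
    have h2 : orderOf (h * t * h⁻¹) = 2 := by
      have := (MulAut.conj h).orderOf_eq t
      rw [MulAut.conj_apply] at this
      rw [this, ht2]
    have h3 : h * t * h⁻¹ = t := huniq _ h1 h2
    have h4 : h ∈ C := by
      rw [hCt]
      calc t * h = (h * t * h⁻¹) * h := by rw [h3]
        _ = h * t := by group
    have h5 : h⁻¹ ∈ Subgroup.normalizer (T : Set G) := by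
      rw [hN]; exact inv_mem h4
    have h6 := (Subgroup.mem_normalizer_iff.mp h5 (h * s * h⁻¹)).mp hy
    apply hsT
    have : h⁻¹ * (h * s * h⁻¹) * h⁻¹⁻¹ = s := by group
    rw [this] at h6; exact h6
  have main : ∀ s ∈ C, s ∉ T → ∀ h : G, h * s * h⁻¹ ∈ T → ∀ z ∈ T,
      (∀ c ∈ C, c * z = z * c) → z ≠ 1 → z = t := by
    intro s hs hsT h hy z hz hzc hz1
    have hyc := step1 s hs hsT h hy
    have hy1 := hne1 s hsT h
    have hCy := hc2 _ hy hy1 hyc
    have star : ∀ g : G, g * s = s * g → h * g * h⁻¹ ∈ C := by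
      intro g hg
      rw [← hCy, osf_mc]
      calc h * s * h⁻¹ * (h * g * h⁻¹) = h * (s * g) * h⁻¹ := by group
        _ = h * (g * s) * h⁻¹ := by rw [hg]
        _ = h * g * h⁻¹ * (h * s * h⁻¹) := by group
    have star' : ∀ g : G, h * g * h⁻¹ ∈ C → g * s = s * g := by
      intro g hg
      rw [← hCy, osf_mc] at hg
      calc g * s = h⁻¹ * ((h * g * h⁻¹) * (h * s * h⁻¹)) * h := by group
        _ = h⁻¹ * ((h * s * h⁻¹) * (h * g * h⁻¹)) * h := by rw [hg]
        _ = s * g := by group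
    have fa : ∀ w0 ∈ T, (∀ c ∈ C, c * w0 = w0 * c) → ∀ g : G, g * s = s * g →
        g * (h⁻¹ * w0 * h) = (h⁻¹ * w0 * h) * g := by
      intro w0 hw0 hw0c g hg
      have := hw0c _ (star g hg)
      calc g * (h⁻¹ * w0 * h) = h⁻¹ * ((h * g * h⁻¹) * w0) * h := by group
        _ = h⁻¹ * (w0 * (h * g * h⁻¹)) * h := by rw [this]
        _ = (h⁻¹ * w0 * h) * g := by group
    have hts : t * s = s * t := (hCt s).mp hs
    have fb : ∀ w0 ∈ T, (∀ c ∈ C, c * w0 = w0 * c) → w0 ≠ 1 → h⁻¹ * w0 * h ∉ T := by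
      intro w0 hw0 hw0c hw01 hwT
      have hws : s * (h⁻¹ * w0 * h) = (h⁻¹ * w0 * h) * s := fa w0 hw0 hw0c s rfl
      have hwc := hcentral s hs hsT _ hwT hws
      have hw1 : h⁻¹ * w0 * h ≠ 1 := by
        intro h1
        apply hw01
        have : w0 = h * (h⁻¹ * w0 * h) * h⁻¹ := by group
        rw [this, h1]; group
      have hCw := hc2 _ hwT hw1 hwc
      have hCw0 := hc2 _ hw0 hw01 hw0c
      apply hnocentral s hs hsT
      intro c hc
      apply star'
      rw [← hCw0, osf_mc]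
      have hcw : (h⁻¹ * w0 * h) * c = c * (h⁻¹ * w0 * h) := by
        have := hc; rw [← hCw, osf_mc] at this; exact this
      calc w0 * (h * c * h⁻¹) = h * ((h⁻¹ * w0 * h) * c) * h⁻¹ := by group
        _ = h * (c * (h⁻¹ * w0 * h)) * h⁻¹ := by rw [hcw]
        _ = h * c * h⁻¹ * w0 := by group
    have htc : ∀ c ∈ C, c * t = t * c := fun c hc => ((hCt c).mp hc).symm
    have hz'C : h⁻¹ * z * h ∈ C := by
      rw [hCt]; exact fa z hz hzc t hts
    have ht'C : h⁻¹ * t * h ∈ C := by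
      rw [hCt]; exact fa t htT htc t hts
    have hz'T := fb z hz hzc hz1
    have ht'T := fb t htT htc ht1
    have hw := hidx _ hz'C _ ht'C hz'T ht'T
    have e : (h⁻¹ * z * h)⁻¹ * (h⁻¹ * t * h) = h⁻¹ * (z⁻¹ * t) * h := by group
    rw [e] at hw
    by_contra hzt
    have hw01 : z⁻¹ * t ≠ 1 := by
      intro h1
      exact hzt (inv_mul_eq_one.mp h1)
    have hw0T : z⁻¹ * t ∈ T := T.mul_mem (T.inv_mem hz) htT
    have hw0c : ∀ c ∈ C, c * (z⁻¹ * t) = (z⁻¹ * t) * c := by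
      intro c hc
      have h1 := hzc c hc
      have h2 := htc c hc
      calc c * (z⁻¹ * t) = z⁻¹ * (z * c) * z⁻¹ * t := by group
        _ = z⁻¹ * (c * z) * z⁻¹ * t := by rw [h1]
        _ = z⁻¹ * (c * t) := by group
        _ = z⁻¹ * (t * c) := by rw [h2]
        _ = (z⁻¹ * t) * c := by group
    exact fb _ hw0T hw0c hw01 hw
  obtain ⟨s0, hs0, hs0T⟩ := hex
  obtain ⟨h0, hh0⟩ := hconj s0 hs0 hs0T
  refine ⟨?_, ?_⟩
  · intro y hy hyc
    by_cases hy1 : y = 1
    · left; exact hy1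
    · right; exact main s0 hs0 hs0T h0 hh0 y hy hyc hy1
  · intro s hs hsT
    obtain ⟨h, hh⟩ := hconj s hs hsT
    have hyc := step1 s hs hsT h hh
    have hy1 := hne1 s hsT h
    have hyt := main s hs hsT h hh _ hh hyc hy1
    refine ⟨?_, isConj_iff.mpr ⟨h, hyt⟩⟩
    have := (MulAut.conj h).orderOf_eq s
    rw [MulAut.conj_apply, hyt, ht2] at this
    exact this.symm

theorem nonab_core {G : Type*} [Group G] [Finite G] (a : ℕ) (x : G) (hx : orderOf x = a)
    (ha : Even a) (ha0 : 0 < a)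
    (hC : Nat.card (Subgroup.centralizer ({x ^ (a / 2)} : Set G)) = 2 * a)
    (hN : Subgroup.normalizer ((Subgroup.zpowers x : Subgroup G) : Set G)
      = Subgroup.centralizer ({x ^ (a / 2)} : Set G))
    (hc1 : ∀ y ∈ Subgroup.zpowers x,
      (∃ c ∈ Subgroup.centralizer ({x ^ (a / 2)} : Set G), c * y ≠ y * c) →
      Subgroup.centralizer ({y} : Set G) = Subgroup.zpowers x)
    (hc2 : ∀ y ∈ Subgroup.zpowers x, y ≠ 1 →
      (∀ c ∈ Subgroup.centralizer ({x ^ (a / 2)} : Set G), c * y = y * c) →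
      Subgroup.centralizer ({y} : Set G) = Subgroup.centralizer ({x ^ (a / 2)} : Set G))
    (hnab : ¬ ∀ c ∈ Subgroup.centralizer ({x ^ (a / 2)} : Set G),
      ∀ d ∈ Subgroup.centralizer ({x ^ (a / 2)} : Set G), c * d = d * c)
    (hconj : ∀ s ∈ Subgroup.centralizer ({x ^ (a / 2)} : Set G), s ∉ Subgroup.zpowers x →
      ∃ h : G, h * s * h⁻¹ ∈ Subgroup.zpowers x) :
    (∀ y ∈ Subgroup.zpowers x,
      (∀ c ∈ Subgroup.centralizer ({x ^ (a / 2)} : Set G), c * y = y * c) →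
      y = 1 ∨ y = x ^ (a / 2)) ∧
    (∀ s ∈ Subgroup.centralizer ({x ^ (a / 2)} : Set G), s ∉ Subgroup.zpowers x →
      orderOf s = 2 ∧ IsConj s (x ^ (a / 2))) := by
  have ht2 : orderOf (x ^ (a / 2)) = 2 := by
    obtain ⟨m, hm⟩ := ha
    have ham : a / 2 = m := by omega
    have hm0 : m ≠ 0 := by omega
    rw [ham, orderOf_pow_of_dvd hm0 (by rw [hx, hm]; exact ⟨2, by ring⟩), hx, hm]
    rw [← two_mul, Nat.mul_div_cancel _ (by omega)]
  have htT : x ^ (a / 2) ∈ Subgroup.zpowers x :=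
    Subgroup.pow_mem _ (Subgroup.mem_zpowers x) _
  have hTcomm : ∀ y ∈ Subgroup.zpowers x, ∀ z ∈ Subgroup.zpowers x, y * z = z * y := by
    intro y hy z hz
    obtain ⟨k, rfl⟩ := Subgroup.mem_zpowers_iff.mp hy
    obtain ⟨l, rfl⟩ := Subgroup.mem_zpowers_iff.mp hz
    exact zpow_mul_comm x k l
  have hTC : Subgroup.zpowers x ≤ Subgroup.centralizer ({x ^ (a / 2)} : Set G) := by
    intro y hy
    rw [osf_mc]
    exact hTcomm _ htT y hy
  have hTcard : Nat.card (Subgroup.zpowers x) = a := by rw [Nat.card_zpowers, hx]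
  have hrel : (Subgroup.zpowers x).relIndex (Subgroup.centralizer ({x ^ (a / 2)} : Set G))
      = 2 := by
    have h1 := Subgroup.relIndex_mul_index hTC
    have h2 := Subgroup.card_mul_index (Subgroup.zpowers x)
    have h3 := Subgroup.card_mul_index (Subgroup.centralizer ({x ^ (a / 2)} : Set G))
    rw [hTcard] at h2
    rw [hC] at h3
    have hCi : 0 < (Subgroup.centralizer ({x ^ (a / 2)} : Set G)).index :=
      Nat.pos_of_ne_zero Subgroup.index_ne_zero_of_finite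
    have e : a * ((Subgroup.zpowers x).relIndex (Subgroup.centralizer ({x ^ (a / 2)} : Set G))
        * (Subgroup.centralizer ({x ^ (a / 2)} : Set G)).index)
        = a * (2 * (Subgroup.centralizer ({x ^ (a / 2)} : Set G)).index) := by
      rw [h1, h2, ← h3]; ring
    have e2 := Nat.eq_of_mul_eq_mul_left ha0 e
    exact Nat.eq_of_mul_eq_mul_right hCi e2
  have hex : ∃ s ∈ Subgroup.centralizer ({x ^ (a / 2)} : Set G), s ∉ Subgroup.zpowers x := by
    by_contra hcon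
    push_neg at hcon
    have hle : Subgroup.centralizer ({x ^ (a / 2)} : Set G) ≤ Subgroup.zpowers x :=
      fun s hs => hcon s hs
    have := Subgroup.card_le_of_le hle
    rw [hC, hTcard] at this
    omega
  exact osf_core (x ^ (a / 2)) (Subgroup.zpowers x) (Subgroup.centralizer ({x ^ (a / 2)} : Set G))
    (fun g => osf_mc _ g) ht2 htT hTcomm
    (fun u hu hu2 => osf_invol_unique a x hx ha ha0 u hu hu2) hrel hN hc1 hc2 hnab hconj hex

end Cfsg.Agent.Lib.Helper14.OS
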