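import Mathlib

set_option autoImplicit false

namespace Cfsg.Agent.Lib.Helper14.OS

theorem osg_mc {G : Type*} [Group G] (u g : G) :
    g ∈ Subgroup.centralizer ({u} : Set G) ↔ u * g = g * u := by
  rw [Subgroup.mem_centralizer_iff]
  constructor
  · intro h; exact h u rfl
  · intro h y hy
    rw [Set.mem_singleton_iff] at hy
    rw [hy]; exact h

theorem osg_invol_unique {G : Type*} [Group G] (a : ℕ) (x : G) (hx : orderOf x = a)
    (ha : Even a) (ha0 : 0 < a)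
    (u : G) (hu : u ∈ Subgroup.zpowers x) (hu2 : orderOf u = 2) : u = x ^ (a / 2) := by
  obtain ⟨m, hm⟩ := ha
  have hm0 : 0 < m := by omega
  have ham : a / 2 = m := by omega
  obtain ⟨k, rfl⟩ := Subgroup.mem_zpowers_iff.mp hu
  have h1 : (x ^ k) ^ 2 = 1 := by rw [← hu2]; exact pow_orderOf_eq_one _
  have h2 : x ^ (k * 2) = 1 := by rw [zpow_mul]; exact_mod_cast h1
  have h3 : ((orderOf x : ℕ) : ℤ) ∣ k * 2 := orderOf_dvd_iff_zpow_eq_one.mpr h2
  rw [hx] at h3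
  have h4 : (m : ℤ) ∣ k := by
    obtain ⟨c, hc⟩ := h3
    refine ⟨c, ?_⟩
    have hcast : (a : ℤ) = (m : ℤ) + (m : ℤ) := by exact_mod_cast hm
    rw [hcast] at hc
    have : k * 2 = ((m : ℤ) * c) * 2 := by rw [hc]; ring
    exact mul_right_cancel₀ (by norm_num) this
  obtain ⟨j, rfl⟩ := h4
  have ht2 : (x ^ m) ^ 2 = 1 := by
    rw [← pow_mul]
    have : m * 2 = orderOf x := by omega
    rw [this]; exact pow_orderOf_eq_one x
  rw [ham]
  have e : x ^ ((m : ℤ) * j) = (x ^ m) ^ j := by rw [zpow_mul, zpow_natCast]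
  rw [e] at hu2 ⊢
  have hj : j % 2 = 0 ∨ j % 2 = 1 := by omega
  have e2 : (x ^ m) ^ j = (x ^ m) ^ (j % 2) := by
    conv_lhs => rw [← Int.emod_add_mul_ediv j 2]
    rw [zpow_add, zpow_mul]
    have : (x ^ m) ^ (2 : ℤ) = 1 := by exact_mod_cast ht2
    rw [this, one_zpow, mul_one]
  rcases hj with h | h
  · rw [e2, h, zpow_zero] at hu2
    simp at hu2
  · rw [e2, h, zpow_one]

theorem osg_nocentral {G : Type*} [Group G] (T C : Subgroup G)
    (hTcomm : ∀ y ∈ T, ∀ z ∈ T, y * z = z * y) (hTC : T ≤ C) (hrel : T.relIndex C = 2)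
    (s : G) (hs : s ∈ C) (hsT : s ∉ T) (hsc : ∀ c ∈ C, c * s = s * c) :
    ∀ c ∈ C, ∀ d ∈ C, c * d = d * c := by
  have hidx : ∀ c ∈ C, ∀ d ∈ C, c ∉ T → d ∉ T → c⁻¹ * d ∈ T := by
    intro c hc d hd hcT hdT
    have key := Subgroup.mul_mem_iff_of_index_two (H := T.subgroupOf C) hrel
      (a := (⟨c, hc⟩ : C)⁻¹) (b := ⟨d, hd⟩)
    have h1 : ((⟨c, hc⟩ : C)⁻¹ ∈ T.subgroupOf C ↔ (⟨d, hd⟩ : C) ∈ T.subgroupOf C) := by
      rw [Subgroup.inv_mem_iff, Subgroup.mem_subgroupOf, Subgroup.mem_subgroupOf]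
      exact ⟨fun h => absurd h hcT, fun h => absurd h hdT⟩
    have := key.mpr h1
    rw [Subgroup.mem_subgroupOf] at this
    exact this
  have hcentral : ∀ y ∈ T, s * y = y * s → ∀ c ∈ C, c * y = y * c := by
    intro y hy hsy c hc
    by_cases hcT : c ∈ T
    · exact hTcomm c hcT y hy
    · have h1 : s⁻¹ * c ∈ T := hidx s hs c hc hsT hcT
      have h2 := hTcomm (s⁻¹ * c) h1 y hy
      calc c * y = s * ((s⁻¹ * c) * y) := by group
        _ = s * (y * (s⁻¹ * c)) := by rw [h2]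
        _ = (s * y) * (s⁻¹ * c) := by group
        _ = (y * s) * (s⁻¹ * c) := by rw [hsy]
        _ = y * c := by group
  intro c hc d hd
  have hTcen : ∀ y ∈ T, ∀ e ∈ C, e * y = y * e := fun y hy =>
    hcentral y hy (hsc y (hTC hy)).symm
  by_cases hcT : c ∈ T
  · exact (hTcen c hcT d hd).symm
  · have h1 : s⁻¹ * c ∈ T := hidx s hs c hc hsT hcT
    have h2 := hTcen _ h1 d hd
    have h3 := hsc d hd
    calc c * d = s * ((s⁻¹ * c) * d) := by group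
      _ = s * (d * (s⁻¹ * c)) := by rw [h2]
      _ = (s * d) * (s⁻¹ * c) := by group
      _ = (d * s) * (s⁻¹ * c) := by rw [h3]
      _ = d * c := by group

theorem osg_orderOf_conj {G : Type*} [Group G] (h y : G) :
    orderOf (h * y * h⁻¹) = orderOf y := by
  have := (MulAut.conj h).orderOf_eq y
  rw [MulAut.conj_apply] at this
  exact this

theorem osg_core {G : Type*} [Group G] [Finite G] (a : ℕ) (ha0 : 0 < a) (t : G)
    (T C : Subgroup G)
    (hCt : ∀ g : G, g ∈ C ↔ t * g = g * t)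
    (ht2 : orderOf t = 2) (htT : t ∈ T)
    (hTcomm : ∀ y ∈ T, ∀ z ∈ T, y * z = z * y)
    (huniq : ∀ u ∈ T, orderOf u = 2 → u = t)
    (hrel : T.relIndex C = 2)
    (hTcard : Nat.card T = a) (hCcard : Nat.card C = 2 * a)
    (hTord : ∀ y ∈ T, orderOf y ∣ a)
    (hN : Subgroup.normalizer (T : Set G) = C)
    (hc1 : ∀ y ∈ T, (∃ c ∈ C, c * y ≠ y * c) → Subgroup.centralizer ({y} : Set G) = T)
    (hc2 : ∀ y ∈ T, y ≠ 1 → (∀ c ∈ C, c * y = y * c) →
      Subgroup.centralizer ({y} : Set G) = C)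
    (hnab : ¬ ∀ c ∈ C, ∀ d ∈ C, c * d = d * c)
    (hNa : Nat.card {g : G | g ≠ 1 ∧ orderOf g ∣ a} * (2 * a) = Nat.card G * (a - 1))
    (hTI : ∀ (S : Set G) (N : Subgroup G), (∀ k ∈ N, ∀ y ∈ S, k * y * k⁻¹ ∈ S) →
      (∀ k : G, ∀ y ∈ S, k * y * k⁻¹ ∈ S → k ∈ N) →
      Nat.card {g : G | ∃ h : G, ∃ y ∈ S, g = h * y * h⁻¹} * Nat.card N
        = Nat.card G * Nat.card S) :
    ∀ g : G, g ≠ 1 → orderOf g ∣ a → ∃ h : G, h * g * h⁻¹ ∈ T := by
  classical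
  have hTC : T ≤ C := fun y hy => (hCt y).mpr (hTcomm t htT y hy)
  have hnoc : ∀ s ∈ C, s ∉ T → (∀ c ∈ C, c * s = s * c) → False :=
    fun s hs hsT hsc => hnab (osg_nocentral T C hTcomm hTC hrel s hs hsT hsc)
  have h11 : ∀ k ∈ C, ∀ y ∈ {y : G | y ∈ T ∧ ∃ c ∈ C, c * y ≠ y * c},
      k * y * k⁻¹ ∈ {y : G | y ∈ T ∧ ∃ c ∈ C, c * y ≠ y * c} := by
    rintro k hk y ⟨hy, c0, hc0, hne⟩
    refine ⟨?_, k * c0 * k⁻¹, C.mul_mem (C.mul_mem hk hc0) (C.inv_mem hk), ?_⟩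
    · have hk' : k ∈ Subgroup.normalizer (T : Set G) := by rw [hN]; exact hk
      exact (Subgroup.mem_normalizer_iff.mp hk' y).mp hy
    · intro heq
      apply hne
      have e1 : c0 * y = k⁻¹ * ((k * c0 * k⁻¹) * (k * y * k⁻¹)) * k := by group
      have e2 : y * c0 = k⁻¹ * ((k * y * k⁻¹) * (k * c0 * k⁻¹)) * k := by group
      rw [e1, e2, heq]
  have h12 : ∀ k : G, ∀ y ∈ {y : G | y ∈ T ∧ ∃ c ∈ C, c * y ≠ y * c},
      k * y * k⁻¹ ∈ {y : G | y ∈ T ∧ ∃ c ∈ C, c * y ≠ y * c} → k ∈ C := by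
    rintro k y ⟨hy, hyn⟩ ⟨hy', hyn'⟩
    have hCy := hc1 y hy hyn
    have hCy' := hc1 _ hy' hyn'
    rw [← hN, Subgroup.mem_normalizer_iff]
    intro g
    constructor
    · intro hg
      have h1 : g ∈ Subgroup.centralizer ({y} : Set G) := by rw [hCy]; exact hg
      rw [osg_mc] at h1
      have h2 : k * g * k⁻¹ ∈ Subgroup.centralizer ({k * y * k⁻¹} : Set G) := by
        rw [osg_mc]
        calc k * y * k⁻¹ * (k * g * k⁻¹) = k * (y * g) * k⁻¹ := by group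
          _ = k * (g * y) * k⁻¹ := by rw [h1]
          _ = k * g * k⁻¹ * (k * y * k⁻¹) := by group
      rw [hCy'] at h2; exact h2
    · intro hg
      have h1 : k * g * k⁻¹ ∈ Subgroup.centralizer ({k * y * k⁻¹} : Set G) := by
        rw [hCy']; exact hg
      rw [osg_mc] at h1
      have h2 : g ∈ Subgroup.centralizer ({y} : Set G) := by
        rw [osg_mc]
        calc y * g = k⁻¹ * ((k * y * k⁻¹) * (k * g * k⁻¹)) * k := by group
          _ = k⁻¹ * ((k * g * k⁻¹) * (k * y * k⁻¹)) * k := by rw [h1]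
          _ = g * y := by group
      rw [hCy] at h2; exact h2
  have h21 : ∀ k ∈ C, ∀ y ∈ {y : G | y ∈ T ∧ y ≠ 1 ∧ ∀ c ∈ C, c * y = y * c},
      k * y * k⁻¹ ∈ {y : G | y ∈ T ∧ y ≠ 1 ∧ ∀ c ∈ C, c * y = y * c} := by
    rintro k hk y ⟨hy, hy1, hyc⟩
    have : k * y * k⁻¹ = y := by rw [hyc k hk]; group
    rw [this]; exact ⟨hy, hy1, hyc⟩
  have h22 : ∀ k : G, ∀ y ∈ {y : G | y ∈ T ∧ y ≠ 1 ∧ ∀ c ∈ C, c * y = y * c},
      k * y * k⁻¹ ∈ {y : G | y ∈ T ∧ y ≠ 1 ∧ ∀ c ∈ C, c * y = y * c} → k ∈ C := by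
    rintro k y ⟨hy, hy1, hyc⟩ ⟨hy', hy1', hyc'⟩
    have hCy := hc2 y hy hy1 hyc
    have hCy' := hc2 _ hy' hy1' hyc'
    have hty : y * t = t * y := (hyc t (hTC htT)).symm
    have huC : k * t * k⁻¹ ∈ C := by
      rw [← hCy', osg_mc]
      calc k * y * k⁻¹ * (k * t * k⁻¹) = k * (y * t) * k⁻¹ := by group
        _ = k * (t * y) * k⁻¹ := by rw [hty]
        _ = k * t * k⁻¹ * (k * y * k⁻¹) := by group
    have hucen : ∀ c ∈ C, c * (k * t * k⁻¹) = (k * t * k⁻¹) * c := by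
      intro c hc
      have h1 : c ∈ Subgroup.centralizer ({k * y * k⁻¹} : Set G) := by rw [hCy']; exact hc
      rw [osg_mc] at h1
      have h2 : k⁻¹ * c * k ∈ C := by
        rw [← hCy, osg_mc]
        calc y * (k⁻¹ * c * k) = k⁻¹ * ((k * y * k⁻¹) * c) * k := by group
          _ = k⁻¹ * (c * (k * y * k⁻¹)) * k := by rw [h1]
          _ = k⁻¹ * c * k * y := by group
      have h3 := (hCt _).mp h2
      calc c * (k * t * k⁻¹) = k * ((k⁻¹ * c * k) * t) * k⁻¹ := by group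
        _ = k * (t * (k⁻¹ * c * k)) * k⁻¹ := by rw [h3]
        _ = (k * t * k⁻¹) * c := by group
    have huT : k * t * k⁻¹ ∈ T := by
      by_contra hnT
      exact hnoc _ huC hnT hucen
    have hu2 : orderOf (k * t * k⁻¹) = 2 := by rw [osg_orderOf_conj, ht2]
    have hut := huniq _ huT hu2
    rw [hCt]
    calc t * k = (k * t * k⁻¹) * k := by rw [hut]
      _ = k * t := by group
  have E1 := hTI _ C h11 h12
  have E2 := hTI _ C h21 h22
  rw [hCcard, Nat.card_coe_set_eq, Nat.card_coe_set_eq] at E1 E2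
  rw [Nat.card_coe_set_eq] at hNa
  have hdisjS : Disjoint {y : G | y ∈ T ∧ ∃ c ∈ C, c * y ≠ y * c}
      {y : G | y ∈ T ∧ y ≠ 1 ∧ ∀ c ∈ C, c * y = y * c} := by
    rw [Set.disjoint_left]
    rintro y ⟨_, c, hc, hne⟩ ⟨_, _, hyc⟩
    exact hne (hyc c hc)
  have hunionS : {y : G | y ∈ T ∧ ∃ c ∈ C, c * y ≠ y * c} ∪
      {y : G | y ∈ T ∧ y ≠ 1 ∧ ∀ c ∈ C, c * y = y * c} = (T : Set G) \ {1} := by
    ext y
    constructor
    · rintro (⟨hy, c, hc, hne⟩ | ⟨hy, hy1, _⟩)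
      · refine ⟨hy, ?_⟩
        intro h1
        rw [Set.mem_singleton_iff] at h1
        rw [h1] at hne
        exact hne (by rw [mul_one, one_mul])
      · exact ⟨hy, hy1⟩
    · rintro ⟨hy, hy1⟩
      rw [Set.mem_singleton_iff] at hy1
      by_cases hcen : ∀ c ∈ C, c * y = y * c
      · right; exact ⟨hy, hy1, hcen⟩
      · left
        push_neg at hcen
        exact ⟨hy, hcen⟩
  have hScard : Set.ncard {y : G | y ∈ T ∧ ∃ c ∈ C, c * y ≠ y * c} +
      Set.ncard {y : G | y ∈ T ∧ y ≠ 1 ∧ ∀ c ∈ C, c * y = y * c} = a - 1 := by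
    rw [← Set.ncard_union_eq hdisjS (Set.toFinite _) (Set.toFinite _), hunionS,
      Set.ncard_sdiff_singleton_of_mem (show (1 : G) ∈ (T : Set G) from T.one_mem)]
    have : (T : Set G).ncard = a := by rw [← Nat.card_coe_set_eq]; exact hTcard
    rw [this]
  have hUsub : {g : G | ∃ h : G, ∃ y ∈ {y : G | y ∈ T ∧ ∃ c ∈ C, c * y ≠ y * c},
        g = h * y * h⁻¹} ∪
      {g : G | ∃ h : G, ∃ y ∈ {y : G | y ∈ T ∧ y ≠ 1 ∧ ∀ c ∈ C, c * y = y * c},
        g = h * y * h⁻¹} ⊆ {g : G | g ≠ 1 ∧ orderOf g ∣ a} := by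
    rintro g (⟨h, y, ⟨hy, c, hc, hne⟩, rfl⟩ | ⟨h, y, ⟨hy, hy1, _⟩, rfl⟩)
    · have hy1 : y ≠ 1 := by
        intro h1
        rw [h1] at hne
        exact hne (by rw [mul_one, one_mul])
      exact ⟨fun h1 => hy1 (conj_eq_one_iff.mp h1), by rw [osg_orderOf_conj]; exact hTord y hy⟩
    · exact ⟨fun h1 => hy1 (conj_eq_one_iff.mp h1), by rw [osg_orderOf_conj]; exact hTord y hy⟩
  have hdisjU : Disjoint {g : G | ∃ h : G, ∃ y ∈ {y : G | y ∈ T ∧ ∃ c ∈ C, c * y ≠ y * c},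
        g = h * y * h⁻¹}
      {g : G | ∃ h : G, ∃ y ∈ {y : G | y ∈ T ∧ y ≠ 1 ∧ ∀ c ∈ C, c * y = y * c},
        g = h * y * h⁻¹} := by
    rw [Set.disjoint_left]
    rintro g ⟨h, y, ⟨hy, hyn⟩, rfl⟩ ⟨h', y', ⟨hy', hy1', hyc'⟩, heq⟩
    have hCy := hc1 y hy hyn
    have hCy' := hc2 y' hy' hy1' hyc'
    obtain ⟨k, hk⟩ : ∃ k : G, y = k * y' * k⁻¹ := by
      refine ⟨h⁻¹ * h', ?_⟩
      have : y = h⁻¹ * (h * y * h⁻¹) * h := by group
      rw [this, heq]; group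
    apply hnab
    have key : ∀ c ∈ C, k * c * k⁻¹ ∈ T := by
      intro c hc
      have h1 : c ∈ Subgroup.centralizer ({y'} : Set G) := by rw [hCy']; exact hc
      rw [osg_mc] at h1
      rw [← hCy, osg_mc, hk]
      calc k * y' * k⁻¹ * (k * c * k⁻¹) = k * (y' * c) * k⁻¹ := by group
        _ = k * (c * y') * k⁻¹ := by rw [h1]
        _ = k * c * k⁻¹ * (k * y' * k⁻¹) := by group
    intro c hc d hd
    have := hTcomm _ (key c hc) _ (key d hd)
    calc c * d = k⁻¹ * ((k * c * k⁻¹) * (k * d * k⁻¹)) * k := by group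
      _ = k⁻¹ * ((k * d * k⁻¹) * (k * c * k⁻¹)) * k := by rw [this]
      _ = d * c := by group
  have hsum : (Set.ncard {g : G | ∃ h : G, ∃ y ∈ {y : G | y ∈ T ∧ ∃ c ∈ C, c * y ≠ y * c},
        g = h * y * h⁻¹} +
      Set.ncard {g : G | ∃ h : G, ∃ y ∈ {y : G | y ∈ T ∧ y ≠ 1 ∧ ∀ c ∈ C, c * y = y * c},
        g = h * y * h⁻¹}) * (2 * a)
      = Set.ncard {g : G | g ≠ 1 ∧ orderOf g ∣ a} * (2 * a) := by
    rw [add_mul, E1, E2, hNa, ← mul_add, hScard]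
  have hsum' := Nat.eq_of_mul_eq_mul_right (by omega : 0 < 2 * a) hsum
  have hUeq := Set.eq_of_subset_of_ncard_le hUsub
    (by rw [Set.ncard_union_eq hdisjU (Set.toFinite _) (Set.toFinite _), hsum'])
    (Set.toFinite _)
  intro g hg1 hga
  have hgX : g ∈ {g : G | g ≠ 1 ∧ orderOf g ∣ a} := ⟨hg1, hga⟩
  rw [← hUeq] at hgX
  rcases hgX with ⟨h, y, ⟨hy, _⟩, rfl⟩ | ⟨h, y, ⟨hy, _⟩, rfl⟩
  · refine ⟨h⁻¹, ?_⟩
    have : h⁻¹ * (h * y * h⁻¹) * h⁻¹⁻¹ = y := by group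
    rw [this]; exact hy
  · refine ⟨h⁻¹, ?_⟩
    have : h⁻¹ * (h * y * h⁻¹) * h⁻¹⁻¹ = y := by group
    rw [this]; exact hy

theorem nonab_conj {G : Type*} [Group G] [Finite G] (a : ℕ) (x : G) (hx : orderOf x = a)
    (ha : Even a) (ha0 : 0 < a)
    (hC : Nat.card (Subgroup.centralizer ({x ^ (a / 2)} : Set G)) = 2 * a)
    (hN : Subgroup.normalizer ((Subgroup.zpowers x : Subgroup G) : Set G)
      = Subgroup.centralizer ({x ^ (a / 2)} : Set G))
    (hc1 : ∀ y ∈ Subgroup.zpowers x,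
      (∃ c ∈ Subgroup.centralizer ({x ^ (a / 2)} : Set G), c * y ≠ y * c) →
      Subgroup.centralizer ({y} : Set G) = Subgroup.zpowers x)
    (hc2 : ∀ y ∈ Subgroup.zpowers x, y ≠ 1 →
      (∀ c ∈ Subgroup.centralizer ({x ^ (a / 2)} : Set G), c * y = y * c) →
      Subgroup.centralizer ({y} : Set G) = Subgroup.centralizer ({x ^ (a / 2)} : Set G))
    (hnab : ¬ ∀ c ∈ Subgroup.centralizer ({x ^ (a / 2)} : Set G),
      ∀ d ∈ Subgroup.centralizer ({x ^ (a / 2)} : Set G), c * d = d * c)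
    (hNa : Nat.card {g : G | g ≠ 1 ∧ orderOf g ∣ a} * (2 * a) = Nat.card G * (a - 1))
    (hTI : ∀ (S : Set G) (N : Subgroup G), (∀ k ∈ N, ∀ y ∈ S, k * y * k⁻¹ ∈ S) →
      (∀ k : G, ∀ y ∈ S, k * y * k⁻¹ ∈ S → k ∈ N) →
      Nat.card {g : G | ∃ h : G, ∃ y ∈ S, g = h * y * h⁻¹} * Nat.card N
        = Nat.card G * Nat.card S) :
    ∀ g : G, g ≠ 1 → orderOf g ∣ a → ∃ h : G, h * g * h⁻¹ ∈ Subgroup.zpowers x := by
  have ht2 : orderOf (x ^ (a / 2)) = 2 := by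
    obtain ⟨m, hm⟩ := ha
    have ham : a / 2 = m := by omega
    have hm0 : m ≠ 0 := by omega
    rw [ham, orderOf_pow_of_dvd hm0 (by rw [hx, hm]; exact ⟨2, by ring⟩), hx, hm]
    rw [← two_mul, Nat.mul_div_cancel _ (by omega)]
  have htT : x ^ (a / 2) ∈ Subgroup.zpowers x :=
    Subgroup.pow_mem _ (Subgroup.mem_zpowers x) _
  have hTcomm : ∀ y ∈ Subgroup.zpowers x, ∀ z ∈ Subgroup.zpowers x, y * z = z * y := by
    intro y hy z hz
    obtain ⟨k, rfl⟩ := Subgroup.mem_zpowers_iff.mp hy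
    obtain ⟨l, rfl⟩ := Subgroup.mem_zpowers_iff.mp hz
    exact zpow_mul_comm x k l
  have hTC : Subgroup.zpowers x ≤ Subgroup.centralizer ({x ^ (a / 2)} : Set G) := by
    intro y hy
    rw [osg_mc]
    exact hTcomm _ htT y hy
  have hTcard : Nat.card (Subgroup.zpowers x) = a := by rw [Nat.card_zpowers, hx]
  have hrel : (Subgroup.zpowers x).relIndex (Subgroup.centralizer ({x ^ (a / 2)} : Set G))
      = 2 := by
    have h1 := Subgroup.relIndex_mul_index hTC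
    have h2 := Subgroup.card_mul_index (Subgroup.zpowers x)
    have h3 := Subgroup.card_mul_index (Subgroup.centralizer ({x ^ (a / 2)} : Set G))
    rw [hTcard] at h2
    rw [hC] at h3
    have hCi : 0 < (Subgroup.centralizer ({x ^ (a / 2)} : Set G)).index :=
      Nat.pos_of_ne_zero Subgroup.index_ne_zero_of_finite
    have e : a * ((Subgroup.zpowers x).relIndex (Subgroup.centralizer ({x ^ (a / 2)} : Set G))
        * (Subgroup.centralizer ({x ^ (a / 2)} : Set G)).index)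
        = a * (2 * (Subgroup.centralizer ({x ^ (a / 2)} : Set G)).index) := by
      rw [h1, h2, ← h3]; ring
    have e2 := Nat.eq_of_mul_eq_mul_left ha0 e
    exact Nat.eq_of_mul_eq_mul_right hCi e2
  have hTord : ∀ y ∈ Subgroup.zpowers x, orderOf y ∣ a := by
    intro y hy
    rw [← hx]
    exact orderOf_dvd_of_mem_zpowers hy
  exact osg_core a ha0 (x ^ (a / 2)) (Subgroup.zpowers x)
    (Subgroup.centralizer ({x ^ (a / 2)} : Set G))
    (fun g => osg_mc _ g) ht2 htT hTcomm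
    (fun u hu hu2 => osg_invol_unique a x hx ha ha0 u hu hu2) hrel hTcard hC hTord hN hc1 hc2
    hnab hNa hTI

end Cfsg.Agent.Lib.Helper14.OS
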