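import Mathlib
import Cfsg.Prelude.Def_GeometricClasses
import Cfsg.Agent.Lib.Helper97.Transv
import Cfsg.Agent.Lib.Helper97.TransvM
import Cfsg.Agent.Lib.Helper71.TP0
import Cfsg.Agent.Lib.Helper71.TP1

/-!
# S5637 piece B1b (helper17, for helper71): `stab_aux2`
-/

set_option autoImplicit false

namespace Cfsg.Agent.Lib.Helper17.TPB1b

open Matrix Cfsg.Agent.Lib.Helper71.TP Cfsg.Agent.Lib.Helper97
open scoped Kronecker

variable {a b : ℕ} {F : Type*} [Field F]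

theorem ctr_single (j : Fin b) (v : Fin a × Fin b → F) :
    ctr (Pi.single j (1 : F)) v = fun i => v (i, j) := by
  funext i
  simp [ctr_apply, Pi.single_apply]

/-- own copy of the fibre criterion (piece FIB, L1) -/
theorem mem_fib_iff_ctr' (w : Fin b → F) (hw : w ≠ 0) (v : Fin a × Fin b → F) :
    v ∈ fib (a := a) w ↔ ∀ ψ : Fin b → F, ψ ⬝ᵥ w = 0 → ctr ψ v = 0 := by
  constructor
  · intro hv ψ hψ
    obtain ⟨u, rfl⟩ := mem_fib.mp hv
    rw [ctr_pt, hψ, zero_smul]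
  · intro h
    obtain ⟨j0, hj0⟩ : ∃ j0, w j0 ≠ 0 := by
      by_contra hcon
      push Not at hcon
      exact hw (funext hcon)
    rw [mem_fib]
    refine ⟨fun i => v (i, j0) / w j0, ?_⟩
    ext ⟨i, j⟩
    simp only [pt_apply]
    have hψ : (w j • Pi.single j0 (1 : F) + (-w j0) • Pi.single j (1 : F) : Fin b → F) ⬝ᵥ w
        = 0 := by
      rw [add_dotProduct, smul_dotProduct, smul_dotProduct, single_one_dotProduct,
        single_one_dotProduct]
      simp only [smul_eq_mul]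
      ring
    have h1 := congrFun (h _ hψ) i
    rw [ctr_add_left, ctr_smul_left, ctr_smul_left, ctr_single, ctr_single] at h1
    simp only [Pi.add_apply, Pi.smul_apply, smul_eq_mul, Pi.zero_apply] at h1
    field_simp
    linear_combination -h1

theorem stab_aux2 (ha : 1 ≤ a) (x' : GL (Fin a × Fin b) F) (w : Fin b → F) (hw : w ≠ 0)
    (hfix : ∀ u : Fin a → F, act x' (pt u w) = pt u w)
    (h1 : ∀ ψ : Fin b → F, ψ ⬝ᵥ w = 0 →
      ∃ ψ' : Fin b → F, ψ' ⬝ᵥ w = 0 ∧ ∀ v, ctr ψ' (act x' v) = ctr ψ v)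
    (h2 : ∀ ψ' : Fin b → F, ψ' ⬝ᵥ w = 0 →
      ∃ ψ : Fin b → F, ψ ⬝ᵥ w = 0 ∧ ∀ v, ctr ψ' (act x' v) = ctr ψ v) :
    ∃ γ : GL (Fin b) F, γ.1 *ᵥ w = w ∧ InR ((kronG (1 : GL (Fin a) F) γ)⁻¹ * x') w := by
  classical
  let i₀ : Fin a := ⟨0, by omega⟩
  let u₀ : Fin a → F := Pi.single i₀ 1
  have hφu : u₀ ⬝ᵥ u₀ = 1 := by simp [u₀]
  let L : (Fin b → F) →ₗ[F] (Fin b → F) :=
    { toFun := fun y => ctl u₀ (act x' (pt u₀ y))
      map_add' := fun y z => by rw [pt_add_right, act_add, ctl_add]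
      map_smul' := fun c y => by rw [pt_smul_right, act_smul, ctl_smul]; rfl }
  let G : Matrix (Fin b) (Fin b) F := LinearMap.toMatrix' L
  have hGv : ∀ y, G *ᵥ y = ctl u₀ (act x' (pt u₀ y)) := by
    intro y
    rw [← Matrix.toLin'_apply, Matrix.toLin'_toMatrix']
    rfl
  have KEY : ∀ ψ' ψ : Fin b → F, (∀ v, ctr ψ' (act x' v) = ctr ψ v) → ψ' ᵥ* G = ψ := by
    intro ψ' ψ h
    funext j
    have e1 : (ψ' ᵥ* G) j = (ψ' ᵥ* G) ⬝ᵥ Pi.single j (1 : F) := by simp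
    rw [e1, ← Matrix.dotProduct_mulVec, hGv, dotProduct_ctl, h, ctr_pt, dotProduct_smul, hφu]
    simp
  have hGw : G *ᵥ w = w := by
    rw [hGv, hfix, ctl_pt, hφu, one_smul]
  have hker : ∀ y, G *ᵥ y = 0 → y = 0 := by
    intro y hy
    have hperp : ∀ ψ : Fin b → F, ψ ⬝ᵥ w = 0 → ψ ⬝ᵥ y = 0 := by
      intro ψ hψ
      obtain ⟨ψ', -, hψ'⟩ := h1 ψ hψ
      rw [← KEY ψ' ψ hψ', ← Matrix.dotProduct_mulVec, hy, dotProduct_zero]
    have hmem : y ∈ Submodule.span F {w} := by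
      by_contra hcon
      obtain ⟨ψ, hψ0, hψ1⟩ := exists_dot _ y hcon
      have h3 := hperp ψ (hψ0 w (Submodule.mem_span_singleton_self w))
      rw [hψ1] at h3
      exact one_ne_zero h3
    obtain ⟨c, rfl⟩ := Submodule.mem_span_singleton.mp hmem
    rw [Matrix.mulVec_smul, hGw] at hy
    rcases smul_eq_zero.mp hy with hc | hc
    · rw [hc, zero_smul]
    · exact absurd hc hw
  have hinj : Function.Injective G.mulVec := by
    intro y z hyz
    have h3 : G *ᵥ (y - z) = 0 := by rw [Matrix.mulVec_sub]; exact sub_eq_zero.mpr hyz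
    exact sub_eq_zero.mp (hker _ h3)
  obtain ⟨γ, hγ⟩ := Matrix.mulVec_injective_iff_isUnit.mp hinj
  refine ⟨γ, by rw [hγ]; exact hGw, ?_⟩
  have hK : ∀ v, act (kronG (1 : GL (Fin a) F) γ) v =
      ((1 : Matrix (Fin a) (Fin a) F) ⊗ₖ G) *ᵥ v := by
    intro v
    rw [act, kronG_val, hγ, Units.val_one]
  have hc : ∀ v, act x' v - act (kronG (1 : GL (Fin a) F) γ) v ∈ fib (a := a) w := by
    intro v
    rw [mem_fib_iff_ctr' w hw]
    intro ψ' hψ'
    obtain ⟨ψ, -, hψ⟩ := h2 ψ' hψ'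
    rw [ctr_sub, hψ, hK, ctr_kron_mulVec, KEY ψ' ψ hψ, Matrix.one_mulVec, sub_self]
  have hKpt : ∀ u, act (kronG (1 : GL (Fin a) F) γ)⁻¹ (pt u w) = pt u w := by
    intro u
    have h3 : act (kronG (1 : GL (Fin a) F) γ) (pt u w) = pt u w := by
      rw [act_kronG_pt, Units.val_one, Matrix.one_mulVec, hγ, hGw]
    have h4 := act_inv_act (kronG (1 : GL (Fin a) F) γ) (pt u w)
    rw [h3] at h4
    exact h4
  constructor
  · intro v
    obtain ⟨u, hu⟩ := mem_fib.mp (hc v)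
    have e1 : ((kronG (1 : GL (Fin a) F) γ)⁻¹ * x').1 *ᵥ v =
        act (kronG (1 : GL (Fin a) F) γ)⁻¹ (act x' v) := act_mul _ _ _
    have e3 : act (kronG (1 : GL (Fin a) F) γ)⁻¹ (act x' v) - v =
        act (kronG (1 : GL (Fin a) F) γ)⁻¹ (act x' v - act (kronG (1 : GL (Fin a) F) γ) v) := by
      rw [act_sub, act_inv_act]
    rw [e1, e3, hu, hKpt]
    exact pt_mem_fib u w
  · intro v hv
    obtain ⟨u, rfl⟩ := mem_fib.mp hv
    have e1 : ((kronG (1 : GL (Fin a) F) γ)⁻¹ * x').1 *ᵥ pt u w =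
        act (kronG (1 : GL (Fin a) F) γ)⁻¹ (act x' (pt u w)) := act_mul _ _ _
    rw [e1, hfix, hKpt]

end Cfsg.Agent.Lib.Helper17.TPB1b
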