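import Mathlib
import Cfsg.Prelude.Def_GeometricClasses
import Cfsg.Prelude.Def_LieClassical
import Cfsg.Agent.Lib.Helper71.Asch5
import Cfsg.Agent.Lib.Helper82.ASB8UNITS
import Cfsg.Agent.Lib.Helper44.BADDefs

/-! Project BAD (helper44; sub-project of helper49's SUG = S5663), piece SWP (helper17):
the swap of the two tensor factors is an isometry and intertwines `tmat a b` with `tmat b a`. -/

set_option autoImplicit false
set_option linter.unusedVariables false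
set_option linter.unusedSectionVars false

namespace Cfsg.Agent.Lib.Helper44.BAD

open Matrix Cfsg.Geo Cfsg.Agent.Lib.Helper71.Asch
open scoped Kronecker

variable {n : ℕ} {F : Type*} [Field F] [Fintype F] {q : ℕ}

/-- the swap matrix on `Fin 3 × Fin 3` -/
def SWP_Sw (F : Type*) [Field F] : Matrix (Fin 3 × Fin 3) (Fin 3 × Fin 3) F :=
  (1 : Matrix (Fin 3 × Fin 3) (Fin 3 × Fin 3) F).submatrix id (Equiv.prodComm (Fin 3) (Fin 3))

theorem SWP_left (M : Matrix (Fin 3 × Fin 3) (Fin 3 × Fin 3) F) :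
    SWP_Sw F * M = M.submatrix (Equiv.prodComm (Fin 3) (Fin 3)) id := by
  unfold SWP_Sw
  rw [Matrix.one_submatrix_mul]
  rfl

theorem SWP_right (M : Matrix (Fin 3 × Fin 3) (Fin 3 × Fin 3) F) :
    M * SWP_Sw F = M.submatrix id (Equiv.prodComm (Fin 3) (Fin 3)) := by
  have h := Matrix.mul_submatrix_one (Equiv.refl (Fin 3 × Fin 3))
    (Equiv.prodComm (Fin 3) (Fin 3)) M
  exact h

theorem SWP_sq : SWP_Sw F * SWP_Sw F = 1 := by
  rw [SWP_left]
  unfold SWP_Sw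
  rw [Matrix.submatrix_submatrix]
  exact Matrix.submatrix_one_equiv (Equiv.prodComm (Fin 3) (Fin 3))

theorem SWP_kron (a b : Matrix (Fin 3) (Fin 3) F) :
    SWP_Sw F * (a ⊗ₖ b) = (b ⊗ₖ a) * SWP_Sw F := by
  rw [SWP_left, SWP_right]
  ext ⟨i, j⟩ ⟨k, l⟩
  simp [Matrix.kroneckerMap_apply, mul_comm]

theorem SWP_mulVec (x : Fin 3 × Fin 3 → F) : SWP_Sw F *ᵥ x = x ∘ Prod.swap := by
  unfold SWP_Sw
  rw [Matrix.submatrix_mulVec_equiv, Matrix.one_mulVec]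
  rfl

theorem SWP_conj_mul (P : GL (Fin n) F) (X Y : Matrix (Fin n) (Fin n) F) :
    (P.1 * X * (P⁻¹ : GL (Fin n) F).1) * (P.1 * Y * (P⁻¹ : GL (Fin n) F).1) =
      P.1 * (X * Y) * (P⁻¹ : GL (Fin n) F).1 := by
  have hPi : (P⁻¹ : GL (Fin n) F).1 * P.1 = 1 := by
    rw [← Units.val_mul, inv_mul_cancel, Units.val_one]
  calc (P.1 * X * (P⁻¹ : GL (Fin n) F).1) * (P.1 * Y * (P⁻¹ : GL (Fin n) F).1)
      = P.1 * X * ((P⁻¹ : GL (Fin n) F).1 * P.1) * Y * (P⁻¹ : GL (Fin n) F).1 := by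
        simp only [Matrix.mul_assoc]
    _ = P.1 * (X * Y) * (P⁻¹ : GL (Fin n) F).1 := by
        rw [hPi, Matrix.mul_one, Matrix.mul_assoc P.1 X Y]

/-- SWP: the swap of the two tensor factors is an isometry. -/
theorem SWP (hF : Fintype.card F = q ^ 2) (e : Fin n ≃ Fin 3 × Fin 3) (P' : GL (Fin n) F) (c : F)
    (hc : c ≠ 0) (hstd : StdF q e P' c) :
    ∃ s : GL (Fin n) F, s ∈ Cfsg.GU n F q ∧
      ∀ a b : Matrix (Fin 3) (Fin 3) F, s.1 * tmat e P' a b = tmat e P' b a * s.1 := by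
  classical
  have hRR : (SWP_Sw F).submatrix e e * (SWP_Sw F).submatrix e e = 1 := by
    rw [Matrix.submatrix_mul_equiv, SWP_sq, Matrix.submatrix_one_equiv]
  have hPP : P'.1 * (P'⁻¹ : GL (Fin n) F).1 = 1 := by
    rw [← Units.val_mul, mul_inv_cancel, Units.val_one]
  have hss : (P'.1 * (SWP_Sw F).submatrix e e * (P'⁻¹ : GL (Fin n) F).1) *
      (P'.1 * (SWP_Sw F).submatrix e e * (P'⁻¹ : GL (Fin n) F).1) = 1 := by
    rw [SWP_conj_mul, hRR, Matrix.mul_one, hPP]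
  obtain ⟨s, hs⟩ : ∃ s : GL (Fin n) F,
      s.1 = P'.1 * (SWP_Sw F).submatrix e e * (P'⁻¹ : GL (Fin n) F).1 :=
    ⟨⟨_, _, hss, hss⟩, rfl⟩
  refine ⟨s, ?_, ?_⟩
  · have key : ∀ u : Fin n → F, s.1 *ᵥ u =
        P'.1 *ᵥ ((SWP_Sw F *ᵥ (((P'⁻¹ : GL (Fin n) F).1 *ᵥ u) ∘ e.symm)) ∘ e) := by
      intro u
      rw [hs, ← Matrix.mulVec_mulVec, ← Matrix.mulVec_mulVec, Matrix.submatrix_mulVec_equiv]
    have hu : ∀ u : Fin n → F,
        P'.1 *ᵥ ((((P'⁻¹ : GL (Fin n) F).1 *ᵥ u) ∘ e.symm) ∘ e) = u := by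
      intro u
      have h1 : (((P'⁻¹ : GL (Fin n) F).1 *ᵥ u) ∘ e.symm) ∘ e = (P'⁻¹ : GL (Fin n) F).1 *ᵥ u := by
        funext i
        simp
      rw [h1, Matrix.mulVec_mulVec, hPP, Matrix.one_mulVec]
    show ∀ u v : Fin n → F, Cfsg.hermForm n F q (s.1 *ᵥ u) (s.1 *ᵥ v) = Cfsg.hermForm n F q u v
    intro u v
    rw [key u, key v, hstd, SWP_mulVec, SWP_mulVec]
    have hsum : ∀ x y : Fin 3 × Fin 3 → F,
        ∑ a, (x ∘ Prod.swap) a * ((y ∘ Prod.swap) a) ^ q = ∑ a, x a * (y a) ^ q := by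
      intro x y
      exact Equiv.sum_comp (Equiv.prodComm (Fin 3) (Fin 3)) (fun a => x a * (y a) ^ q)
    rw [hsum, ← hstd, hu, hu]
  · intro a b
    have ht : ∀ a b : Matrix (Fin 3) (Fin 3) F,
        tmat e P' a b = P'.1 * (a ⊗ₖ b).submatrix e e * (P'⁻¹ : GL (Fin n) F).1 := by
      intro a b
      rfl
    rw [ht, ht, hs, SWP_conj_mul, SWP_conj_mul, Matrix.submatrix_mul_equiv,
      Matrix.submatrix_mul_equiv, SWP_kron]

end Cfsg.Agent.Lib.Helper44.BAD
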