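import Mathlib
import Cfsg.Prelude.Def_Transfer

/-!
# B&G section 10, piece Q11L (helper17, for helper15): transport of normal `p`-complements
-/

set_option autoImplicit false

open Cfsg

namespace Cfsg.Agent.Lib.Helper17.BG10

universe u

variable {G : Type u} [Group G] [Finite G]

/-- criterion: a normal `p`-complement is a normal subgroup of order prime to `p` and index a
power of `p` -/
theorem q11l_crit (p : ℕ) [Fact p.Prime] {Λ : Type*} [Group Λ] [Finite Λ] :
    HasNormalPComplement p Λ ↔
      ∃ N : Subgroup Λ, N.Normal ∧ (Nat.card N).Coprime p ∧ ∃ j : ℕ, N.index = p ^ j := by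
  have hp : p.Prime := Fact.out
  constructor
  · rintro ⟨P, N, hN, hc⟩
    have h1 : Nat.card N * Nat.card (P : Subgroup Λ) = Nat.card Λ := hc.card_mul_card
    have h2 : Nat.card N * N.index = Nat.card Λ := N.card_mul_index
    have h3 : Nat.card (P : Subgroup Λ) * (P : Subgroup Λ).index = Nat.card Λ :=
      (P : Subgroup Λ).card_mul_index
    have hNpos : 0 < Nat.card N := Nat.card_pos
    have hPpos : 0 < Nat.card (P : Subgroup Λ) := Nat.card_pos
    have h4 : N.index = Nat.card (P : Subgroup Λ) :=
      Nat.eq_of_mul_eq_mul_left hNpos (h2.trans h1.symm)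
    have h5 : Nat.card N = (P : Subgroup Λ).index := by
      have h6 : Nat.card (P : Subgroup Λ) * Nat.card N
          = Nat.card (P : Subgroup Λ) * (P : Subgroup Λ).index := by
        rw [h3, mul_comm, h1]
      exact Nat.eq_of_mul_eq_mul_left hPpos h6
    refine ⟨N, hN, ?_, (Nat.card Λ).factorization p, ?_⟩
    · rw [h5]
      exact ((Nat.Prime.coprime_iff_not_dvd hp).2 P.not_dvd_index).symm
    · rw [h4]; exact P.card_eq_multiplicity
  · rintro ⟨N, hN, hcop, j, hj⟩
    obtain ⟨P⟩ : Nonempty (Sylow p Λ) := inferInstance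
    have h2 : Nat.card N * N.index = Nat.card Λ := N.card_mul_index
    have hndvd : ¬ p ∣ Nat.card N := (Nat.Prime.coprime_iff_not_dvd hp).1 hcop.symm
    have hNne : Nat.card N ≠ 0 := Nat.card_pos.ne'
    have hfac : (Nat.card Λ).factorization p = j := by
      rw [← h2, hj, Nat.factorization_mul hNne (pow_ne_zero j hp.ne_zero), Finsupp.add_apply,
        Nat.factorization_eq_zero_of_not_dvd hndvd, hp.factorization_pow, zero_add]
      simp
    have hP : Nat.card (P : Subgroup Λ) = p ^ j := by
      rw [P.card_eq_multiplicity, hfac]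
    refine ⟨P, N, hN, Subgroup.isComplement'_of_coprime ?_ ?_⟩
    · rw [hP, ← hj]; exact h2
    · rw [hP]; exact Nat.Coprime.pow_right j hcop

theorem hasNormalPComplement_of_mulEquiv (p : ℕ) [Fact p.Prime] {A B : Type*} [Group A] [Group B]
    [Finite A] (e : A ≃* B) (h : HasNormalPComplement p A) : HasNormalPComplement p B := by
  haveI : Finite B := Finite.of_equiv A e.toEquiv
  rw [q11l_crit] at h ⊢
  obtain ⟨N, hN, hcop, j, hj⟩ := h
  refine ⟨N.map (e : A →* B), hN.map _ e.surjective, ?_, j, ?_⟩
  · rw [Subgroup.card_map_of_injective e.injective]; exact hcop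
  · rw [Subgroup.index_map_equiv]; exact hj

theorem hasNormalPComplement_of_le (p : ℕ) [Fact p.Prime] {X Y : Subgroup G} (hXY : X ≤ Y)
    (h : HasNormalPComplement p ↥Y) : HasNormalPComplement p ↥X := by
  have hp : p.Prime := Fact.out
  rw [q11l_crit] at h ⊢
  obtain ⟨N, hN, hcop, j, hj⟩ := h
  have hinj : Function.Injective (Subgroup.inclusion hXY) := Subgroup.inclusion_injective hXY
  refine ⟨N.comap (Subgroup.inclusion hXY), hN.comap _, ?_, ?_⟩
  · have h1 : Nat.card (N.comap (Subgroup.inclusion hXY)) ∣ Nat.card N := by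
      rw [← Subgroup.card_map_of_injective hinj]
      exact Subgroup.card_dvd_of_le (Subgroup.map_comap_le _ _)
    exact Nat.Coprime.coprime_dvd_left h1 hcop
  · have h1 : (N.comap (Subgroup.inclusion hXY)).index ∣ N.index := by
      rw [Subgroup.index_comap]
      exact Subgroup.relIndex_dvd_index_of_normal N _
    rw [hj] at h1
    obtain ⟨i, -, hi⟩ := (Nat.dvd_prime_pow hp).1 h1
    exact ⟨i, hi⟩

end Cfsg.Agent.Lib.Helper17.BG10
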