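import Mathlib
import Cfsg.Agent.Lib.Helper48.DCA
import Cfsg.Agent.S1036

/-!
# S2318 piece DC-BAB (for helper48)

Commutators of the Borel subgroup lie in `U`.
-/

set_option autoImplicit false

namespace Cfsg.Agent.Lib.Helper48.DC

open Cfsg Cfsg.Lie

variable {F : Type*} [Field F] [Fintype F]

theorem bab_mem_sup {G : Type*} [Group G] (A K : Subgroup G)
    (hK : K ≤ Subgroup.normalizer (A : Set G)) (g : G) (hg : g ∈ A ⊔ K) :
    ∃ a ∈ A, ∃ k ∈ K, g = a * k := by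
  let T : Subgroup G :=
    { carrier := {x | ∃ a ∈ A, ∃ k ∈ K, x = a * k}
      mul_mem' := by
        rintro _ _ ⟨a, ha, k, hk, rfl⟩ ⟨a', ha', k', hk', rfl⟩
        have h1 : k * a' * k⁻¹ ∈ A := (Subgroup.mem_normalizer_iff.mp (hK hk) a').mp ha'
        refine ⟨a * (k * a' * k⁻¹), A.mul_mem ha h1, k * k', K.mul_mem hk hk', ?_⟩
        group
      one_mem' := ⟨1, A.one_mem, 1, K.one_mem, (mul_one 1).symm⟩
      inv_mem' := by
        rintro _ ⟨a, ha, k, hk, rfl⟩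
        have h1 : k⁻¹ * a⁻¹ * k⁻¹⁻¹ ∈ A :=
          (Subgroup.mem_normalizer_iff.mp (hK (K.inv_mem hk)) a⁻¹).mp (A.inv_mem ha)
        refine ⟨k⁻¹ * a⁻¹ * k⁻¹⁻¹, h1, k⁻¹, K.inv_mem hk, ?_⟩
        group }
  have hA : A ≤ T := fun a ha => ⟨a, ha, 1, K.one_mem, (mul_one a).symm⟩
  have hK' : K ≤ T := fun k hk => ⟨1, A.one_mem, k, hk, (one_mul k).symm⟩
  exact (sup_le hA hK') hg

theorem bab_dg_comm {ι R : Type*} [Fintype ι] [DecidableEq ι] [CommRing R] (g h : GL ι R)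
    (hg : ∀ i j, i ≠ j → (g : Matrix ι ι R) i j = 0)
    (hh : ∀ i j, i ≠ j → (h : Matrix ι ι R) i j = 0) : g * h = h * g := by
  have e1 : (g : Matrix ι ι R) = Matrix.diagonal (fun i => (g : Matrix ι ι R) i i) := by
    ext i j
    by_cases hij : i = j
    · subst hij
      simp
    · rw [hg i j hij, Matrix.diagonal_apply_ne _ hij]
  have e2 : (h : Matrix ι ι R) = Matrix.diagonal (fun i => (h : Matrix ι ι R) i i) := by
    ext i j
    by_cases hij : i = j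
    · subst hij
      simp
    · rw [hh i j hij, Matrix.diagonal_apply_ne _ hij]
  apply Units.ext
  rw [Units.val_mul, Units.val_mul, e1, e2, Matrix.diagonal_mul_diagonal,
    Matrix.diagonal_mul_diagonal]
  congr 1
  funext i
  exact mul_comm _ _

/-- BAB -/
theorem Bg_comm (D : ChevalleyDatum)
    (hD : D ∈ [chevG2, chevB2, chevD4, chevF4, chevE6, chevE7, chevE8]) :
    ∀ b ∈ Bg F D, ∀ b' ∈ Bg F D, b * b' * b⁻¹ * b'⁻¹ ∈ Ug F D := by
  intro b hb b' hb'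
  have hN := (Cfsg.Agent.S1036.result (F := F) D hD).1
  rw [Subgroup.mem_subgroupOf] at hb hb' ⊢
  have hb2 : (b : GL D.Idx F) ∈ D.posUnipotent F ⊔ D.diagonalSubgroup F := hb
  have hb2' : (b' : GL D.Idx F) ∈ D.posUnipotent F ⊔ D.diagonalSubgroup F := hb'
  obtain ⟨u, hu, h, hh, e⟩ := bab_mem_sup _ _ hN _ hb2
  obtain ⟨u', hu', h', hh', e'⟩ := bab_mem_sup _ _ hN _ hb2'
  have hcomm : h * h' = h' * h :=
    bab_dg_comm h h' (Cfsg.Agent.Lib.Helper24.diagonalSubgroup_le_dg D hD hh)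
      (Cfsg.Agent.Lib.Helper24.diagonalSubgroup_le_dg D hD hh')
  have h1 : h * u' * h⁻¹ ∈ D.posUnipotent F :=
    (Subgroup.mem_normalizer_iff.mp (hN hh) u').mp hu'
  have h2 : h' * u⁻¹ * h'⁻¹ ∈ D.posUnipotent F :=
    (Subgroup.mem_normalizer_iff.mp (hN hh') u⁻¹).mp (inv_mem hu)
  have e3 : ((b * b' * b⁻¹ * b'⁻¹ : ↥(D.group F)) : GL D.Idx F) =
      u * (h * u' * h⁻¹) * (h' * u⁻¹ * h'⁻¹) * u'⁻¹ := by
    push_cast
    rw [e, e']
    have e4 : h * h' * h⁻¹ = h' := by rw [hcomm, mul_inv_cancel_right]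
    calc u * h * (u' * h') * (u * h)⁻¹ * (u' * h')⁻¹
        = u * (h * u' * h⁻¹) * (h * h' * h⁻¹) * u⁻¹ * h'⁻¹ * u'⁻¹ := by group
      _ = u * (h * u' * h⁻¹) * (h' * u⁻¹ * h'⁻¹) * u'⁻¹ := by rw [e4]; group
  rw [e3]
  exact mul_mem (mul_mem (mul_mem hu h1) h2) (inv_mem hu')

end Cfsg.Agent.Lib.Helper48.DC
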