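import Mathlib
import Cfsg.Prelude.Def_LieClassical

/-!
# S2646 piece GUC-NHERM (for helper51)

Number of invertible Hermitian matrices times `|GU_a(q)|` equals `|GL_a(q^2)|`,
from the orbit count hypothesis at `u = 1`.
-/

set_option autoImplicit false

namespace Cfsg.Agent.Lib.Helper17.GUCNHERM

open Matrix

theorem h17_one_map_pow {K : Type*} [Field K] {q : ℕ} (hq : q ≠ 0) (a : ℕ) :
    ((1 : Matrix (Fin a) (Fin a) K).map (· ^ q)) = 1 := by
  ext i j
  by_cases h : i = j
  · subst h; simp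
  · simp [Matrix.one_apply_ne h, hq]

theorem nherm_count {K : Type*} [Field K] [Fintype K] {q : ℕ} (hK : Fintype.card K = q ^ 2)
    (S : Type) [Fintype S] [DecidableEq S] (a : ℕ) (ha : Fintype.card S = a)
    (horb : ∀ u : ↥(Cfsg.GU a K q),
      Nat.card ↥(Subgroup.centralizer ({u} : Set ↥(Cfsg.GU a K q))) *
        Nat.card {H : Matrix (Fin a) (Fin a) K // (H.map (· ^ q))ᵀ = H ∧ H.det ≠ 0 ∧
          (((u : GL (Fin a) K) : Matrix (Fin a) (Fin a) K).map (· ^ q))ᵀ * H *
            ((u : GL (Fin a) K) : Matrix (Fin a) (Fin a) K) = H} =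
      Nat.card {g : GL (Fin a) K // (g : Matrix (Fin a) (Fin a) K) *
          ((u : GL (Fin a) K) : Matrix (Fin a) (Fin a) K) =
        ((u : GL (Fin a) K) : Matrix (Fin a) (Fin a) K) * (g : Matrix (Fin a) (Fin a) K)}) :
    Nat.card {B : Matrix S S K // (B.map (· ^ q))ᵀ = B ∧ B.det ≠ 0} *
      Nat.card ↥(Cfsg.GU a K q) = Nat.card (GL (Fin a) K) := by
  classical
  have hq : q ≠ 0 := by
    rintro rfl
    have h1 : 1 < Fintype.card K := Fintype.one_lt_card
    rw [hK] at h1
    simp at h1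
  have h1 := horb 1
  -- centralizer of 1 is everything
  have hc : Nat.card ↥(Subgroup.centralizer ({1} : Set ↥(Cfsg.GU a K q))) =
      Nat.card ↥(Cfsg.GU a K q) := by
    have : Subgroup.centralizer ({1} : Set ↥(Cfsg.GU a K q)) = ⊤ := by
      ext x
      simp [Subgroup.mem_centralizer_iff]
    rw [this, Subgroup.card_top]
  rw [hc] at h1
  -- the right-hand side is all of GL
  have hr : Nat.card {g : GL (Fin a) K // (g : Matrix (Fin a) (Fin a) K) *
          (((1 : ↥(Cfsg.GU a K q)) : GL (Fin a) K) : Matrix (Fin a) (Fin a) K) =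
        (((1 : ↥(Cfsg.GU a K q)) : GL (Fin a) K) : Matrix (Fin a) (Fin a) K) *
          (g : Matrix (Fin a) (Fin a) K)} = Nat.card (GL (Fin a) K) := by
    apply Nat.card_congr
    apply Equiv.subtypeUnivEquiv
    intro g
    simp
  rw [hr] at h1
  -- the middle set
  let e : S ≃ Fin a := Fintype.equivFinOfCardEq ha
  have hm : Nat.card {H : Matrix (Fin a) (Fin a) K // (H.map (· ^ q))ᵀ = H ∧ H.det ≠ 0 ∧
          (((((1 : ↥(Cfsg.GU a K q)) : GL (Fin a) K) : Matrix (Fin a) (Fin a) K)).map (· ^ q))ᵀ * H *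
            (((1 : ↥(Cfsg.GU a K q)) : GL (Fin a) K) : Matrix (Fin a) (Fin a) K) = H} =
      Nat.card {B : Matrix S S K // (B.map (· ^ q))ᵀ = B ∧ B.det ≠ 0} := by
    apply Nat.card_congr
    refine Equiv.subtypeEquiv (Matrix.reindex e.symm e.symm) ?_
    intro H
    have h3 : (((((1 : ↥(Cfsg.GU a K q)) : GL (Fin a) K) : Matrix (Fin a) (Fin a) K)).map (· ^ q))ᵀ * H *
            (((1 : ↥(Cfsg.GU a K q)) : GL (Fin a) K) : Matrix (Fin a) (Fin a) K) = H := by
      have : (((1 : ↥(Cfsg.GU a K q)) : GL (Fin a) K) : Matrix (Fin a) (Fin a) K) = 1 := rfl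
      rw [this, h17_one_map_pow hq]
      simp
    have h4 : ((Matrix.reindex e.symm e.symm H).map (· ^ q))ᵀ = Matrix.reindex e.symm e.symm ((H.map (· ^ q))ᵀ) := by
      ext i j
      simp [Matrix.reindex_apply, Matrix.submatrix_apply, Matrix.transpose_apply, Matrix.map_apply]
    have h5 : (Matrix.reindex e.symm e.symm H).det = H.det := by
      simp [Matrix.reindex_apply]
    constructor
    · rintro ⟨hH1, hH2, -⟩
      refine ⟨?_, ?_⟩
      · rw [h4, hH1]
      · rw [h5]; exact hH2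
    · rintro ⟨hB1, hB2⟩
      refine ⟨?_, ?_, h3⟩
      · rw [h4] at hB1
        exact (Matrix.reindex e.symm e.symm).injective hB1
      · rw [h5] at hB2; exact hB2
  rw [hm] at h1
  rw [mul_comm]
  exact h1

end Cfsg.Agent.Lib.Helper17.GUCNHERM
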