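import Mathlib

set_option autoImplicit false

namespace Cfsg.Agent.Lib.Helper17

universe u v w

/-- The core statement behind Hall–Higman's Theorem B, for a representation `ρ` (not necessarily
faithful) of a finite group `G` over a field `K`, a `q`-subgroup `Q` and an element `x` normalising
`Q` with `ρ x ^ p ^ n = 1` such that `ρ (x ^ p ^ (n-1))` does not commute with `ρ Q`: either
`(ρ x - 1) ^ (p ^ n - 1) ≠ 0`, or we are in the exceptional situation. -/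
def HBCore (K : Type w) [Field K] (p q : ℕ) : Prop :=
  ∀ (G : Type u) [Group G] [Finite G] (V : Type v) [AddCommGroup V] [Module K V]
    [FiniteDimensional K V] (ρ : G →* Module.End K V) (Q : Subgroup G) (x : G) (n : ℕ),
    IsPGroup q Q → x ∈ Subgroup.normalizer (Q : Set G) → 1 ≤ n → ρ x ^ (p ^ n) = 1 →
    (∃ g ∈ Q, ρ (x ^ p ^ (n - 1)) * ρ g ≠ ρ g * ρ (x ^ p ^ (n - 1))) →
    ((ρ x - 1) ^ (p ^ n - 1) ≠ 0 ∨
      ∃ n₀ m : ℕ, 1 ≤ n₀ ∧ n₀ ≤ n ∧ 1 ≤ m ∧ p ^ n₀ - 1 = q ^ m ∧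
        (∃ g ∈ Q, ∃ h ∈ Q, ρ g * ρ h ≠ ρ h * ρ g) ∧
        (ρ x - 1) ^ (p ^ (n - n₀) * (p ^ n₀ - 1) - 1) ≠ 0)

end Cfsg.Agent.Lib.Helper17
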