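import Mathlib

/-! Hall–Higman critical case, part A: Schur's lemma for an irreducible set of operators and
the fact that an irreducible representation of a `q`-group over an algebraically closed field
has `q`-power dimension. -/

set_option autoImplicit false

namespace Cfsg.Agent.Lib.Helper17

open Module

universe u v w

section Schur

variable {K : Type w} [Field K] [IsAlgClosed K] {V : Type v} [AddCommGroup V] [Module K V]
  [FiniteDimensional K V] [Nontrivial V]

/-- Schur's lemma for an irreducible set of operators over an algebraically closed field. -/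
theorem hh_schur (S : Set (Module.End K V))
    (hirr : ∀ W : Submodule K V, (∀ f ∈ S, Submodule.map f W ≤ W) → W = ⊥ ∨ W = ⊤)
    (T : Module.End K V) (hT : ∀ f ∈ S, T * f = f * T) : ∃ κ : K, T = κ • 1 := by
  obtain ⟨μ, hμ⟩ := Module.End.exists_eigenvalue T
  refine ⟨μ, ?_⟩
  have hW : Module.End.eigenspace T μ = ⊤ := by
    have hinv : ∀ f ∈ S, Submodule.map f (Module.End.eigenspace T μ) ≤ Module.End.eigenspace T μ := by
      intro f hf v hv
      obtain ⟨w, hw, rfl⟩ := Submodule.mem_map.1 hv
      rw [Module.End.mem_eigenspace_iff] at hw ⊢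
      have h1 := congrArg (fun A : Module.End K V => A w) (hT f hf)
      simp only [Module.End.mul_apply] at h1
      rw [h1, hw, map_smul]
    rcases hirr _ hinv with h | h
    · exact absurd h hμ
    · exact h
  ext v
  have hv : v ∈ Module.End.eigenspace T μ := hW ▸ Submodule.mem_top
  rw [Module.End.mem_eigenspace_iff] at hv
  simp [hv]

end Schur

section PowDim

variable {K : Type w} [Field K] [IsAlgClosed K]

/-- the action of a group on the lattice of subspaces through a representation -/
@[reducible] def hhAct {Q : Type u} [Group Q] {V : Type v} [AddCommGroup V] [Module K V]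
    (ρ : Q →* Module.End K V) : MulAction Q (Submodule K V) where
  smul g W := W.map (ρ g)
  one_smul W := by
    show W.map (ρ 1) = W
    rw [map_one]; exact Submodule.map_id W
  mul_smul g h W := by
    show W.map (ρ (g * h)) = (W.map (ρ h)).map (ρ g)
    rw [map_mul, ← Submodule.map_comp]; rfl

theorem hh_rho_inv_apply {Q : Type u} [Group Q] {V : Type v} [AddCommGroup V] [Module K V]
    (ρ : Q →* Module.End K V) (g : Q) (v : V) : ρ g⁻¹ (ρ g v) = v := by
  have : ρ g⁻¹ * ρ g = 1 := by rw [← map_mul, inv_mul_cancel, map_one]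
  exact congrArg (fun A : Module.End K V => A v) this

theorem hh_rho_apply_inv {Q : Type u} [Group Q] {V : Type v} [AddCommGroup V] [Module K V]
    (ρ : Q →* Module.End K V) (g : Q) (v : V) : ρ g (ρ g⁻¹ v) = v := by
  have : ρ g * ρ g⁻¹ = 1 := by rw [← map_mul, mul_inv_cancel, map_one]
  exact congrArg (fun A : Module.End K V => A v) this

/-- `ρ g` as a linear equivalence -/
def hhEquiv {Q : Type u} [Group Q] {V : Type v} [AddCommGroup V] [Module K V]
    (ρ : Q →* Module.End K V) (g : Q) : V ≃ₗ[K] V :=
  LinearEquiv.ofLinearMap (ρ g) (ρ g⁻¹)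
    (by ext v; exact hh_rho_apply_inv ρ g v) (by ext v; exact hh_rho_inv_apply ρ g v)

theorem hh_finrank_map {Q : Type u} [Group Q] {V : Type v} [AddCommGroup V] [Module K V]
    (ρ : Q →* Module.End K V) (g : Q) (W : Submodule K V) :
    finrank K (W.map (ρ g)) = finrank K W :=
  LinearEquiv.finrank_map_eq (hhEquiv ρ g) W

/-- commutation up to a scalar moves eigenspaces to eigenspaces -/
theorem hh_eig_map {Q : Type u} [Group Q] {V : Type v} [AddCommGroup V] [Module K V]
    (ρ : Q →* Module.End K V) (g z : Q) (κ : K) (hκ : κ ≠ 0)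
    (h : ρ g * ρ z = κ • (ρ z * ρ g)) (l : K) :
    (Module.End.eigenspace (ρ z) l).map (ρ g) = Module.End.eigenspace (ρ z) (κ⁻¹ * l) := by
  have h' : ∀ v, ρ g (ρ z v) = κ • ρ z (ρ g v) := fun v => by
    have := congrArg (fun A : Module.End K V => A v) h
    simpa using this
  apply le_antisymm
  · intro w hw
    obtain ⟨v, hv, rfl⟩ := Submodule.mem_map.1 hw
    rw [Module.End.mem_eigenspace_iff] at hv ⊢
    have h1 := h' v
    rw [hv, map_smul] at h1
    have : ρ z (ρ g v) = κ⁻¹ • (κ • ρ z (ρ g v)) := by rw [smul_smul, inv_mul_cancel₀ hκ, one_smul]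
    rw [this, ← h1, smul_smul]
  · intro w hw
    rw [Module.End.mem_eigenspace_iff] at hw
    refine Submodule.mem_map.2 ⟨ρ g⁻¹ w, ?_, hh_rho_apply_inv ρ g w⟩
    rw [Module.End.mem_eigenspace_iff]
    have h1 := h' (ρ g⁻¹ w)
    rw [hh_rho_apply_inv, hw, smul_smul, mul_inv_cancel_left₀ hκ] at h1
    have h2 : ρ g⁻¹ (ρ g (ρ z (ρ g⁻¹ w))) = ρ g⁻¹ (l • w) := congrArg _ h1
    rw [hh_rho_inv_apply, map_smul] at h2
    exact h2

/-- An irreducible representation of a finite `q`-group over an algebraically closed field has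
`q`-power dimension. -/
theorem hh_powdim (q : ℕ) [Fact q.Prime] :
    ∀ (N : ℕ) (Q : Type u) [Group Q] [Finite Q] (V : Type v) [AddCommGroup V] [Module K V]
      [FiniteDimensional K V] [Nontrivial V] (ρ : Q →* Module.End K V),
      Nat.card Q = N → IsPGroup q Q →
      (∀ W : Submodule K V, (∀ g, Submodule.map (ρ g) W ≤ W) → W = ⊥ ∨ W = ⊤) →
      ∃ b : ℕ, finrank K V = q ^ b := by
  intro N
  induction N using Nat.strong_induction_on with
  | _ N ih =>
  intro Q _ _ V _ _ _ _ ρ hN hQ hirr
  classical
  by_cases hsc : ∀ g, ∃ κ : K, ρ g = κ • 1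
  · refine ⟨0, ?_⟩
    obtain ⟨v, hv⟩ := exists_ne (0 : V)
    have hspan : (K ∙ v) = ⊤ := by
      have hinv : ∀ g, Submodule.map (ρ g) (K ∙ v) ≤ (K ∙ v) := by
        intro g w hw
        obtain ⟨y, hy, rfl⟩ := Submodule.mem_map.1 hw
        obtain ⟨κ, hκ⟩ := hsc g
        rw [hκ]
        simpa using Submodule.smul_mem _ κ hy
      rcases hirr (K ∙ v) hinv with h | h
      · exact absurd h (by simpa using hv)
      · exact h
    rw [pow_zero, ← finrank_top K V, ← hspan, finrank_span_singleton hv]
  · push Not at hsc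
    have hne01 : (1 : Module.End K V) ≠ 0 := one_ne_zero
    have hunit : ∀ g, ρ g ≠ 0 := by
      intro g h0
      have : ρ g⁻¹ * ρ g = 1 := by rw [← map_mul, inv_mul_cancel, map_one]
      rw [h0, mul_zero] at this
      exact hne01 this.symm
    -- the subgroup of elements acting as scalars
    let Zs : Subgroup Q :=
      { carrier := {g | ∃ κ : K, ρ g = κ • 1}
        mul_mem' := by
          rintro a b ⟨κ, hκ⟩ ⟨κ', hκ'⟩
          exact ⟨κ * κ', by rw [map_mul, hκ, hκ']; simp [smul_smul, mul_comm]⟩
        one_mem' := ⟨1, by simp⟩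
        inv_mem' := by
          rintro a ⟨κ, hκ⟩
          have h1 : ρ a⁻¹ * ρ a = 1 := by rw [← map_mul, inv_mul_cancel, map_one]
          rw [hκ] at h1
          have hκ0 : κ ≠ 0 := by
            rintro rfl
            rw [zero_smul, mul_zero] at h1
            exact hne01 h1.symm
          refine ⟨κ⁻¹, ?_⟩
          have h2 : κ • ρ a⁻¹ = 1 := by simpa using h1
          rw [← h2, smul_smul, inv_mul_cancel₀ hκ0, one_smul] }
    have hZs_mem : ∀ g, g ∈ Zs ↔ ∃ κ : K, ρ g = κ • 1 := fun g => Iff.rfl
    have hZsN : Zs.Normal := by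
      constructor
      rintro a ⟨κ, hκ⟩ g
      refine ⟨κ, ?_⟩
      rw [map_mul, map_mul, hκ]
      have : ρ g * ρ g⁻¹ = 1 := by rw [← map_mul, mul_inv_cancel, map_one]
      rw [mul_smul_comm, mul_one, smul_mul_assoc, this]
    have hZs_ne : Zs ≠ ⊤ := by
      intro h
      obtain ⟨g, hg⟩ := hsc
      obtain ⟨κ, hκ⟩ := (hZs_mem g).1 (h ▸ Subgroup.mem_top g)
      exact hg κ hκ
    haveI : Nontrivial (Q ⧸ Zs) := by
      rw [← not_subsingleton_iff_nontrivial]
      intro hs
      exact hZs_ne (QuotientGroup.subgroup_eq_top_of_subsingleton Zs hs)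
    have hQq : IsPGroup q (Q ⧸ Zs) := hQ.to_quotient Zs
    haveI := hQq.center_nontrivial
    obtain ⟨⟨c, hc⟩, hc1⟩ := exists_ne (1 : Subgroup.center (Q ⧸ Zs))
    obtain ⟨z, rfl⟩ := QuotientGroup.mk_surjective c
    have hzZ : z ∉ Zs := by
      intro hz
      apply hc1
      apply Subtype.ext
      exact (QuotientGroup.eq_one_iff z).2 hz
    have hcomm : ∀ g, g * z * g⁻¹ * z⁻¹ ∈ Zs := by
      intro g
      rw [← QuotientGroup.eq_one_iff]
      have h1 : (g : Q ⧸ Zs) * (z : Q ⧸ Zs) = (z : Q ⧸ Zs) * (g : Q ⧸ Zs) :=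
        Subgroup.mem_center_iff.1 hc (g : Q ⧸ Zs)
      simp only [QuotientGroup.mk_mul, QuotientGroup.mk_inv]
      rw [h1]; group
    -- scalars `κ g`
    have hκex : ∀ g, ∃ κ : K, κ ≠ 0 ∧ ρ g * ρ z = κ • (ρ z * ρ g) := by
      intro g
      obtain ⟨κ, hκ⟩ := (hZs_mem _).1 (hcomm g)
      have h1 : ρ g * ρ z = κ • (ρ z * ρ g) := by
        have : ρ g * ρ z = ρ (g * z * g⁻¹ * z⁻¹) * (ρ z * ρ g) := by
          rw [← map_mul, ← map_mul, ← map_mul]; congr 1; group
        rw [this, hκ, smul_mul_assoc, one_mul]
      refine ⟨κ, ?_, h1⟩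
      rintro rfl
      rw [zero_smul, ← map_mul] at h1
      exact hunit _ h1
    choose κ hκ0 hκ using hκex
    obtain ⟨μ, hμ⟩ := Module.End.exists_eigenvalue (ρ z)
    set E : Submodule K V := Module.End.eigenspace (ρ z) μ with hE
    have hEne : E ≠ ⊥ := hμ
    letI act : MulAction Q (Submodule K V) := hhAct ρ
    have hsmul : ∀ (g : Q) (W : Submodule K V), g • W = W.map (ρ g) := fun g W => rfl
    have horb_eig : ∀ W ∈ MulAction.orbit Q E, ∃ l : K, W = Module.End.eigenspace (ρ z) l := by
      rintro W ⟨g, rfl⟩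
      exact ⟨(κ g)⁻¹ * μ, by
        show g • E = _
        rw [hsmul, hE, hh_eig_map ρ g z (κ g) (hκ0 g) (hκ g)]⟩
    have horb_ne : ∀ W ∈ MulAction.orbit Q E, W ≠ ⊥ := by
      rintro W ⟨g, rfl⟩ h0
      apply hEne
      have h0 : E.map (ρ g) = ⊥ := h0
      rw [eq_bot_iff]
      intro v hv
      have h1 : ρ g v ∈ E.map (ρ g) := Submodule.mem_map_of_mem hv
      rw [h0, Submodule.mem_bot] at h1
      have h2 := hh_rho_inv_apply ρ g v
      rw [h1, map_zero] at h2
      rw [Submodule.mem_bot]; exact h2.symm
    haveI hfinorb : Finite (MulAction.orbit Q E) := (Set.finite_range _).to_subtype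
    haveI := Fintype.ofFinite (MulAction.orbit Q E)
    choose! lam hlam using horb_eig
    have hlam_inj : Function.Injective (fun W : MulAction.orbit Q E => lam W.1) := by
      intro W W' h
      apply Subtype.ext
      rw [hlam W.1 W.2, hlam W'.1 W'.2]
      exact congrArg _ h
    have hindep : iSupIndep (fun W : MulAction.orbit Q E => (W.1 : Submodule K V)) := by
      have h1 := (Module.End.eigenspaces_iSupIndep (ρ z)).comp hlam_inj
      have h2 : (Module.End.eigenspace (ρ z)) ∘ (fun W : MulAction.orbit Q E => lam W.1)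
          = fun W : MulAction.orbit Q E => (W.1 : Submodule K V) := by
        funext W
        exact (hlam W.1 W.2).symm
      rwa [h2] at h1
    have hsup : (⨆ W : MulAction.orbit Q E, (W.1 : Submodule K V)) = ⊤ := by
      have hinv : ∀ g, Submodule.map (ρ g) (⨆ W : MulAction.orbit Q E, (W.1 : Submodule K V))
          ≤ ⨆ W : MulAction.orbit Q E, (W.1 : Submodule K V) := by
        intro g
        rw [Submodule.map_iSup]
        apply iSup_le
        intro W
        have hmem : g • W.1 ∈ MulAction.orbit Q E := by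
          obtain ⟨h, hh⟩ := W.2
          exact ⟨g * h, by rw [← hh]; exact mul_smul g h E⟩
        exact le_iSup (fun W : MulAction.orbit Q E => (W.1 : Submodule K V)) ⟨g • W.1, hmem⟩
      rcases hirr _ hinv with h | h
      · exfalso
        apply hEne
        rw [eq_bot_iff, ← h]
        exact le_iSup (fun W : MulAction.orbit Q E => (W.1 : Submodule K V))
          ⟨E, MulAction.mem_orbit_self E⟩
      · exact h
    -- dimension count
    have hdim : finrank K V = Nat.card (MulAction.orbit Q E) * finrank K E := by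
      have hint := DirectSum.isInternal_submodule_of_iSupIndep_of_iSup_eq_top hindep hsup
      have e := LinearEquiv.ofBijective (DirectSum.coeLinearMap
        (fun W : MulAction.orbit Q E => (W.1 : Submodule K V))) hint
      rw [← e.finrank_eq, Module.finrank_directSum]
      have : ∀ W : MulAction.orbit Q E, finrank K (W.1 : Submodule K V) = finrank K E := by
        rintro ⟨W, g, rfl⟩
        exact hh_finrank_map ρ g E
      rw [Finset.sum_congr rfl (fun W _ => this W), Finset.sum_const, Finset.card_univ,
        Nat.card_eq_fintype_card, smul_eq_mul]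
    have hcard_orb : ∃ c : ℕ, Nat.card (MulAction.orbit Q E) = q ^ c := by
      obtain ⟨m, hm⟩ := IsPGroup.iff_card.1 hQ
      have h1 : (MulAction.stabilizer Q E).index ∣ q ^ m := by
        rw [← hm]; exact Subgroup.index_dvd_card _
      rw [MulAction.index_stabilizer] at h1
      obtain ⟨c, -, hc⟩ := (Nat.dvd_prime_pow (Fact.out : q.Prime)).1 h1
      exact ⟨c, by rw [← hc, Nat.card_coe_set_eq]⟩
    obtain ⟨c, hc⟩ := hcard_orb
    -- the stabilizer
    set H : Subgroup Q := MulAction.stabilizer Q E with hH
    have hHmem : ∀ g, g ∈ H ↔ E.map (ρ g) = E := fun g => by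
      rw [hH, MulAction.mem_stabilizer_iff]; rfl
    have hHne : H ≠ ⊤ := by
      intro h
      have hinv : ∀ g, Submodule.map (ρ g) E ≤ E := fun g =>
        ((hHmem g).1 (h ▸ Subgroup.mem_top g)).le
      rcases hirr E hinv with h0 | h1
      · exact hEne h0
      · apply hzZ
        refine (hZs_mem z).2 ⟨μ, ?_⟩
        ext v
        have hv : v ∈ E := h1 ▸ Submodule.mem_top
        rw [hE, Module.End.mem_eigenspace_iff] at hv
        simp [hv]
    have hstab : ∀ h : H, ∀ v ∈ E, ρ (h : Q) v ∈ E := by
      intro h v hv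
      have := (hHmem h.1).1 h.2
      rw [← this]
      exact Submodule.mem_map_of_mem hv
    let ρH : H →* Module.End K E :=
      { toFun := fun h => (ρ (h : Q)).restrict (hstab h)
        map_one' := by
          ext v
          simp
        map_mul' := by
          intro a b
          ext v
          simp }
    have hρH : ∀ (h : H) (v : E), ((ρH h v : E) : V) = ρ (h : Q) (v : V) := fun h v => rfl
    haveI : Nontrivial E := (Submodule.nontrivial_iff_ne_bot).2 hEne
    have hirrH : ∀ U : Submodule K E, (∀ h, Submodule.map (ρH h) U ≤ U) → U = ⊥ ∨ U = ⊤ := by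
      intro U hU
      by_cases hU0 : U = ⊥
      · exact Or.inl hU0
      right
      set U' : Submodule K V := U.map E.subtype with hU'
      have hU'E : U' ≤ E := by
        rintro w ⟨u, -, rfl⟩
        exact u.2
      have hU'ne : U' ≠ ⊥ := by
        intro h0
        apply hU0
        rw [eq_bot_iff]
        intro u hu
        have h1 : E.subtype u ∈ U' := Submodule.mem_map_of_mem hu
        rw [h0, Submodule.mem_bot] at h1
        rw [Submodule.mem_bot]
        exact Subtype.ext h1
      set X : Submodule K V := ⨆ g : Q, U'.map (ρ g) with hX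
      have hXinv : ∀ g, Submodule.map (ρ g) X ≤ X := by
        intro g
        rw [hX, Submodule.map_iSup]
        apply iSup_le
        intro g'
        rw [← Submodule.map_comp]
        have : (ρ g).comp (ρ g') = ρ (g * g') := by rw [map_mul]; rfl
        rw [this]
        exact le_iSup (fun g : Q => U'.map (ρ g)) (g * g')
      have hXtop : X = ⊤ := by
        rcases hirr X hXinv with h | h
        · exfalso
          apply hU'ne
          rw [eq_bot_iff, ← h]
          have h1 := le_iSup (fun g : Q => U'.map (ρ g)) 1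
          have h2 : U'.map (ρ (1 : Q)) = U' := by rw [map_one]; exact Submodule.map_id U'
          rw [h2] at h1
          exact h1
        · exact h
      set Y : Submodule K V :=
        ⨆ W : MulAction.orbit Q E, ⨆ (_ : W ≠ ⟨E, MulAction.mem_orbit_self E⟩), (W.1 : Submodule K V)
        with hY
      have hdisj : Disjoint E Y := hindep ⟨E, MulAction.mem_orbit_self E⟩
      have hXle : X ≤ U' ⊔ Y := by
        rw [hX]
        apply iSup_le
        intro g
        by_cases hg : g ∈ H
        · refine le_trans ?_ le_sup_left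
          rintro w ⟨u', ⟨u, hu, rfl⟩, rfl⟩
          refine ⟨ρH ⟨g, hg⟩ u, hU ⟨g, hg⟩ (Submodule.mem_map_of_mem hu), ?_⟩
          rfl
        · refine le_trans ?_ le_sup_right
          have hmem : g • E ∈ MulAction.orbit Q E := ⟨g, rfl⟩
          have hne : (⟨g • E, hmem⟩ : MulAction.orbit Q E) ≠ ⟨E, MulAction.mem_orbit_self E⟩ := by
            intro h
            apply hg
            rw [hHmem]
            exact congrArg Subtype.val h
          refine le_trans (Submodule.map_mono hU'E) ?_
          exact le_iSup₂_of_le (⟨g • E, hmem⟩ : MulAction.orbit Q E) hne (le_refl _)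
      have hEU : E ≤ U' := by
        have h0 : E ≤ U' ⊔ Y := le_trans (hXtop ▸ (le_top : E ≤ ⊤)) hXle
        have h1 : E ≤ (U' ⊔ Y) ⊓ E := le_inf h0 le_rfl
        rw [sup_inf_assoc_of_le Y hU'E, hdisj.symm.eq_bot, sup_bot_eq] at h1
        exact h1
      rw [eq_top_iff]
      intro v _
      obtain ⟨u, hu, huv⟩ := hEU v.2
      have : u = v := Subtype.ext huv
      exact this ▸ hu
    have hlt : Nat.card H < N := by
      rw [← hN]
      have h1 : H.index ≠ 1 := fun h => hHne (Subgroup.index_eq_one.1 h)
      have h2 := H.card_mul_index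
      have h3 : H.index ≠ 0 := Subgroup.index_ne_zero_of_finite
      have h4 : 0 < Nat.card H := Nat.card_pos
      nlinarith [show 2 ≤ H.index by omega]
    obtain ⟨b, hb⟩ := ih (Nat.card H) hlt H E ρH rfl (hQ.to_subgroup H) hirrH
    exact ⟨c + b, by rw [hdim, hc, hb, pow_add]⟩

end PowDim

end Cfsg.Agent.Lib.Helper17
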