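import Mathlib

/-! Hall–Higman critical case, part C: operator identities in characteristic `p` and the
linear algebra of a unipotent operator whose centralizer consists of scalars plus norms. -/

set_option autoImplicit false

namespace Cfsg.Agent.Lib.Helper17

open Module

universe v w

section Poly

variable (K : Type w) [Field K] (p : ℕ) [Fact p.Prime] [CharP K p]

theorem hh_poly_geom (e : ℕ) :
    (∑ i ∈ Finset.range (p ^ e), (Polynomial.X : Polynomial K) ^ i)
      = (Polynomial.X - 1) ^ (p ^ e - 1) := by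
  have hpos : 1 ≤ p ^ e := Nat.one_le_pow _ _ (Fact.out : p.Prime).pos
  have h1 : (∑ i ∈ Finset.range (p ^ e), (Polynomial.X : Polynomial K) ^ i) * (Polynomial.X - 1)
      = Polynomial.X ^ (p ^ e) - 1 := geom_sum_mul _ _
  have h2 : ((Polynomial.X : Polynomial K) - 1) ^ (p ^ e) = Polynomial.X ^ (p ^ e) - 1 := by
    rw [sub_pow_char_pow, one_pow]
  have h3 : ((Polynomial.X : Polynomial K) - 1) ^ (p ^ e - 1) * (Polynomial.X - 1)
      = Polynomial.X ^ (p ^ e) - 1 := by
    rw [← pow_succ, Nat.sub_add_cancel hpos, h2]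
  have hne : (Polynomial.X : Polynomial K) - 1 ≠ 0 := by
    have := Polynomial.X_sub_C_ne_zero (1 : K)
    simpa using this
  exact mul_right_cancel₀ hne (h1.trans h3.symm)

theorem hh_geom_pow {A : Type v} [Ring A] [Algebra K A] (c : A) (e : ℕ) :
    ∑ i ∈ Finset.range (p ^ e), c ^ i = (c - 1) ^ (p ^ e - 1) := by
  have h := congrArg (Polynomial.aeval c) (hh_poly_geom K p e)
  simpa using h

theorem hh_sub_one_pow {A : Type v} [Ring A] [Algebra K A] (c : A) (e : ℕ) :
    (c - 1) ^ (p ^ e) = c ^ (p ^ e) - 1 := by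
  have h2 : ((Polynomial.X : Polynomial K) - 1) ^ (p ^ e) = Polynomial.X ^ (p ^ e) - 1 := by
    rw [sub_pow_char_pow, one_pow]
  have h := congrArg (Polynomial.aeval c) h2
  simpa using h

end Poly

section Expand

variable {K : Type w} [Field K] (p : ℕ) [Fact p.Prime] [CharP K p]
  {V : Type v} [AddCommGroup V] [Module K V]

/-- the norm `∑ aⁱ T' a⁻ⁱ` expanded in powers of `u = a - 1` -/
theorem hh_norm_expand (a w : Module.End K V) (haw : a * w = 1) (hwa : w * a = 1) (e : ℕ)
    (T' : Module.End K V) :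
    ∃ (Y : Module.End K V) (k : ℕ → K),
      ∑ i ∈ Finset.range (p ^ e), a ^ i * T' * w ^ i
        = ∑ m ∈ Finset.range (p ^ e), k m • ((a - 1) ^ m * Y * (a - 1) ^ (p ^ e - 1 - m)) := by
  have hpos : 1 ≤ p ^ e := Nat.one_le_pow _ _ (Fact.out : p.Prime).pos
  set u : Module.End K V := a - 1 with hu
  set La : Module.End K (Module.End K V) := LinearMap.mulLeft K a with hLa
  set Rw : Module.End K (Module.End K V) := LinearMap.mulRight K w with hRw
  set Lu : Module.End K (Module.End K V) := LinearMap.mulLeft K u with hLu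
  set Ru : Module.End K (Module.End K V) := LinearMap.mulRight K u with hRu
  set c : Module.End K (Module.End K V) := La * Rw with hc
  have hc_pow : ∀ (i : ℕ) (Z : Module.End K V), (c ^ i) Z = a ^ i * Z * w ^ i := by
    intro i
    induction i with
    | zero => intro Z; simp
    | succ i ih =>
      intro Z
      rw [pow_succ', Module.End.mul_apply, ih]
      show a * ((a ^ i * Z * w ^ i) * w) = _
      rw [pow_succ', pow_succ]
      noncomm_ring
  have huw : u * w = w * u := by
    rw [hu, sub_mul, mul_sub, haw, hwa, one_mul, mul_one]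
  have hc1 : c - 1 = (Lu - Ru) * Rw := by
    apply LinearMap.ext
    intro Z
    show a * (Z * w) - Z = u * (Z * w) - (Z * w) * u
    have h1 : Z * w * u = Z - Z * w := by
      rw [hu, mul_sub, mul_assoc, hwa, mul_one, mul_one]
    rw [h1, hu]
    noncomm_ring
  have hLR : Commute Lu Ru := LinearMap.commute_mulLeft_right u u
  have hcomm1 : Commute (Lu - Ru) Rw := by
    apply Commute.sub_left
    · exact LinearMap.commute_mulLeft_right u w
    · apply LinearMap.ext
      intro Z
      show (Z * w) * u = (Z * u) * w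
      rw [mul_assoc, ← huw, mul_assoc]
  have hsum : ∑ i ∈ Finset.range (p ^ e), c ^ i = (c - 1) ^ (p ^ e - 1) := hh_geom_pow K p c e
  have hLpow : ∀ (m : ℕ) (Z : Module.End K V), (Lu ^ m) Z = u ^ m * Z := by
    intro m
    induction m with
    | zero => intro Z; simp
    | succ m ih =>
      intro Z
      rw [pow_succ', Module.End.mul_apply, ih]
      show u * (u ^ m * Z) = _
      rw [pow_succ', mul_assoc]
  have hRpow : ∀ (j : ℕ) (Z : Module.End K V), ((-Ru) ^ j) Z = (-1 : K) ^ j • (Z * u ^ j) := by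
    intro j
    induction j with
    | zero => intro Z; simp
    | succ j ih =>
      intro Z
      rw [pow_succ', Module.End.mul_apply, ih]
      show -((-1 : K) ^ j • (Z * u ^ j) * u) = _
      rw [pow_succ (-1 : K), pow_succ u, smul_mul_assoc, mul_assoc, mul_neg_one, neg_smul]
  have hRwpow : ∀ (j : ℕ) (Z : Module.End K V), (Rw ^ j) Z = Z * w ^ j := by
    intro j
    induction j with
    | zero => intro Z; simp
    | succ j ih =>
      intro Z
      rw [pow_succ', Module.End.mul_apply, ih]
      show Z * w ^ j * w = _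
      rw [pow_succ, mul_assoc]
  have hexp : (Lu - Ru) ^ (p ^ e - 1) = ∑ m ∈ Finset.range (p ^ e),
      Lu ^ m * (-Ru) ^ (p ^ e - 1 - m) * (((p ^ e - 1).choose m : ℕ) : Module.End K (Module.End K V)) := by
    have h := Commute.add_pow (hLR.neg_right) (p ^ e - 1)
    rw [Nat.sub_add_cancel hpos] at h
    rw [sub_eq_add_neg]
    exact h
  refine ⟨T' * w ^ (p ^ e - 1),
    fun m => (-1 : K) ^ (p ^ e - 1 - m) * (((p ^ e - 1).choose m : ℕ) : K), ?_⟩
  have h1 : ∑ i ∈ Finset.range (p ^ e), a ^ i * T' * w ^ i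
      = (∑ i ∈ Finset.range (p ^ e), c ^ i) T' := by
    rw [LinearMap.sum_apply]
    exact Finset.sum_congr rfl (fun i _ => (hc_pow i T').symm)
  rw [h1, hsum, hc1, hcomm1.mul_pow, Module.End.mul_apply, hRwpow, hexp, LinearMap.sum_apply]
  refine Finset.sum_congr rfl (fun m _ => ?_)
  rw [Module.End.mul_apply, Module.End.mul_apply, Module.End.natCast_apply, hRpow, hLpow]
  rw [← Nat.cast_smul_eq_nsmul K, smul_mul_assoc, mul_smul_comm, mul_smul_comm, smul_smul,
    mul_assoc]
  simp only [mul_assoc]

end Expand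

section LinAlg

variable {K : Type w} [Field K] {V : Type v} [AddCommGroup V] [Module K V] [FiniteDimensional K V]

theorem hh_ker_comp (f g : Module.End K V) :
    finrank K (LinearMap.ker (g * f)) ≤ finrank K (LinearMap.ker f) + finrank K (LinearMap.ker g) := by
  set W : Submodule K V := LinearMap.ker (g * f) with hW
  set φ : W →ₗ[K] V := f.comp W.subtype with hφ
  have h1 := LinearMap.finrank_range_add_finrank_ker φ
  have h2 : finrank K (LinearMap.range φ) ≤ finrank K (LinearMap.ker g) := by
    apply Submodule.finrank_mono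
    rintro _ ⟨v, rfl⟩
    rw [LinearMap.mem_ker]
    have hv2 : (v : V) ∈ LinearMap.ker (g * f) := v.2
    exact LinearMap.mem_ker.1 hv2
  have h3 : finrank K (LinearMap.ker φ) ≤ finrank K (LinearMap.ker f) := by
    rw [← Submodule.finrank_map_subtype_eq W (LinearMap.ker φ)]
    apply Submodule.finrank_mono
    rintro _ ⟨v, hv, rfl⟩
    have hv' : φ v = 0 := LinearMap.mem_ker.1 hv
    exact LinearMap.mem_ker.2 hv'
  omega

theorem hh_ker_pow_le (u : Module.End K V) (h1 : finrank K (LinearMap.ker u) ≤ 1) (k : ℕ) :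
    finrank K (LinearMap.ker (u ^ k)) ≤ k := by
  induction k with
  | zero =>
    rw [pow_zero]
    have : LinearMap.ker (1 : Module.End K V) = ⊥ := LinearMap.ker_id
    rw [this, finrank_bot]
  | succ k ih =>
    rw [pow_succ']
    have := hh_ker_comp (u ^ k) u
    omega

theorem hh_finrank_ge (u : Module.End K V) (s : ℕ) (hs : 1 ≤ s) (h : u ^ (s - 1) ≠ 0)
    (h0 : u ^ s = 0) : s ≤ finrank K V := by
  obtain ⟨y, hy⟩ : ∃ y, (u ^ (s - 1)) y ≠ 0 := by
    by_contra hc
    push Not at hc
    exact h (LinearMap.ext hc)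
  have key : ∀ k ≤ s, k ≤ finrank K (LinearMap.ker (u ^ k)) := by
    intro k
    induction k with
    | zero => intro _; exact Nat.zero_le _
    | succ k ih =>
      intro hk
      have ih' := ih (by omega)
      have hlt : LinearMap.ker (u ^ k) < LinearMap.ker (u ^ (k + 1)) := by
        refine lt_of_le_of_ne ?_ ?_
        · intro v hv
          rw [LinearMap.mem_ker] at hv ⊢
          rw [pow_succ', Module.End.mul_apply, hv, map_zero]
        · intro heq
          have hz : (u ^ (s - 1 - k)) y ∈ LinearMap.ker (u ^ (k + 1)) := by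
            rw [LinearMap.mem_ker, ← Module.End.mul_apply, ← pow_add]
            have : k + 1 + (s - 1 - k) = s := by omega
            rw [this, h0]; rfl
          rw [← heq, LinearMap.mem_ker, ← Module.End.mul_apply, ← pow_add] at hz
          have : k + (s - 1 - k) = s - 1 := by omega
          rw [this] at hz
          exact hy hz
      have := Submodule.finrank_lt_finrank_of_lt hlt
      omega
  exact le_trans (key s le_rfl) (Submodule.finrank_le _)

end LinAlg

section Sides

variable {K : Type w} [Field K] (p : ℕ) [Fact p.Prime] [CharP K p]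
  {V : Type v} [AddCommGroup V] [Module K V] [FiniteDimensional K V]

/-- a norm kills the kernel of `u` once `u ^ (n - 1) = 0` -/
theorem hh_norm_kills (a w : Module.End K V) (haw : a * w = 1) (hwa : w * a = 1) (e : ℕ)
    (hn1 : (a - 1) ^ (p ^ e - 1) = 0) (T' : Module.End K V) (v : V) (hv : (a - 1) v = 0) :
    (∑ i ∈ Finset.range (p ^ e), a ^ i * T' * w ^ i) v = 0 := by
  obtain ⟨Y, k, hexp⟩ := hh_norm_expand p a w haw hwa e T'
  rw [hexp, LinearMap.sum_apply]
  apply Finset.sum_eq_zero
  intro m hm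
  rw [Finset.mem_range] at hm
  rw [LinearMap.smul_apply]
  by_cases hm1 : m = p ^ e - 1
  · rw [hm1, hn1, zero_mul, zero_mul, LinearMap.zero_apply, smul_zero]
  · have : p ^ e - 1 - m = (p ^ e - 1 - m - 1) + 1 := by omega
    rw [this, pow_succ, Module.End.mul_apply, Module.End.mul_apply, Module.End.mul_apply, hv,
      map_zero, map_zero, map_zero, smul_zero]

theorem hh_sideB (a w : Module.End K V) (haw : a * w = 1) (hwa : w * a = 1) (e : ℕ)
    (hdec : ∀ T : Module.End K V, T * a = a * T → ∃ (κ : K) (T' : Module.End K V),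
      T = κ • 1 + ∑ i ∈ Finset.range (p ^ e), a ^ i * T' * w ^ i)
    (s : ℕ) (hs2 : 2 ≤ s) (hs0 : (a - 1) ^ s = 0) (hs1 : (a - 1) ^ (s - 1) ≠ 0) :
    p ^ e - 1 ≤ s := by
  by_contra hcon
  have hsn : s + 2 ≤ p ^ e := by omega
  set u : Module.End K V := a - 1 with hu
  have hua : u * a = a * u := by rw [hu]; noncomm_ring
  obtain ⟨κ, T', hT⟩ := hdec u hua
  have hn1 : u ^ (p ^ e - 1) = 0 := by
    have : p ^ e - 1 = s + (p ^ e - 1 - s) := by omega
    rw [this, pow_add, hs0, zero_mul]
  obtain ⟨y, hy⟩ : ∃ y, (u ^ (s - 1)) y ≠ 0 := by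
    by_contra hc
    push Not at hc
    exact hs1 (LinearMap.ext hc)
  set v : V := (u ^ (s - 1)) y with hv
  have huv : u v = 0 := by
    rw [hv, ← Module.End.mul_apply, ← pow_succ', Nat.sub_add_cancel (by omega), hs0]; rfl
  have hκ : κ = 0 := by
    have h1 := congrArg (fun A : Module.End K V => A v) hT
    simp only [LinearMap.add_apply, LinearMap.smul_apply, Module.End.one_apply] at h1
    rw [huv, hh_norm_kills p a w haw hwa e hn1 T' v huv, add_zero] at h1
    rcases smul_eq_zero.1 h1.symm with h | h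
    · exact h
    · exact absurd h hy
  obtain ⟨Y, k, hexp⟩ := hh_norm_expand p a w haw hwa e T'
  rw [hκ, zero_smul, zero_add, hexp] at hT
  -- every term is divisible by `u ^ 2` on the left
  set Y' : Module.End K V := ∑ m ∈ Finset.range (p ^ e),
    k m • (if 2 ≤ m then u ^ (m - 2) * Y * u ^ (p ^ e - 1 - m) else 0) with hY'
  have hu2 : u = u ^ 2 * Y' := by
    rw [hY', Finset.mul_sum]
    conv_lhs => rw [hT]
    refine Finset.sum_congr rfl (fun m hm => ?_)
    rw [Finset.mem_range] at hm
    by_cases h2 : 2 ≤ m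
    · rw [if_pos h2, mul_smul_comm, ← mul_assoc, ← mul_assoc, ← pow_add]
      congr 4
      omega
    · rw [if_neg h2, smul_zero, mul_zero]
      have : p ^ e - 1 - m = s + (p ^ e - 1 - m - s) := by omega
      rw [this, pow_add, hs0, zero_mul, mul_zero, smul_zero]
  have hpow : ∀ j : ℕ, u = u ^ (j + 1) * Y' ^ j := by
    intro j
    induction j with
    | zero => simp
    | succ j ih =>
      have h1 : u ^ (j + 1) = u ^ j * u := pow_succ u j
      have h2 : u ^ (j + 1) * Y' ^ j = u ^ j * (u ^ 2 * Y') * Y' ^ j := by rw [← hu2, h1]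
      have h3 : u ^ (j + 1 + 1) = u ^ j * u ^ 2 := by rw [← pow_add]
      calc u = u ^ (j + 1) * Y' ^ j := ih
        _ = u ^ j * (u ^ 2 * Y') * Y' ^ j := h2
        _ = u ^ (j + 1 + 1) * Y' ^ (j + 1) := by
          rw [h3, pow_succ' Y' j]; simp only [mul_assoc]
  have hu0 : u = 0 := by
    have h := hpow s
    rw [pow_succ, hs0, zero_mul, zero_mul] at h
    exact h
  apply hs1
  have : s - 1 = (s - 2) + 1 := by omega
  rw [this, pow_succ, hu0, mul_zero]

theorem hh_sideC (a w : Module.End K V) (haw : a * w = 1) (hwa : w * a = 1) (e : ℕ)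
    (hdec : ∀ T : Module.End K V, T * a = a * T → ∃ (κ : K) (T' : Module.End K V),
      T = κ • 1 + ∑ i ∈ Finset.range (p ^ e), a ^ i * T' * w ^ i)
    (s : ℕ) (hs1' : 1 ≤ s) (hs0 : (a - 1) ^ s = 0) (hs1 : (a - 1) ^ (s - 1) ≠ 0)
    (hn1 : (a - 1) ^ (p ^ e - 1) = 0) :
    finrank K V = s := by
  set u : Module.End K V := a - 1 with hu
  have ha : a = u + 1 := by rw [hu]; noncomm_ring
  -- step 1
  have step1 : ∀ T : Module.End K V, T * u = u * T → ∃ κ : K, ∀ v, u v = 0 → T v = κ • v := by
    intro T hTu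
    have hTa : T * a = a * T := by rw [ha, mul_add, add_mul, hTu, mul_one, one_mul]
    obtain ⟨κ, T', hT⟩ := hdec T hTa
    refine ⟨κ, fun v hv => ?_⟩
    have h1 := congrArg (fun A : Module.End K V => A v) hT
    simp only [LinearMap.add_apply, LinearMap.smul_apply, Module.End.one_apply] at h1
    rw [hh_norm_kills p a w haw hwa e hn1 T' v hv, add_zero] at h1
    exact h1
  obtain ⟨y, hy⟩ : ∃ y, (u ^ (s - 1)) y ≠ 0 := by
    by_contra hc
    push Not at hc
    exact hs1 (LinearMap.ext hc)
  set w0 : V := (u ^ (s - 1)) y with hw0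
  obtain ⟨t, rfl⟩ : ∃ t, s = t + 1 := ⟨s - 1, by omega⟩
  simp only [Nat.add_sub_cancel] at hy hw0 hs1
  -- step 2
  have step2 : ∀ φ : Module.Dual K V, ∃ κ : K, ∀ v, u v = 0 → φ v • w0 = κ • v := by
    intro φ
    set Tφ : Module.End K V :=
      ∑ i ∈ Finset.range (t + 1), (φ.comp (u ^ (t - i))).smulRight ((u ^ i) y) with hTφ
    have hTapp : ∀ z, Tφ z = ∑ i ∈ Finset.range (t + 1), φ ((u ^ (t - i)) z) • (u ^ i) y := by
      intro z
      rw [hTφ, LinearMap.sum_apply]
      rfl
    have hcomm : Tφ * u = u * Tφ := by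
      apply LinearMap.ext
      intro z
      rw [Module.End.mul_apply, Module.End.mul_apply, hTapp, hTapp, map_sum]
      rw [Finset.sum_range_succ', Finset.sum_range_succ]
      have e1 : φ ((u ^ (t - 0)) (u z)) • (u ^ 0) y = 0 := by
        rw [Nat.sub_zero, ← Module.End.mul_apply, ← pow_succ, hs0]; simp
      have e2 : u (φ ((u ^ (t - t)) z) • (u ^ t) y) = 0 := by
        rw [map_smul, ← Module.End.mul_apply, ← pow_succ', hs0]; simp
      rw [e1, e2, add_zero, add_zero]
      refine Finset.sum_congr rfl (fun i hi => ?_)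
      rw [Finset.mem_range] at hi
      have e3 : (u ^ (t - (i + 1))) (u z) = (u ^ (t - i)) z := by
        rw [← Module.End.mul_apply, ← pow_succ]
        congr 2
        omega
      have e4 : u ((u ^ i) y) = (u ^ (i + 1)) y := by
        rw [← Module.End.mul_apply, ← pow_succ']
      rw [e3, map_smul, e4]
    obtain ⟨κ, hκ⟩ := step1 Tφ hcomm
    refine ⟨κ, fun v hv => ?_⟩
    rw [← hκ v hv, hTapp]
    rw [Finset.sum_eq_single t]
    · rw [Nat.sub_self, pow_zero, Module.End.one_apply, hw0]
    · intro i hi hit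
      rw [Finset.mem_range] at hi
      have : t - i = (t - i - 1) + 1 := by omega
      rw [this, pow_succ, Module.End.mul_apply, hv, map_zero, map_zero, zero_smul]
    · intro h
      exact absurd (Finset.mem_range.2 (Nat.lt_succ_self t)) h
  -- step 3
  have step3 : LinearMap.ker u ≤ K ∙ w0 := by
    intro v hv
    rw [LinearMap.mem_ker] at hv
    by_cases hv0 : v = 0
    · rw [hv0]; exact Submodule.zero_mem _
    obtain ⟨φ, hφ⟩ : ∃ φ : Module.Dual K V, φ v ≠ 0 := by
      by_contra hc
      push Not at hc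
      exact hv0 ((Module.forall_dual_apply_eq_zero_iff K v).1 hc)
    obtain ⟨κ, hκ⟩ := step2 φ
    have h1 := hκ v hv
    have hκ0 : κ ≠ 0 := by
      rintro rfl
      rw [zero_smul] at h1
      rcases smul_eq_zero.1 h1 with h | h
      · exact hφ h
      · exact hy h
    rw [Submodule.mem_span_singleton]
    refine ⟨κ⁻¹ * φ v, ?_⟩
    rw [mul_smul, h1, smul_smul, inv_mul_cancel₀ hκ0, one_smul]
  have h4 : finrank K (LinearMap.ker u) ≤ 1 :=
    le_trans (Submodule.finrank_mono step3) (finrank_span_singleton hy).le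
  have h5 := hh_ker_pow_le u h4 (t + 1)
  rw [hs0, LinearMap.ker_zero, finrank_top] at h5
  have h6 := hh_finrank_ge u (t + 1) hs1' (by simpa using hs1) hs0
  omega

end Sides

end Cfsg.Agent.Lib.Helper17
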