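import Mathlib
import Cfsg.Agent.Lib.Helper17.HHa
import Cfsg.Agent.Lib.Helper17.HHc
import Cfsg.Agent.Lib.Helper17.HBStmt

/-! Hall–Higman Theorem B, core, part A: restriction machinery, the irreducibility reduction. -/

set_option autoImplicit false

namespace Cfsg.Agent.Lib.Helper17

open Module

universe u v w

section Basics

variable {K : Type w} [Field K] {G : Type u} [Group G] {V : Type v} [AddCommGroup V] [Module K V]

/-- the conclusion of the Hall–Higman core -/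
def HBConcl (p q : ℕ) (ρ : G →* Module.End K V) (Q : Subgroup G) (x : G) (n : ℕ) : Prop :=
  (ρ x - 1) ^ (p ^ n - 1) ≠ 0 ∨
    ∃ n₀ m : ℕ, 1 ≤ n₀ ∧ n₀ ≤ n ∧ 1 ≤ m ∧ p ^ n₀ - 1 = q ^ m ∧
      (∃ g ∈ Q, ∃ h ∈ Q, ρ g * ρ h ≠ ρ h * ρ g) ∧
      (ρ x - 1) ^ (p ^ (n - n₀) * (p ^ n₀ - 1) - 1) ≠ 0

theorem hb_mul_apply (ρ : G →* Module.End K V) (g h : G) (v : V) : ρ (g * h) v = ρ g (ρ h v) := by
  rw [map_mul]; rfl

theorem hb_rho_inv_apply (ρ : G →* Module.End K V) (g : G) (v : V) : ρ g⁻¹ (ρ g v) = v := by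
  rw [← hb_mul_apply, inv_mul_cancel, map_one]; rfl

theorem hb_rho_apply_inv (ρ : G →* Module.End K V) (g : G) (v : V) : ρ g (ρ g⁻¹ v) = v := by
  rw [← hb_mul_apply, mul_inv_cancel, map_one]; rfl

theorem hb_pow_apply_mem (ρ : G →* Module.End K V) (U : Submodule K V) (g : G)
    (h : ∀ v ∈ U, ρ g v ∈ U) (k : ℕ) : ∀ v ∈ U, ρ (g ^ k) v ∈ U := by
  induction k with
  | zero => intro v hv; simpa using hv
  | succ k ih => intro v hv; rw [pow_succ, hb_mul_apply]; exact ih _ (h v hv)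

theorem hb_inv_eq_pow [Finite G] (g : G) : ∃ k : ℕ, g⁻¹ = g ^ k := by
  obtain ⟨m, hm, hgm⟩ := (isOfFinOrder_of_finite g).exists_pow_eq_one
  refine ⟨m - 1, ?_⟩
  have : g ^ (m - 1) * g = 1 := by rw [← pow_succ, Nat.sub_add_cancel hm, hgm]
  exact (eq_inv_of_mul_eq_one_left this).symm

/-- the setwise stabilizer of a subspace -/
def hbStab (ρ : G →* Module.End K V) (U : Submodule K V) : Subgroup G where
  carrier := {g | (∀ v ∈ U, ρ g v ∈ U) ∧ (∀ v ∈ U, ρ g⁻¹ v ∈ U)}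
  mul_mem' := by
    rintro a b ⟨ha, ha'⟩ ⟨hb, hb'⟩
    refine ⟨fun v hv => ?_, fun v hv => ?_⟩
    · rw [hb_mul_apply]; exact ha _ (hb v hv)
    · rw [mul_inv_rev, hb_mul_apply]; exact hb' _ (ha' v hv)
  one_mem' := by
    refine ⟨fun v hv => ?_, fun v hv => ?_⟩ <;> simpa using hv
  inv_mem' := by
    rintro a ⟨ha, ha'⟩
    exact ⟨ha', by simpa using ha⟩

theorem hb_mem_stab [Finite G] (ρ : G →* Module.End K V) (U : Submodule K V) (g : G)
    (h : ∀ v ∈ U, ρ g v ∈ U) : g ∈ hbStab ρ U := by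
  refine ⟨h, ?_⟩
  obtain ⟨k, hk⟩ := hb_inv_eq_pow g
  rw [hk]
  exact hb_pow_apply_mem ρ U g h k

theorem hb_stab_apply (ρ : G →* Module.End K V) (U : Submodule K V) {g : G}
    (hg : g ∈ hbStab ρ U) {v : V} (hv : v ∈ U) : ρ g v ∈ U := hg.1 v hv

theorem hb_stab_apply_inv (ρ : G →* Module.End K V) (U : Submodule K V) {g : G}
    (hg : g ∈ hbStab ρ U) {v : V} (hv : v ∈ U) : ρ g⁻¹ v ∈ U := hg.2 v hv

/-- the representation of the stabilizer on the subspace -/
def hbRes (ρ : G →* Module.End K V) (U : Submodule K V) : ↥(hbStab ρ U) →* Module.End K U where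
  toFun g := (ρ (g : G)).restrict (fun v hv => g.2.1 v hv)
  map_one' := by
    ext u
    simp
  map_mul' := by
    intro a b
    ext u
    simp [LinearMap.restrict_apply]

theorem hbRes_apply (ρ : G →* Module.End K V) (U : Submodule K V) (g : ↥(hbStab ρ U)) (u : U) :
    ((hbRes ρ U g u : U) : V) = ρ (g : G) (u : V) := rfl

theorem hb_res_sub_one_pow (ρ : G →* Module.End K V) (U : Submodule K V) (g : ↥(hbStab ρ U))
    (k : ℕ) (u : U) : ((((hbRes ρ U g - 1) ^ k) u : U) : V) = ((ρ (g : G) - 1) ^ k) (u : V) := by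
  induction k generalizing u with
  | zero => simp
  | succ k ih =>
    rw [pow_succ, pow_succ, Module.End.mul_apply, Module.End.mul_apply, ih]
    congr 1

theorem hb_normalizer_conj {Q : Subgroup G} {x : G} (hx : x ∈ Subgroup.normalizer (Q : Set G))
    {g : G} (hg : g ∈ Q) : x * g * x⁻¹ ∈ Q := (Subgroup.mem_normalizer_iff.1 hx g).1 hg

theorem hb_normalizer_conj' {Q : Subgroup G} {x : G} (hx : x ∈ Subgroup.normalizer (Q : Set G))
    {g : G} (hg : g ∈ Q) : x⁻¹ * g * x ∈ Q := by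
  have := hb_normalizer_conj (Subgroup.inv_mem _ hx) hg
  simpa using this

theorem hb_mem_normalizer {Q : Subgroup G} {x : G} (h1 : ∀ g ∈ Q, x * g * x⁻¹ ∈ Q)
    (h2 : ∀ g ∈ Q, x⁻¹ * g * x ∈ Q) : x ∈ Subgroup.normalizer (Q : Set G) := by
  rw [Subgroup.mem_normalizer_iff]
  intro g
  refine ⟨h1 g, fun h => ?_⟩
  have := h2 _ h
  simpa [mul_assoc] using this

/-- orthogonality: a multiplicative function which is not identically one sums to zero -/
theorem hb_orth {A : Type*} [Group A] [Fintype A] (χ : A → K) (hmul : ∀ a b, χ (a * b) = χ a * χ b)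
    (a₁ : A) (h1 : χ a₁ ≠ 1) : ∑ a, χ a = 0 := by
  have h : ∑ a, χ (a₁ * a) = ∑ a, χ a := Fintype.sum_equiv (Equiv.mulLeft a₁) _ _ (fun _ => rfl)
  simp_rw [hmul] at h
  rw [← Finset.mul_sum] at h
  have h2 : (χ a₁ - 1) * ∑ a, χ a = 0 := by rw [sub_mul, h, one_mul, sub_self]
  rcases mul_eq_zero.1 h2 with h3 | h3
  · exact absurd (sub_eq_zero.1 h3) h1
  · exact h3

theorem hb_card_ne_zero [Finite G] (p q : ℕ) [Fact p.Prime] [Fact q.Prime] (hpq : p ≠ q)
    [CharP K p] (A : Subgroup G) (hA : IsPGroup q A) : (Nat.card A : K) ≠ 0 := by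
  obtain ⟨k, hk⟩ := hA.exists_card_eq
  rw [hk]
  push_cast
  apply pow_ne_zero
  intro h
  have := (CharP.cast_eq_zero_iff K p q).1 h
  exact hpq ((Nat.prime_dvd_prime_iff_eq (Fact.out : p.Prime) (Fact.out : q.Prime)).1 this)

end Basics

section Irr

variable {K : Type w} [Field K] {G : Type u} [Group G] {V : Type v} [AddCommGroup V] [Module K V]

theorem hb_comm_apply (ρ : G →* Module.End K V) {a b : G} (h : a * b = b * a) (v : V) :
    ρ a (ρ b v) = ρ b (ρ a v) := by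
  rw [← hb_mul_apply, h, hb_mul_apply]

theorem hb_conj_apply (ρ : G →* Module.End K V) (x g : G) (v : V) :
    ρ g (ρ x v) = ρ x (ρ (x⁻¹ * g * x) v) := by
  rw [← hb_mul_apply, ← hb_mul_apply]
  congr 2
  group

theorem hb_conj_apply' (ρ : G →* Module.End K V) (x g : G) (v : V) :
    ρ x (ρ g v) = ρ (x * g * x⁻¹) (ρ x v) := by
  rw [← hb_mul_apply, ← hb_mul_apply]
  congr 2
  group

theorem hb_span_inv (S : Set V) (f : Module.End K V) (h : ∀ w ∈ S, f w ∈ Submodule.span K S) :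
    ∀ w ∈ Submodule.span K S, f w ∈ Submodule.span K S := by
  intro w hw
  induction hw using Submodule.span_induction with
  | mem w hw => exact h w hw
  | zero => simp
  | add a b _ _ ha hb => rw [map_add]; exact add_mem ha hb
  | smul c a _ ha => rw [map_smul]; exact Submodule.smul_mem _ c ha

/-- the subspace on which `ρ y` commutes with `ρ Q` -/
def hbF (ρ : G →* Module.End K V) (Q : Subgroup G) (y : G) : Submodule K V where
  carrier := {v | ∀ g ∈ Q, ρ y (ρ g v) = ρ g (ρ y v)}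
  add_mem' := by
    intro a b ha hb g hg
    simp only [map_add, ha g hg, hb g hg]
  zero_mem' := by
    intro g hg
    simp
  smul_mem' := by
    intro c v hv g hg
    simp only [map_smul, hv g hg]

theorem hbF_mem (ρ : G →* Module.End K V) (Q : Subgroup G) (y : G) (v : V) :
    v ∈ hbF ρ Q y ↔ ∀ g ∈ Q, ρ y (ρ g v) = ρ g (ρ y v) := Iff.rfl

/-- the span of the commutator images -/
def hbF' (ρ : G →* Module.End K V) (Q : Subgroup G) (y : G) : Submodule K V :=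
  Submodule.span K {w | ∃ g ∈ Q, ∃ v, w = ρ y (ρ g v) - ρ g (ρ y v)}

theorem hbF_inv_Q (ρ : G →* Module.End K V) (Q : Subgroup G) (y : G) :
    ∀ h ∈ Q, ∀ v ∈ hbF ρ Q y, ρ h v ∈ hbF ρ Q y := by
  intro h hh v hv g hg
  calc ρ y (ρ g (ρ h v)) = ρ y (ρ (g * h) v) := by rw [hb_mul_apply]
    _ = ρ (g * h) (ρ y v) := hv _ (Q.mul_mem hg hh)
    _ = ρ g (ρ h (ρ y v)) := by rw [hb_mul_apply]
    _ = ρ g (ρ y (ρ h v)) := by rw [hv h hh]

theorem hbF_inv_x (ρ : G →* Module.End K V) (Q : Subgroup G) (x y : G)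
    (hx : x ∈ Subgroup.normalizer (Q : Set G)) (hxy : x * y = y * x) :
    ∀ v ∈ hbF ρ Q y, ρ x v ∈ hbF ρ Q y := by
  intro v hv g hg
  calc ρ y (ρ g (ρ x v)) = ρ y (ρ x (ρ (x⁻¹ * g * x) v)) := by rw [hb_conj_apply ρ x g]
    _ = ρ x (ρ y (ρ (x⁻¹ * g * x) v)) := hb_comm_apply ρ hxy.symm _
    _ = ρ x (ρ (x⁻¹ * g * x) (ρ y v)) := by rw [hv _ (hb_normalizer_conj' hx hg)]
    _ = ρ g (ρ x (ρ y v)) := by rw [← hb_conj_apply ρ x g]
    _ = ρ g (ρ y (ρ x v)) := by rw [hb_comm_apply ρ hxy]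

theorem hbF'_inv_Q (ρ : G →* Module.End K V) (Q : Subgroup G) (y : G) :
    ∀ h ∈ Q, ∀ v ∈ hbF' ρ Q y, ρ h v ∈ hbF' ρ Q y := by
  intro h hh
  apply hb_span_inv
  rintro w ⟨g, hg, v, rfl⟩
  have e : ρ h (ρ y (ρ g v) - ρ g (ρ y v)) =
      (ρ y (ρ (h * g) v) - ρ (h * g) (ρ y v)) - (ρ y (ρ h (ρ g v)) - ρ h (ρ y (ρ g v))) := by
    rw [map_sub, hb_mul_apply, hb_mul_apply]
    abel
  rw [e]
  exact Submodule.sub_mem _ (Submodule.subset_span ⟨h * g, Q.mul_mem hh hg, v, rfl⟩)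
    (Submodule.subset_span ⟨h, hh, ρ g v, rfl⟩)

theorem hbF'_inv_x (ρ : G →* Module.End K V) (Q : Subgroup G) (x y : G)
    (hx : x ∈ Subgroup.normalizer (Q : Set G)) (hxy : x * y = y * x) :
    ∀ v ∈ hbF' ρ Q y, ρ x v ∈ hbF' ρ Q y := by
  apply hb_span_inv
  rintro w ⟨g, hg, v, rfl⟩
  have e : ρ x (ρ y (ρ g v) - ρ g (ρ y v)) =
      ρ y (ρ (x * g * x⁻¹) (ρ x v)) - ρ (x * g * x⁻¹) (ρ y (ρ x v)) := by
    rw [map_sub, hb_comm_apply ρ hxy (ρ g v), hb_conj_apply' ρ x g v, hb_conj_apply' ρ x g (ρ y v),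
      hb_comm_apply ρ hxy v]
  rw [e]
  exact Submodule.subset_span ⟨x * g * x⁻¹, hb_normalizer_conj hx hg, ρ x v, rfl⟩

variable [Finite G]

/-- The irreducibility reduction: if no proper invariant subspace is "good" then `V` is
irreducible under `Q` and `x`, and `ρ y` commutes with `ρ Q` on no nonzero vector. -/
theorem hb_irr (p q : ℕ) [Fact p.Prime] [Fact q.Prime] (hpq : p ≠ q) [CharP K p]
    (ρ : G →* Module.End K V) (Q : Subgroup G) (hQ : IsPGroup q Q) (x y : G)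
    (hx : x ∈ Subgroup.normalizer (Q : Set G)) (hy : y ∈ Subgroup.zpowers x)
    (h3 : ∃ g ∈ Q, ρ y * ρ g ≠ ρ g * ρ y)
    (hM2 : ∀ U : Submodule K V, U ≠ ⊤ → (∀ g ∈ Q, ∀ v ∈ U, ρ g v ∈ U) → (∀ v ∈ U, ρ x v ∈ U) →
      ∀ g ∈ Q, ∀ v ∈ U, ρ y (ρ g v) = ρ g (ρ y v)) :
    (∀ U : Submodule K V, (∀ g ∈ Q, ∀ v ∈ U, ρ g v ∈ U) → (∀ v ∈ U, ρ x v ∈ U) →
      U = ⊥ ∨ U = ⊤) ∧
    (∀ v : V, (∀ g ∈ Q, ρ y (ρ g v) = ρ g (ρ y v)) → v = 0) := by
  have hxy : x * y = y * x := by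
    obtain ⟨k, rfl⟩ := Subgroup.mem_zpowers_iff.1 hy
    exact (Commute.zpow_right (Commute.refl x) k).eq
  have hyN : y ∈ Subgroup.normalizer (Q : Set G) := (Subgroup.zpowers_le.2 hx) hy
  have hFQ := hbF_inv_Q ρ Q y
  have hFx := hbF_inv_x ρ Q x y hx hxy
  have hF'Q := hbF'_inv_Q ρ Q y
  have hF'x := hbF'_inv_x ρ Q x y hx hxy
  have hxF : x ∈ hbStab ρ (hbF ρ Q y) := hb_mem_stab ρ _ x hFx
  have hyF : y ∈ hbStab ρ (hbF ρ Q y) := (Subgroup.zpowers_le.2 hxF) hy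
  have hc : ∀ g ∈ Q, g * y * g⁻¹ * y⁻¹ ∈ Q := fun g hg => by
    have h1 : y * g⁻¹ * y⁻¹ ∈ Q := hb_normalizer_conj hyN (Q.inv_mem hg)
    have h2 := Q.mul_mem hg h1
    simpa [mul_assoc] using h2
  have hid : ∀ g : G, ∀ w : V, ρ (g * y * g⁻¹ * y⁻¹) w - w =
      -(ρ y (ρ g (ρ g⁻¹ (ρ y⁻¹ w))) - ρ g (ρ y (ρ g⁻¹ (ρ y⁻¹ w)))) := by
    intro g w
    rw [hb_rho_apply_inv ρ g, hb_rho_apply_inv ρ y, hb_mul_apply, hb_mul_apply, hb_mul_apply]
    abel
  have hkill : ∀ g ∈ Q, ∀ w ∈ hbF ρ Q y, ρ (g * y * g⁻¹ * y⁻¹) w = w := by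
    intro g hg w hw
    have hw' : ρ g⁻¹ (ρ y⁻¹ w) ∈ hbF ρ Q y :=
      hFQ _ (Q.inv_mem hg) _ (hb_stab_apply_inv ρ _ hyF hw)
    have h1 := hid g w
    rw [hw' g hg, sub_self, neg_zero] at h1
    exact sub_eq_zero.1 h1
  have hrange : ∀ g ∈ Q, ∀ w : V, ρ (g * y * g⁻¹ * y⁻¹) w - w ∈ hbF' ρ Q y := by
    intro g hg w
    rw [hid g w]
    exact Submodule.neg_mem _ (Submodule.subset_span ⟨g, hg, _, rfl⟩)
  have hnot : ¬ (∀ g ∈ Q, ∀ w ∈ hbF' ρ Q y, ρ y (ρ g w) = ρ g (ρ y w)) := by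
    intro hle
    obtain ⟨g, hg, hne⟩ := h3
    set c := g * y * g⁻¹ * y⁻¹ with hcdef
    have hcQ : c ∈ Q := hc g hg
    have hsq : ∀ w : V, ρ c (ρ c w - w) = ρ c w - w := fun w =>
      hkill g hg _ (fun g' hg' => hle g' hg' _ (hrange g hg w))
    have hpow : ∀ m : ℕ, ∀ w : V, ρ (c ^ m) w = w + (m : K) • (ρ c w - w) := by
      intro m
      induction m with
      | zero => intro w; simp
      | succ m ih =>
        intro w
        have h1 : ρ c (ρ c w) - ρ c w = ρ c w - w := by rw [← map_sub]; exact hsq w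
        rw [pow_succ, hb_mul_apply, ih (ρ c w), h1]
        push_cast
        module
    obtain ⟨k, hk⟩ := hQ ⟨c, hcQ⟩
    have hck : c ^ q ^ k = 1 := by
      have := congrArg (fun z : Q => (z : G)) hk
      simpa using this
    have hq : ((q ^ k : ℕ) : K) ≠ 0 := by
      push_cast
      apply pow_ne_zero
      intro h
      have := (CharP.cast_eq_zero_iff K p q).1 h
      exact hpq ((Nat.prime_dvd_prime_iff_eq (Fact.out : p.Prime) (Fact.out : q.Prime)).1 this)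
    have hc1 : ∀ w, ρ c w = w := by
      intro w
      have h1 := hpow (q ^ k) w
      rw [hck, map_one, Module.End.one_apply] at h1
      have h2 : ((q ^ k : ℕ) : K) • (ρ c w - w) = 0 := by
        have := h1.symm
        simpa using this
      exact sub_eq_zero.1 ((smul_eq_zero.1 h2).resolve_left hq)
    apply hne
    ext v
    have e : g * y = c * (y * g) := by rw [hcdef]; group
    calc (ρ y * ρ g) v = ρ (y * g) v := by rw [map_mul]
      _ = ρ c (ρ (y * g) v) := (hc1 _).symm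
      _ = ρ (g * y) v := by rw [← hb_mul_apply, ← e]
      _ = (ρ g * ρ y) v := by rw [map_mul]
  have hF'top : hbF' ρ Q y = ⊤ := by
    by_contra h
    exact hnot (hM2 _ h hF'Q hF'x)
  have hFbot : ∀ v ∈ hbF ρ Q y, v = 0 := by
    classical
    let D : Subgroup G := Subgroup.closure {c | ∃ g ∈ Q, c = g * y * g⁻¹ * y⁻¹}
    have hDQ : D ≤ Q := (Subgroup.closure_le _).2 (by rintro c ⟨g, hg, rfl⟩; exact hc g hg)
    letI : Fintype D := Fintype.ofFinite D
    let e : Module.End K V := ∑ d : D, ρ (d : G)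
    have he : ∀ c ∈ D, e * ρ c = e := by
      intro c hcD
      show (∑ d : D, ρ (d : G)) * ρ c = ∑ d : D, ρ (d : G)
      rw [Finset.sum_mul]
      exact Fintype.sum_equiv (Equiv.mulRight (⟨c, hcD⟩ : D)) _ _ (fun d => by simp [map_mul])
    have hfix : ∀ d ∈ D, ∀ v ∈ hbF ρ Q y, ρ d v = v := by
      let Fix : Subgroup G :=
        { carrier := {d | ∀ v ∈ hbF ρ Q y, ρ d v = v}
          mul_mem' := by
            intro a b ha hb v hv
            rw [hb_mul_apply, hb v hv, ha v hv]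
          one_mem' := by
            intro v _
            simp
          inv_mem' := by
            intro a ha v hv
            have := hb_rho_inv_apply ρ a v
            rw [ha v hv] at this
            exact this }
      have hle : D ≤ Fix := (Subgroup.closure_le _).2
        (by rintro c ⟨g, hg, rfl⟩; exact fun v hv => hkill g hg v hv)
      exact fun d hd => hle hd
    have hk : ∀ w ∈ hbF' ρ Q y, e w = 0 := by
      intro w hw
      induction hw using Submodule.span_induction with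
      | mem w hw =>
        obtain ⟨g, hg, v, rfl⟩ := hw
        have h1 := hid g (ρ y (ρ g v))
        rw [hb_rho_inv_apply ρ y, hb_rho_inv_apply ρ g] at h1
        have h2 : ρ y (ρ g v) - ρ g (ρ y v) =
            -(ρ (g * y * g⁻¹ * y⁻¹) (ρ y (ρ g v)) - ρ y (ρ g v)) := by rw [h1, neg_neg]
        rw [h2, map_neg, map_sub, ← Module.End.mul_apply,
          he _ (Subgroup.subset_closure ⟨g, hg, rfl⟩), sub_self, neg_zero]
      | zero => simp
      | add a b _ _ ha hb => rw [map_add, ha, hb, add_zero]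
      | smul c a _ ha => rw [map_smul, ha, smul_zero]
    have hezero : e = 0 := by
      ext w
      exact hk w (hF'top ▸ Submodule.mem_top)
    intro v hv
    have h1 : e v = (Nat.card D : K) • v := by
      show (∑ d : D, ρ (d : G)) v = _
      rw [LinearMap.sum_apply, Finset.sum_congr rfl (fun (d : D) _ => hfix (d : G) d.2 v hv)]
      simp [Nat.card_eq_fintype_card, Nat.cast_smul_eq_nsmul]
    rw [hezero] at h1
    have hD0 : (Nat.card D : K) ≠ 0 := hb_card_ne_zero p q hpq D (hQ.to_le hDQ)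
    exact (smul_eq_zero.1 h1.symm).resolve_left hD0
  refine ⟨fun U hUQ hUx => ?_, fun v hv => hFbot v hv⟩
  by_cases hU : U = ⊤
  · exact Or.inr hU
  · left
    rw [eq_bot_iff]
    intro v hv
    have hvF : v ∈ hbF ρ Q y := fun g hg => hM2 U hU hUQ hUx g hg v hv
    rw [hFbot v hvF]
    exact Submodule.zero_mem _

end Irr

end Cfsg.Agent.Lib.Helper17
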