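import Mathlib
import Cfsg.Agent.Lib.Helper17.HHa

/-! Hall–Higman critical case, part B: Fourier inversion for an irreducible representation
and the decomposition of the centralizer of `ρ x`. -/

set_option autoImplicit false

namespace Cfsg.Agent.Lib.Helper17

open Module

universe u v w

section Orbit

/-- sum over a free, stable set of a conjugation-equivariant function is a norm -/
theorem hh_orbit_sum {G : Type u} [Group G] {E : Type v} [Ring E] (x : G) (n : ℕ) (hn : 0 < n)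
    (hxn : x ^ n = 1) (a w : E) (f : G → E) (hf : ∀ g, f (x * g * x⁻¹) = a * f g * w) :
    ∀ (m : ℕ) (W : Finset G), W.card = m → (∀ g ∈ W, x * g * x⁻¹ ∈ W) →
      (∀ g ∈ W, ∀ i : ℕ, x ^ i * g * (x ^ i)⁻¹ = g → n ∣ i) →
      ∃ T' : E, ∑ g ∈ W, f g = ∑ i ∈ Finset.range n, a ^ i * T' * w ^ i := by
  classical
  intro m
  induction m using Nat.strong_induction_on with
  | _ m ih =>
  intro W hm hstab hfree
  rcases W.eq_empty_or_nonempty with rfl | ⟨g, hg⟩
  · exact ⟨0, by simp⟩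
  -- the orbit of `g`
  have hfpow : ∀ i : ℕ, f (x ^ i * g * (x ^ i)⁻¹) = a ^ i * f g * w ^ i := by
    intro i
    induction i with
    | zero => simp
    | succ i ihi =>
      have : x ^ (i + 1) * g * (x ^ (i + 1))⁻¹ = x * (x ^ i * g * (x ^ i)⁻¹) * x⁻¹ := by
        rw [pow_succ']; group
      rw [this, hf, ihi, pow_succ', pow_succ]
      noncomm_ring
  have hmemW : ∀ i : ℕ, x ^ i * g * (x ^ i)⁻¹ ∈ W := by
    intro i
    induction i with
    | zero => simpa using hg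
    | succ i ihi =>
      have : x ^ (i + 1) * g * (x ^ (i + 1))⁻¹ = x * (x ^ i * g * (x ^ i)⁻¹) * x⁻¹ := by
        rw [pow_succ']; group
      rw [this]; exact hstab _ ihi
  set O : Finset G := Finset.image (fun i : ℕ => x ^ i * g * (x ^ i)⁻¹) (Finset.range n) with hO
  have hOmem : ∀ h, h ∈ O ↔ ∃ i : ℕ, h = x ^ i * g * (x ^ i)⁻¹ := by
    intro h
    rw [hO, Finset.mem_image]
    constructor
    · rintro ⟨i, -, rfl⟩; exact ⟨i, rfl⟩
    · rintro ⟨i, rfl⟩
      exact ⟨i % n, Finset.mem_range.2 (Nat.mod_lt _ hn), by rw [← pow_eq_pow_mod i hxn]⟩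
  have hOW : O ⊆ W := by
    intro h hh
    obtain ⟨i, rfl⟩ := (hOmem h).1 hh
    exact hmemW i
  have hinj : Set.InjOn (fun i : ℕ => x ^ i * g * (x ^ i)⁻¹) (Finset.range n : Set ℕ) := by
    have key : ∀ i j : ℕ, i ≤ j → j < n → x ^ i * g * (x ^ i)⁻¹ = x ^ j * g * (x ^ j)⁻¹ → i = j := by
      intro i j hij hj h
      have h1 : x ^ (j - i) * g * (x ^ (j - i))⁻¹ = g := by
        have : x ^ j = x ^ i * x ^ (j - i) := by rw [← pow_add]; congr 1; omega
        rw [this] at h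
        have h2 : g = x ^ (j - i) * g * (x ^ (j - i))⁻¹ := by
          have := congrArg (fun t => (x ^ i)⁻¹ * t * x ^ i) h
          simp only [mul_inv_rev] at this
          have e1 : (x ^ i)⁻¹ * (x ^ i * g * (x ^ i)⁻¹) * x ^ i = g := by group
          have e2 : (x ^ i)⁻¹ * (x ^ i * x ^ (j - i) * g * ((x ^ (j - i))⁻¹ * (x ^ i)⁻¹)) * x ^ i
              = x ^ (j - i) * g * (x ^ (j - i))⁻¹ := by group
          rw [e1, e2] at this
          exact this
        exact h2.symm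
      have h3 := hfree g hg (j - i) h1
      have h4 : j - i < n := by omega
      have h5 : j - i = 0 := Nat.eq_zero_of_dvd_of_lt h3 h4
      omega
    intro i hi j hj h
    rw [Finset.coe_range, Set.mem_Iio] at hi hj
    rcases le_total i j with hij | hij
    · exact key i j hij hj h
    · exact (key j i hij hi h.symm).symm
  have hsumO : ∑ h ∈ O, f h = ∑ i ∈ Finset.range n, a ^ i * f g * w ^ i := by
    rw [hO, Finset.sum_image hinj]
    exact Finset.sum_congr rfl (fun i _ => hfpow i)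
  have hxinv : x ^ (n - 1) = x⁻¹ := by
    have : x ^ (n - 1) * x = 1 := by rw [← pow_succ, Nat.sub_add_cancel hn, hxn]
    exact eq_inv_of_mul_eq_one_left this
  have hstab' : ∀ h ∈ W \ O, x * h * x⁻¹ ∈ W \ O := by
    intro h hh
    rw [Finset.mem_sdiff] at hh ⊢
    refine ⟨hstab h hh.1, fun hc => hh.2 ?_⟩
    obtain ⟨i, hi⟩ := (hOmem _).1 hc
    refine (hOmem h).2 ⟨i + (n - 1), ?_⟩
    rw [pow_add, hxinv]
    have : h = x⁻¹ * (x * h * x⁻¹) * x := by group
    rw [this, hi]; group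
  have hfree' : ∀ h ∈ W \ O, ∀ i : ℕ, x ^ i * h * (x ^ i)⁻¹ = h → n ∣ i :=
    fun h hh => hfree h (Finset.mem_sdiff.1 hh).1
  have hgO : g ∈ O := (hOmem g).2 ⟨0, by simp⟩
  have hlt : (W \ O).card < m := by
    rw [← hm]
    exact Finset.card_lt_card (Finset.sdiff_ssubset hOW ⟨g, hgO⟩)
  obtain ⟨T'', hT''⟩ := ih _ hlt (W \ O) rfl hstab' hfree'
  refine ⟨T'' + f g, ?_⟩
  rw [← Finset.sum_sdiff hOW, hT'', hsumO, ← Finset.sum_add_distrib]
  exact Finset.sum_congr rfl (fun i _ => by noncomm_ring)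

end Orbit

section Fourier

variable {K : Type w} [Field K] [IsAlgClosed K] {V : Type v} [AddCommGroup V] [Module K V]
  [FiniteDimensional K V] [Nontrivial V] {G : Type u} [Group G] [Finite G]

/-- the elements of a subgroup as a finset -/
noncomputable def hhQs (Q : Subgroup G) : Finset G := (Set.toFinite (Q : Set G)).toFinset

theorem hh_mem_Qs (Q : Subgroup G) (g : G) : g ∈ hhQs Q ↔ g ∈ Q := by
  unfold hhQs; simp

theorem hh_card_Qs (Q : Subgroup G) : (hhQs Q).card = Nat.card Q := by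
  unfold hhQs
  rw [← Set.ncard_eq_toFinset_card (Q : Set G) (Set.toFinite _)]
  rfl

theorem hh_schurQ (ρ : G →* Module.End K V) (Q : Subgroup G)
    (hirr : ∀ W : Submodule K V, (∀ g ∈ Q, Submodule.map (ρ g) W ≤ W) → W = ⊥ ∨ W = ⊤)
    (T : Module.End K V) (hT : ∀ g ∈ Q, T * ρ g = ρ g * T) : ∃ κ : K, T = κ • 1 :=
  hh_schur {f | ∃ g ∈ Q, f = ρ g} (fun W hW => hirr W (fun g hg => hW _ ⟨g, hg, rfl⟩)) T
    (by rintro f ⟨g, hg, rfl⟩; exact hT g hg)

theorem hh_fourier_rank_one (ρ : G →* Module.End K V) (Q : Subgroup G)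
    (hirr : ∀ W : Submodule K V, (∀ g ∈ Q, Submodule.map (ρ g) W ≤ W) → W = ⊥ ∨ W = ⊤)
    (φ : Module.Dual K V) (v : V) :
    (Nat.card Q : K) • (dualTensorHom K V V (φ ⊗ₜ v)) = (finrank K V : K) •
      ∑ g ∈ hhQs Q, (LinearMap.trace K V (dualTensorHom K V V (φ ⊗ₜ v) * ρ g⁻¹)) • ρ g := by
  classical
  have htr : ∀ g : G, LinearMap.trace K V (dualTensorHom K V V (φ ⊗ₜ v) * ρ g⁻¹) = φ (ρ g⁻¹ v) := by
    intro g
    have : dualTensorHom K V V (φ ⊗ₜ v) * ρ g⁻¹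
        = dualTensorHom K V V ((φ.comp (ρ g⁻¹)) ⊗ₜ v) := by
      ext y
      simp [dualTensorHom_apply]
    rw [this, LinearMap.trace_eq_contract_apply, contractLeft_apply]
    rfl
  ext w
  simp only [LinearMap.smul_apply, dualTensorHom_apply, LinearMap.sum_apply, htr]
  set B : Module.End K V := dualTensorHom K V V (φ ⊗ₜ w) with hB
  set A : Module.End K V := ∑ g ∈ hhQs Q, ρ g * B * ρ g⁻¹ with hA
  have hAcomm : ∀ h ∈ Q, A * ρ h = ρ h * A := by
    intro h hh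
    rw [hA, Finset.sum_mul, Finset.mul_sum]
    refine Finset.sum_nbij' (fun g => h⁻¹ * g) (fun g => h * g) ?_ ?_ ?_ ?_ ?_
    · intro g hg
      rw [hh_mem_Qs] at hg ⊢
      exact Q.mul_mem (Q.inv_mem hh) hg
    · intro g hg
      rw [hh_mem_Qs] at hg ⊢
      exact Q.mul_mem hh hg
    · intro g _; group
    · intro g _; group
    · intro g _
      have e1 : ρ g⁻¹ * ρ h = ρ (h⁻¹ * g)⁻¹ := by rw [← map_mul]; congr 1; group
      have e2 : ρ h * ρ (h⁻¹ * g) = ρ g := by rw [← map_mul]; congr 1; group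
      rw [mul_assoc, e1, ← mul_assoc, ← mul_assoc, e2]
  obtain ⟨κ, hκ⟩ := hh_schurQ ρ Q hirr A hAcomm
  have hAv : A v = ∑ g ∈ hhQs Q, φ (ρ g⁻¹ v) • ρ g w := by
    rw [hA, LinearMap.sum_apply]
    refine Finset.sum_congr rfl (fun g _ => ?_)
    simp [hB, dualTensorHom_apply]
  have htrA : LinearMap.trace K V A = (Nat.card Q : K) * φ w := by
    rw [hA, map_sum]
    have : ∀ g ∈ hhQs Q, LinearMap.trace K V (ρ g * B * ρ g⁻¹) = φ w := by
      intro g _
      rw [mul_assoc, LinearMap.trace_mul_comm, mul_assoc, ← map_mul, inv_mul_cancel, map_one,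
        mul_one, hB, LinearMap.trace_eq_contract_apply, contractLeft_apply]
    rw [Finset.sum_congr rfl this, Finset.sum_const, hh_card_Qs, nsmul_eq_mul]
  have htrA' : LinearMap.trace K V A = κ * (finrank K V : K) := by
    rw [hκ, map_smul, LinearMap.trace_one, smul_eq_mul]
  rw [← hAv, hκ]
  simp only [LinearMap.smul_apply, Module.End.one_apply, smul_smul]
  congr 1
  rw [mul_comm (finrank K V : K), ← htrA', htrA]

theorem hh_fourier (ρ : G →* Module.End K V) (Q : Subgroup G)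
    (hirr : ∀ W : Submodule K V, (∀ g ∈ Q, Submodule.map (ρ g) W ≤ W) → W = ⊥ ∨ W = ⊤)
    (T : Module.End K V) :
    (Nat.card Q : K) • T = (finrank K V : K) •
      ∑ g ∈ hhQs Q, (LinearMap.trace K V (T * ρ g⁻¹)) • ρ g := by
  obtain ⟨z, rfl⟩ := (dualTensorHom_bijective (R := K) (M := V) (N := V)).2 T
  induction z using TensorProduct.induction_on with
  | zero => simp
  | tmul φ v => exact hh_fourier_rank_one ρ Q hirr φ v
  | add z₁ z₂ h₁ h₂ =>
    rw [map_add, smul_add, h₁, h₂, ← smul_add, ← Finset.sum_add_distrib]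
    congr 1
    refine Finset.sum_congr rfl (fun g _ => ?_)
    rw [add_mul, map_add, add_smul]

/-- the centralizer of `ρ x` consists of scalars plus norms -/
theorem hh_cent_decomp (ρ : G →* Module.End K V) (Q : Subgroup G) [hQn : Q.Normal]
    (hirr : ∀ W : Submodule K V, (∀ g ∈ Q, Submodule.map (ρ g) W ≤ W) → W = ⊥ ∨ W = ⊤)
    (hQK : (Nat.card Q : K) ≠ 0) (x : G) (n : ℕ) (hn : 0 < n) (hxn : x ^ n = 1)
    (hfix : ∀ g ∈ Q, x * g * x⁻¹ = g → ∃ κ : K, ρ g = κ • 1)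
    (hfree : ∀ g ∈ Q, x * g * x⁻¹ ≠ g → ∀ i : ℕ, x ^ i * g * (x ^ i)⁻¹ = g → n ∣ i)
    (T : Module.End K V) (hT : T * ρ x = ρ x * T) :
    ∃ (κ : K) (T' : Module.End K V),
      T = κ • 1 + ∑ i ∈ Finset.range n, ρ x ^ i * T' * ρ x⁻¹ ^ i := by
  classical
  set κ₀ : K := (finrank K V : K) / (Nat.card Q : K) with hκ₀
  set f : G → Module.End K V := fun g => (κ₀ * LinearMap.trace K V (T * ρ g⁻¹)) • ρ g with hf
  have hTsum : T = ∑ g ∈ hhQs Q, f g := by
    have h1 := hh_fourier ρ Q hirr T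
    have h2 : T = (Nat.card Q : K)⁻¹ • ((Nat.card Q : K) • T) := by
      rw [smul_smul, inv_mul_cancel₀ hQK, one_smul]
    rw [h2, h1, smul_smul, Finset.smul_sum]
    refine Finset.sum_congr rfl (fun g _ => ?_)
    simp only [hf]
    rw [smul_smul]
    congr 1
    rw [hκ₀]
    field_simp
  have hxx : ρ x⁻¹ * ρ x = 1 := by rw [← map_mul, inv_mul_cancel, map_one]
  have hfconj : ∀ g, f (x * g * x⁻¹) = ρ x * f g * ρ x⁻¹ := by
    intro g
    simp only [hf]
    have e1 : ρ (x * g * x⁻¹)⁻¹ = ρ x * ρ g⁻¹ * ρ x⁻¹ := by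
      rw [← map_mul, ← map_mul]; congr 1; group
    have e2 : LinearMap.trace K V (T * ρ (x * g * x⁻¹)⁻¹) = LinearMap.trace K V (T * ρ g⁻¹) := by
      have e3 : T * (ρ x * ρ g⁻¹ * ρ x⁻¹) = (ρ x * (T * ρ g⁻¹)) * ρ x⁻¹ := by
        rw [← mul_assoc, ← mul_assoc, hT]; simp only [mul_assoc]
      rw [e1, e3, LinearMap.trace_mul_comm, ← mul_assoc, hxx, one_mul]
    have e4 : ρ (x * g * x⁻¹) = ρ x * ρ g * ρ x⁻¹ := by rw [map_mul, map_mul]
    rw [e2, e4, mul_smul_comm, smul_mul_assoc]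
  rw [hTsum, ← Finset.sum_filter_add_sum_filter_not (hhQs Q) (fun g => x * g * x⁻¹ = g)]
  have h1 : ∃ κ : K, ∑ g ∈ (hhQs Q).filter (fun g => x * g * x⁻¹ = g), f g = κ • 1 := by
    apply Finset.sum_induction f (fun A => ∃ κ : K, A = κ • 1)
    · rintro A B ⟨κ, rfl⟩ ⟨κ', rfl⟩
      exact ⟨κ + κ', by rw [add_smul]⟩
    · exact ⟨0, by simp⟩
    · intro g hg
      rw [Finset.mem_filter, hh_mem_Qs] at hg
      obtain ⟨c, hc⟩ := hfix g hg.1 hg.2
      exact ⟨κ₀ * LinearMap.trace K V (T * ρ g⁻¹) * c, by simp only [hf]; rw [hc, smul_smul]⟩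
  obtain ⟨κ, hκ⟩ := h1
  have hstab : ∀ g ∈ (hhQs Q).filter (fun g => ¬ x * g * x⁻¹ = g),
      x * g * x⁻¹ ∈ (hhQs Q).filter (fun g => ¬ x * g * x⁻¹ = g) := by
    intro g hg
    rw [Finset.mem_filter, hh_mem_Qs] at hg ⊢
    refine ⟨hQn.conj_mem g hg.1 x, fun h => hg.2 ?_⟩
    have h3 : x⁻¹ * (x * (x * g * x⁻¹) * x⁻¹) * x = x⁻¹ * (x * g * x⁻¹) * x := by rw [h]
    have e1 : x⁻¹ * (x * (x * g * x⁻¹) * x⁻¹) * x = x * g * x⁻¹ := by group
    have e2 : x⁻¹ * (x * g * x⁻¹) * x = g := by group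
    rw [e1, e2] at h3
    exact h3
  have hfr : ∀ g ∈ (hhQs Q).filter (fun g => ¬ x * g * x⁻¹ = g),
      ∀ i : ℕ, x ^ i * g * (x ^ i)⁻¹ = g → n ∣ i := by
    intro g hg i hi
    rw [Finset.mem_filter, hh_mem_Qs] at hg
    exact hfree g hg.1 hg.2 i hi
  obtain ⟨T', hT'⟩ := hh_orbit_sum x n hn hxn (ρ x) (ρ x⁻¹) f hfconj _
    ((hhQs Q).filter (fun g => ¬ x * g * x⁻¹ = g)) rfl hstab hfr
  exact ⟨κ, T', by rw [hκ, hT']⟩

end Fourier

end Cfsg.Agent.Lib.Helper17
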