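import Mathlib
import Cfsg.Agent.Lib.Helper17.HHb
import Cfsg.Agent.Lib.Helper17.HBCoreA

/-! Hall–Higman Theorem B, core, part B: the Clifford step with respect to the "centre" of `ρ Q`. -/

set_option autoImplicit false

namespace Cfsg.Agent.Lib.Helper17

open Module

universe u v w

section Cliff

variable {K : Type w} [Field K] [IsAlgClosed K] {G : Type u} [Group G] [Finite G]
  {V : Type v} [AddCommGroup V] [Module K V] [FiniteDimensional K V]

theorem hb_rho_mul_inv (ρ : G →* Module.End K V) (g : G) : ρ g * ρ g⁻¹ = 1 := by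
  rw [← map_mul, mul_inv_cancel, map_one]

theorem hb_rho_inv_mul (ρ : G →* Module.End K V) (g : G) : ρ g⁻¹ * ρ g = 1 := by
  rw [← map_mul, inv_mul_cancel, map_one]

/-- a commuting family indexed by a subgroup has a common eigenvector -/
theorem hb_common_eig [Nontrivial V] (ρ : G →* Module.End K V) (A : Subgroup G)
    (hcomm : ∀ a ∈ A, ∀ b ∈ A, ρ a * ρ b = ρ b * ρ a) :
    ∃ v : V, v ≠ 0 ∧ ∀ a ∈ A, ∃ μ : K, ρ a v = μ • v := by
  classical
  have key : ∀ s : Finset G, (∀ g ∈ s, g ∈ A) → ∃ W : Submodule K V, W ≠ ⊥ ∧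
      (∀ a ∈ A, ∀ w ∈ W, ρ a w ∈ W) ∧ ∀ g ∈ s, ∃ μ : K, ∀ w ∈ W, ρ g w = μ • w := by
    intro s
    induction s using Finset.induction_on with
    | empty => intro _; exact ⟨⊤, top_ne_bot, fun _ _ _ _ => Submodule.mem_top, by simp⟩
    | insert g s hgs ih =>
      intro hs
      obtain ⟨W, hW, hWA, hWs⟩ := ih (fun g' hg' => hs g' (Finset.mem_insert_of_mem hg'))
      have hgA : g ∈ A := hs g (Finset.mem_insert_self g s)
      haveI : Nontrivial W := Submodule.nontrivial_iff_ne_bot.2 hW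
      obtain ⟨μ, hμ⟩ := Module.End.exists_eigenvalue ((ρ g).restrict (hWA g hgA))
      obtain ⟨w, hw⟩ := hμ.exists_hasEigenvector
      refine ⟨W ⊓ Module.End.eigenspace (ρ g) μ, ?_, ?_, ?_⟩
      · intro h
        have hw1 : (w : V) ∈ W ⊓ Module.End.eigenspace (ρ g) μ := by
          refine Submodule.mem_inf.2 ⟨w.2, ?_⟩
          rw [Module.End.mem_eigenspace_iff]
          have := hw.apply_eq_smul
          exact congrArg Subtype.val this
        rw [h] at hw1
        exact hw.2 (Subtype.ext ((Submodule.mem_bot K).1 hw1))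
      · intro a ha v hv
        obtain ⟨hv1, hv2⟩ := Submodule.mem_inf.1 hv
        refine Submodule.mem_inf.2 ⟨hWA a ha v hv1, ?_⟩
        rw [Module.End.mem_eigenspace_iff] at hv2 ⊢
        have h1 : ρ g (ρ a v) = ρ a (ρ g v) :=
          congrArg (fun T : Module.End K V => T v) (hcomm g hgA a ha)
        rw [h1, hv2, map_smul]
      · intro g' hg'
        rcases Finset.mem_insert.1 hg' with rfl | hg'
        · exact ⟨μ, fun w hw => Module.End.mem_eigenspace_iff.1 (Submodule.mem_inf.1 hw).2⟩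
        · obtain ⟨μ', hμ'⟩ := hWs g' hg'
          exact ⟨μ', fun w hw => hμ' w (Submodule.mem_inf.1 hw).1⟩
  obtain ⟨W, hW, -, hWs⟩ := key (hhQs A) (fun g hg => (hh_mem_Qs A g).1 hg)
  obtain ⟨v, hv, hv0⟩ := (Submodule.ne_bot_iff W).1 hW
  refine ⟨v, hv0, fun a ha => ?_⟩
  obtain ⟨μ, hμ⟩ := hWs a ((hh_mem_Qs A a).2 ha)
  exact ⟨μ, hμ v hv⟩

/-- The Clifford step: either the conclusion holds (by induction on a weight space), or the
"centre" of `ρ Q` acts by scalars. -/
theorem hb_cliff [Nontrivial V] (p q : ℕ) [Fact p.Prime] [Fact q.Prime] (hpq : p ≠ q) [CharP K p]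
    (ρ : G →* Module.End K V) (Q : Subgroup G) (hQ : IsPGroup q Q) (x : G) (n : ℕ)
    (hx : x ∈ Subgroup.normalizer (Q : Set G)) (hn : 1 ≤ n) (hxn : ρ x ^ (p ^ n) = 1)
    (hirr : ∀ U : Submodule K V, (∀ g ∈ Q, ∀ v ∈ U, ρ g v ∈ U) → (∀ v ∈ U, ρ x v ∈ U) →
      U = ⊥ ∨ U = ⊤)
    (hF0 : ∀ v : V, (∀ g ∈ Q, ρ (x ^ p ^ (n - 1)) (ρ g v) = ρ g (ρ (x ^ p ^ (n - 1)) v)) → v = 0)
    (ih : ∀ (G' : Type u) [Group G'] [Finite G'] (V' : Type v) [AddCommGroup V'] [Module K V']
      [FiniteDimensional K V'] (ρ' : G' →* Module.End K V') (Q' : Subgroup G') (x' : G') (n' : ℕ),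
      Nat.card Q' + finrank K V' < Nat.card Q + finrank K V → IsPGroup q Q' →
      x' ∈ Subgroup.normalizer (Q' : Set G') → 1 ≤ n' → ρ' x' ^ (p ^ n') = 1 →
      (∃ g ∈ Q', ρ' (x' ^ p ^ (n' - 1)) * ρ' g ≠ ρ' g * ρ' (x' ^ p ^ (n' - 1))) →
      HBConcl p q ρ' Q' x' n') :
    HBConcl p q ρ Q x n ∨
      (∀ g ∈ Q, (∀ h ∈ Q, ρ g * ρ h = ρ h * ρ g) → ∃ μ : K, ρ g = μ • 1) := by
  classical
  have hp : p.Prime := Fact.out
  let A : Subgroup G :=
    { carrier := {g | g ∈ Q ∧ ∀ h ∈ Q, ρ g * ρ h = ρ h * ρ g}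
      mul_mem' := by
        rintro a b ⟨ha, ha'⟩ ⟨hb, hb'⟩
        refine ⟨Q.mul_mem ha hb, fun h hh => ?_⟩
        rw [map_mul, mul_assoc, hb' h hh, ← mul_assoc, ha' h hh, mul_assoc]
      one_mem' := ⟨Q.one_mem, fun h _ => by simp⟩
      inv_mem' := by
        rintro a ⟨ha, ha'⟩
        refine ⟨Q.inv_mem ha, fun h hh => ?_⟩
        calc ρ a⁻¹ * ρ h = ρ a⁻¹ * (ρ h * ρ a) * ρ a⁻¹ := by
              rw [mul_assoc, mul_assoc, hb_rho_mul_inv, mul_one]
          _ = ρ a⁻¹ * (ρ a * ρ h) * ρ a⁻¹ := by rw [ha' h hh]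
          _ = ρ h * ρ a⁻¹ := by rw [← mul_assoc, hb_rho_inv_mul, one_mul] }
  have hAQ : A ≤ Q := fun g hg => hg.1
  have hAcomm : ∀ a ∈ A, ∀ b ∈ A, ρ a * ρ b = ρ b * ρ a := fun a ha b hb => ha.2 b hb.1
  obtain ⟨v₀, hv₀, heig⟩ := hb_common_eig ρ A hAcomm
  choose! lam hlam using heig
  let W : Submodule K V :=
    { carrier := {w | ∀ a ∈ A, ρ a w = lam a • w}
      add_mem' := by
        intro a b ha hb c hc
        rw [map_add, ha c hc, hb c hc, smul_add]
      zero_mem' := by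
        intro c _
        simp
      smul_mem' := by
        intro c v hv a ha
        rw [map_smul, hv a ha, smul_comm] }
  have hv₀W : v₀ ∈ W := hlam
  have hWbot : W ≠ ⊥ := fun h => hv₀ ((Submodule.mem_bot K).1 (h ▸ hv₀W))
  have hWQ : ∀ g ∈ Q, ∀ w ∈ W, ρ g w ∈ W := by
    intro g hg w hw a ha
    have h1 : ρ a (ρ g w) = ρ g (ρ a w) := congrArg (fun T : Module.End K V => T w) (ha.2 g hg)
    rw [h1, hw a ha, map_smul]
  have hlam_mul : ∀ a ∈ A, ∀ b ∈ A, lam (a * b) = lam a * lam b := by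
    intro a ha b hb
    have h1 := hlam (a * b) (A.mul_mem ha hb)
    rw [hb_mul_apply, hlam b hb, map_smul, hlam a ha, smul_smul] at h1
    have h2 : (lam b * lam a - lam (a * b)) • v₀ = 0 := by rw [sub_smul, h1, sub_self]
    rcases smul_eq_zero.1 h2 with h3 | h3
    · rw [← sub_eq_zero.1 h3, mul_comm]
    · exact absurd h3 hv₀
  have hlam_ne : ∀ a ∈ A, lam a ≠ 0 := by
    intro a ha h0
    have h1 := hlam a ha
    rw [h0, zero_smul] at h1
    have h2 := hb_rho_inv_apply ρ a v₀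
    rw [h1, map_zero] at h2
    exact hv₀ h2.symm
  have hxi : ∀ i : ℕ, x ^ i ∈ Subgroup.normalizer (Q : Set G) := fun i => Subgroup.pow_mem _ hx i
  have hAconj : ∀ z : G, z ∈ Subgroup.normalizer (Q : Set G) → ∀ a ∈ A, z⁻¹ * a * z ∈ A := by
    intro z hz a ha
    refine ⟨hb_normalizer_conj' hz ha.1, fun h hh => ?_⟩
    have hh' : z * h * z⁻¹ ∈ Q := hb_normalizer_conj hz hh
    calc ρ (z⁻¹ * a * z) * ρ h = ρ (z⁻¹ * (a * (z * h * z⁻¹)) * z) := by
          rw [← map_mul]; congr 1; group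
      _ = ρ z⁻¹ * (ρ a * ρ (z * h * z⁻¹)) * ρ z := by simp only [map_mul]
      _ = ρ z⁻¹ * (ρ (z * h * z⁻¹) * ρ a) * ρ z := by rw [ha.2 _ hh']
      _ = ρ (z⁻¹ * ((z * h * z⁻¹) * a) * z) := by simp only [map_mul]
      _ = ρ h * ρ (z⁻¹ * a * z) := by rw [← map_mul]; congr 1; group
  have hshift : ∀ i : ℕ, ∀ a ∈ A, ∀ w ∈ W,
      ρ a (ρ (x ^ i) w) = lam ((x ^ i)⁻¹ * a * x ^ i) • ρ (x ^ i) w := by
    intro i a ha w hw
    rw [hb_conj_apply ρ (x ^ i) a w, hw _ (hAconj _ (hxi i) a ha), map_smul]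
  let I : Set ℕ := {i | ∀ w ∈ W, ρ (x ^ i) w ∈ W}
  have hI_of : ∀ i : ℕ, (∀ a ∈ A, lam ((x ^ i)⁻¹ * a * x ^ i) = lam a) → i ∈ I := by
    intro i h w hw a ha
    rw [hshift i a ha w hw, h a ha]
  have hIstab : ∀ i ∈ I, x ^ i ∈ hbStab ρ W := fun i hi => hb_mem_stab ρ W _ hi
  have hIadd : ∀ i ∈ I, ∀ j ∈ I, i + j ∈ I := by
    intro i hi j hj w hw
    rw [pow_add, hb_mul_apply]
    exact hi _ (hj w hw)
  have hIsub : ∀ i ∈ I, ∀ j : ℕ, i + j ∈ I → j ∈ I := by
    intro i hi j hij w hw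
    have h1 : ρ (x ^ j) w = ρ (x ^ i)⁻¹ (ρ (x ^ (i + j)) w) := by
      rw [pow_add, hb_mul_apply, hb_rho_inv_apply]
    rw [h1]
    exact hb_stab_apply_inv ρ W (hIstab i hi) (hij w hw)
  have hxpn : ρ (x ^ p ^ n) = 1 := by rw [map_pow]; exact hxn
  have hpnI : p ^ n ∈ I := by
    intro w hw
    rw [hxpn]
    exact hw
  have hpos : 0 < p ^ n := pow_pos hp.pos n
  have hex : ∃ t, 0 < t ∧ t ∈ I := ⟨p ^ n, hpos, hpnI⟩
  obtain ⟨t, ⟨ht0, htI⟩, htmin'⟩ : ∃ t, (0 < t ∧ t ∈ I) ∧ ∀ i, i < t → ¬ (0 < i ∧ i ∈ I) :=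
    ⟨Nat.find hex, Nat.find_spec hex, fun i hi => Nat.find_min hex hi⟩
  have htmin : ∀ i, 0 < i → i < t → i ∉ I := fun i hi hit h => htmin' i hit ⟨hi, h⟩
  have hmulI : ∀ k : ℕ, t * k ∈ I := by
    intro k
    induction k with
    | zero => intro w hw; simpa using hw
    | succ k ih => rw [Nat.mul_succ]; exact hIadd _ ih _ htI
  have htdvd : t ∣ p ^ n := by
    apply Nat.dvd_of_mod_eq_zero
    by_contra hr
    have hrI : p ^ n % t ∈ I :=
      hIsub _ (hmulI (p ^ n / t)) _ (by rw [Nat.div_add_mod]; exact hpnI)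
    exact htmin _ (Nat.pos_of_ne_zero hr) (Nat.mod_lt _ ht0) hrI
  obtain ⟨a, han, hta⟩ := (Nat.dvd_prime_pow hp).1 htdvd
  have hAcard : (Nat.card A : K) ≠ 0 := hb_card_ne_zero p q hpq A (hQ.to_le hAQ)
  letI : Fintype A := Fintype.ofFinite A
  have horb : ∀ w ∈ W, (∑ i ∈ Finset.range t, ρ (x ^ i) w) = 0 → w = 0 := by
    intro w hw hsum
    let e : Module.End K V := ∑ b : A, (lam (b : G))⁻¹ • ρ (b : G)
    have he0 : e w = (Nat.card A : K) • w := by
      show (∑ b : A, (lam (b : G))⁻¹ • ρ (b : G)) w = _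
      rw [LinearMap.sum_apply]
      have h1 : ∀ b : A, ((lam (b : G))⁻¹ • ρ (b : G)) w = w := by
        intro b
        rw [LinearMap.smul_apply, hw b b.2, smul_smul, inv_mul_cancel₀ (hlam_ne b b.2), one_smul]
      rw [Finset.sum_congr rfl (fun b _ => h1 b)]
      simp [Nat.card_eq_fintype_card, Nat.cast_smul_eq_nsmul]
    have hei : ∀ i, 0 < i → i < t → e (ρ (x ^ i) w) = 0 := by
      intro i hi hit
      show (∑ b : A, (lam (b : G))⁻¹ • ρ (b : G)) (ρ (x ^ i) w) = 0
      rw [LinearMap.sum_apply]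
      have h1 : ∀ b : A, ((lam (b : G))⁻¹ • ρ (b : G)) (ρ (x ^ i) w) =
          ((lam (b : G))⁻¹ * lam ((x ^ i)⁻¹ * b * x ^ i)) • ρ (x ^ i) w := by
        intro b
        rw [LinearMap.smul_apply, hshift i b b.2 w hw, smul_smul]
      rw [Finset.sum_congr rfl (fun b _ => h1 b), ← Finset.sum_smul]
      have hne : ∃ b ∈ A, lam ((x ^ i)⁻¹ * b * x ^ i) ≠ lam b := by
        by_contra hcon
        push Not at hcon
        exact htmin i hi hit (hI_of i hcon)
      obtain ⟨b₁, hb₁, hb₁ne⟩ := hne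
      have horth := hb_orth (K := K) (A := A)
        (fun b => (lam (b : G))⁻¹ * lam ((x ^ i)⁻¹ * b * x ^ i)) ?_ ⟨b₁, hb₁⟩ ?_
      · rw [horth, zero_smul]
      · intro b c
        show (lam ((b * c : A) : G))⁻¹ * lam ((x ^ i)⁻¹ * ((b * c : A) : G) * x ^ i) = _
        have e1 : (x ^ i)⁻¹ * ((b : G) * (c : G)) * x ^ i =
            ((x ^ i)⁻¹ * b * x ^ i) * ((x ^ i)⁻¹ * c * x ^ i) := by group
        rw [Subgroup.coe_mul, hlam_mul _ b.2 _ c.2, e1,
          hlam_mul _ (hAconj _ (hxi i) _ b.2) _ (hAconj _ (hxi i) _ c.2), mul_inv]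
        ring
      · show (lam b₁)⁻¹ * lam ((x ^ i)⁻¹ * b₁ * x ^ i) ≠ 1
        intro h
        apply hb₁ne
        have h0 := hlam_ne b₁ hb₁
        have h2 : lam b₁ * ((lam b₁)⁻¹ * lam ((x ^ i)⁻¹ * b₁ * x ^ i)) = lam b₁ * 1 := by rw [h]
        rw [← mul_assoc, mul_inv_cancel₀ h0, one_mul, mul_one] at h2
        exact h2
    have h2 : e (∑ i ∈ Finset.range t, ρ (x ^ i) w) = (Nat.card A : K) • w := by
      rw [map_sum, Finset.sum_eq_single 0]
      · simpa using he0
      · intro i hi hi0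
        exact hei i (Nat.pos_of_ne_zero hi0) (Finset.mem_range.1 hi)
      · intro h
        exact absurd (Finset.mem_range.2 ht0) h
    rw [hsum, map_zero] at h2
    exact (smul_eq_zero.1 h2.symm).resolve_left hAcard
  by_cases ht1 : t = 1
  · right
    have hWx : ∀ w ∈ W, ρ x w ∈ W := by
      intro w hw
      have := htI w hw
      rw [ht1, pow_one] at this
      exact this
    have hWtop : W = ⊤ := (hirr W hWQ hWx).resolve_left hWbot
    intro g hg hgc
    refine ⟨lam g, ?_⟩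
    ext v
    have hv : v ∈ W := hWtop ▸ Submodule.mem_top
    exact hv g ⟨hg, hgc⟩
  · left
    have ha1 : 1 ≤ a := by
      rcases Nat.eq_zero_or_pos a with h | h
      · rw [h, pow_zero] at hta
        exact absurd hta ht1
      · exact h
    have hgeom : ∑ i ∈ Finset.range t, (ρ x) ^ i = (ρ x - 1) ^ (t - 1) := by
      rw [hta]
      exact hh_geom_pow K p (ρ x) a
    have hsubpow : (ρ x - 1) ^ t = (ρ x) ^ t - 1 := by
      rw [hta]
      exact hh_sub_one_pow K p (ρ x) a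
    have hxtS : x ^ t ∈ hbStab ρ W := hIstab t htI
    have htrans : ∀ B : ℕ, 1 ≤ B → (hbRes ρ W ⟨x ^ t, hxtS⟩ - 1) ^ (B - 1) ≠ 0 →
        (ρ x - 1) ^ (t * B - 1) ≠ 0 := by
      intro B hB hne hzero
      apply hne
      ext w
      have h1 := hb_res_sub_one_pow ρ W ⟨x ^ t, hxtS⟩ (B - 1) w
      have hsplit : t * B - 1 = (t - 1) + t * (B - 1) := by
        have : t * B = t + t * (B - 1) := by
          obtain ⟨B', rfl⟩ : ∃ B', B = B' + 1 := ⟨B - 1, by omega⟩
          rw [Nat.add_sub_cancel]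
          ring
        have ht1' : 1 ≤ t := ht0
        omega
      have h2 : (ρ x - 1) ^ (t * B - 1) =
          (∑ i ∈ Finset.range t, (ρ x) ^ i) * ((ρ x) ^ t - 1) ^ (B - 1) := by
        rw [hsplit, pow_add, pow_mul, hsubpow, hgeom]
      have h3 : (∑ i ∈ Finset.range t,
          ρ (x ^ i) ((((hbRes ρ W ⟨x ^ t, hxtS⟩ - 1) ^ (B - 1)) w : W) : V)) = 0 := by
        have h4 := congrArg (fun T : Module.End K V => T (w : V)) hzero
        simp only [h2, Module.End.mul_apply, LinearMap.zero_apply, LinearMap.sum_apply] at h4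
        rw [h1]
        simp only [map_pow]
        exact h4
      have h5 := horb _ (((hbRes ρ W ⟨x ^ t, hxtS⟩ - 1) ^ (B - 1)) w).2 h3
      rw [LinearMap.zero_apply, Submodule.coe_zero]
      exact h5
    by_cases han' : a = n
    · left
      intro hzero
      have h1 : (∑ i ∈ Finset.range t, ρ (x ^ i) v₀) = 0 := by
        have h4 := congrArg (fun T : Module.End K V => T v₀) hzero
        rw [← han', ← hta, ← hgeom] at h4
        simp only [LinearMap.zero_apply, LinearMap.sum_apply] at h4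
        simp only [map_pow]
        exact h4
      exact hv₀ (horb v₀ hv₀W h1)
    · have han2 : a < n := lt_of_le_of_ne han han'
      have hQS : Q ≤ hbStab ρ W := fun g hg => ⟨hWQ g hg, hWQ _ (Q.inv_mem hg)⟩
      have hWtop : W ≠ ⊤ := by
        intro h
        apply ht1
        have h1I : 1 ∈ I := fun w _ => h ▸ Submodule.mem_top
        by_contra hne
        exact htmin 1 Nat.one_pos (lt_of_le_of_ne ht0 (Ne.symm hne)) h1I
      have hmeasure : Nat.card (Q.subgroupOf (hbStab ρ W)) + finrank K W <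
          Nat.card Q + finrank K V := by
        have h1 : Nat.card (Q.subgroupOf (hbStab ρ W)) ≤ Nat.card Q := by
          apply Nat.card_le_card_of_injective
            (fun g : Q.subgroupOf (hbStab ρ W) => (⟨((g : hbStab ρ W) : G), g.2⟩ : Q))
          intro g h hgh
          have := congrArg (fun z : Q => (z : G)) hgh
          exact Subtype.ext (Subtype.ext this)
        have h2 := Submodule.finrank_lt hWtop
        omega
      have hres := ih (hbStab ρ W) W (hbRes ρ W) (Q.subgroupOf (hbStab ρ W)) ⟨x ^ t, hxtS⟩ (n - a)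
        hmeasure (hQ.comap_subtype) ?_ (by omega) ?_ ?_
      · rcases hres with h | ⟨n₀, m, hn₀, hn₀', hm, hpm, hnab, hne⟩
        · left
          have := htrans (p ^ (n - a)) (Nat.one_le_pow _ _ hp.pos) h
          rwa [hta, ← pow_add, Nat.add_sub_cancel' han] at this
        · right
          refine ⟨n₀, m, hn₀, by omega, hm, hpm, ?_, ?_⟩
          · obtain ⟨g, hg, h, hh, hgh⟩ := hnab
            refine ⟨(g : G), hg, (h : G), hh, fun hcomm => hgh ?_⟩
            ext w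
            have := congrArg (fun T : Module.End K V => T (w : V)) hcomm
            exact this
          · have hB : 1 ≤ p ^ (n - a - n₀) * (p ^ n₀ - 1) := by
              have h1 : 1 ≤ p ^ (n - a - n₀) := Nat.one_le_pow _ _ hp.pos
              have h2 : 2 ≤ p ^ n₀ := by
                calc 2 ≤ p := hp.two_le
                  _ = p ^ 1 := (pow_one p).symm
                  _ ≤ p ^ n₀ := Nat.pow_le_pow_right hp.pos hn₀
              exact Nat.mul_pos (by omega) (by omega)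
            have := htrans _ hB hne
            have e : t * (p ^ (n - a - n₀) * (p ^ n₀ - 1)) = p ^ (n - n₀) * (p ^ n₀ - 1) := by
              rw [hta, ← mul_assoc, ← pow_add]
              congr 2
              omega
            rwa [e] at this
      · apply hb_mem_normalizer
        · intro g hg
          exact hb_normalizer_conj (hxi t) hg
        · intro g hg
          exact hb_normalizer_conj' (hxi t) hg
      · rw [← map_pow]
        ext w
        show ρ (((⟨x ^ t, hxtS⟩ : hbStab ρ W) ^ p ^ (n - a) : hbStab ρ W) : G) (w : V) = (w : V)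
        rw [Subgroup.coe_pow]
        show ρ ((x ^ t) ^ p ^ (n - a)) (w : V) = w
        rw [← pow_mul, hta, ← pow_add, Nat.add_sub_cancel' han, hxpn]
        rfl
      · obtain ⟨g, hg, hgne⟩ : ∃ g ∈ Q,
            ρ (x ^ p ^ (n - 1)) (ρ g v₀) ≠ ρ g (ρ (x ^ p ^ (n - 1)) v₀) := by
          by_contra hcon
          push Not at hcon
          exact hv₀ (hF0 v₀ hcon)
        refine ⟨⟨g, hQS hg⟩, hg, fun hcomm => hgne ?_⟩
        have h6 := congrArg (fun T : Module.End K W => ((T ⟨v₀, hv₀W⟩ : W) : V)) hcomm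
        have e : (((⟨x ^ t, hxtS⟩ : hbStab ρ W) ^ p ^ (n - a - 1) : hbStab ρ W) : G) =
            x ^ p ^ (n - 1) := by
          rw [Subgroup.coe_pow]
          show (x ^ t) ^ p ^ (n - a - 1) = _
          rw [← pow_mul, hta, ← pow_add]
          congr 2
          omega
        simp only [Module.End.mul_apply, hbRes_apply] at h6
        rw [e] at h6
        exact h6

end Cliff

end Cfsg.Agent.Lib.Helper17
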