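import Mathlib
import Cfsg.Agent.S4282
import Cfsg.Agent.Lib.Helper17.HBCoreB
import Cfsg.Agent.Lib.Helper57.HBStruct
import Cfsg.Agent.Lib.Helper97.HBQirr

/-! Hall–Higman Theorem B, core, part C: the minimal case (via the landed critical case S4282)
and the induction. -/

set_option autoImplicit false

namespace Cfsg.Agent.Lib.Helper17

open Module
open scoped commutatorElement

universe u v w

section Final

variable {K : Type w} [Field K] [IsAlgClosed K] {G : Type u} [Group G] [Finite G]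
  {V : Type v} [AddCommGroup V] [Module K V] [FiniteDimensional K V]

theorem hb_comm_le_self {G : Type*} [Group G] (Q : Subgroup G) : ⁅Q, Q⁆ ≤ Q := by
  rw [Subgroup.commutator_le]
  intro g₁ hg₁ g₂ hg₂
  rw [commutatorElement_def]
  exact Q.mul_mem (Q.mul_mem (Q.mul_mem hg₁ hg₂) (Q.inv_mem hg₁)) (Q.inv_mem hg₂)

theorem hb_comm_normalizer {G : Type*} [Group G] {Q : Subgroup G} {x : G}
    (hx : x ∈ Subgroup.normalizer (Q : Set G)) : x ∈ Subgroup.normalizer ((⁅Q, Q⁆ : Subgroup G) : Set G) := by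
  have key : ∀ z : G, z ∈ Subgroup.normalizer (Q : Set G) → ∀ c ∈ ⁅Q, Q⁆, z * c * z⁻¹ ∈ ⁅Q, Q⁆ := by
    intro z hz
    have hle : ⁅Q, Q⁆ ≤ (⁅Q, Q⁆ : Subgroup G).comap (MulAut.conj z).toMonoidHom := by
      rw [Subgroup.commutator_le]
      intro g₁ hg₁ g₂ hg₂
      rw [Subgroup.mem_comap, map_commutatorElement]
      exact Subgroup.commutator_mem_commutator (hb_normalizer_conj hz hg₁) (hb_normalizer_conj hz hg₂)
    intro c hc
    exact hle hc
  apply hb_mem_normalizer (key x hx)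
  intro c hc
  have := key x⁻¹ (Subgroup.inv_mem _ hx) c hc
  simpa using this

theorem hb_comm_ne_self (q : ℕ) [Fact q.Prime] (Q : Subgroup G) (hQ : IsPGroup q Q)
    (hnt : ∃ g ∈ Q, g ≠ 1) : ⁅Q, Q⁆ ≠ Q := by
  haveI : Nontrivial Q := (Subgroup.nontrivial_iff_exists_ne_one Q).2 hnt
  haveI : Group.IsNilpotent Q := hQ.isNilpotent
  have hlt : commutator Q < ⊤ := IsSolvable.commutator_lt_top_of_nontrivial Q
  intro h
  have h1 : (commutator Q).map Q.subtype = ⁅Q, Q⁆ := Subgroup.map_subtype_commutator Q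
  rw [h] at h1
  have h2 : commutator Q = ⊤ := by
    apply Subgroup.map_injective Q.subtype_injective
    rw [h1, ← MonoidHom.range_eq_map, Subgroup.range_subtype]
  exact hlt.ne h2

/-- the element of order `p` of a cyclic `p`-group lies in every nontrivial subgroup -/
theorem hb_cyclic_socle {H : Type*} [Group H] (p : ℕ) [Fact p.Prime] (x : H) (n : ℕ) (hn : 1 ≤ n)
    (hxn : x ^ p ^ n = 1) (z : H) (hz : z ∈ Subgroup.zpowers x) (hz1 : z ≠ 1) :
    x ^ p ^ (n - 1) ∈ Subgroup.zpowers z := by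
  have hp : p.Prime := Fact.out
  obtain ⟨k, rfl⟩ := Subgroup.mem_zpowers_iff.1 hz
  have hd := Int.gcd_eq_gcd_ab k ((p ^ n : ℕ) : ℤ)
  have hdd : Int.gcd k ((p ^ n : ℕ) : ℤ) ∣ p ^ n :=
    Int.natCast_dvd_natCast.1 (Int.gcd_dvd_right k ((p ^ n : ℕ) : ℤ))
  obtain ⟨j, hjn, hj⟩ := (Nat.dvd_prime_pow hp).1 hdd
  have hxd : x ^ p ^ j = (x ^ k) ^ (Int.gcdA k ((p ^ n : ℕ) : ℤ)) := by
    rw [← zpow_natCast x (p ^ j), ← hj, hd, zpow_add, zpow_mul, zpow_mul, zpow_natCast x (p ^ n),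
      hxn, one_zpow, mul_one]
  have hjn' : j < n := by
    rcases Nat.lt_or_ge j n with h | h
    · exact h
    · exfalso
      have hjn2 : j = n := le_antisymm hjn h
      apply hz1
      have h1 : ((p ^ n : ℕ) : ℤ) ∣ k := by
        have := Int.gcd_dvd_left k ((p ^ n : ℕ) : ℤ)
        rwa [hj, hjn2] at this
      obtain ⟨c, hc⟩ := h1
      rw [hc, zpow_mul, zpow_natCast, hxn, one_zpow]
  have e : x ^ p ^ (n - 1) = (x ^ p ^ j) ^ p ^ (n - 1 - j) := by
    rw [← pow_mul, ← pow_add]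
    congr 2
    omega
  rw [e, hxd]
  exact Subgroup.pow_mem _ (Subgroup.zpow_mem _ (Subgroup.mem_zpowers _) _) _

/-- The minimal case of the Hall–Higman core, via the landed critical case `S4282`. -/
theorem hb_final (p q : ℕ) [Fact p.Prime] [Fact q.Prime] (hpq : p ≠ q) [CharP K p]
    (ρ : G →* Module.End K V) (Q : Subgroup G) (hQ : IsPGroup q Q) (x : G) (n : ℕ)
    (hx : x ∈ Subgroup.normalizer (Q : Set G)) (hn : 1 ≤ n) (hxn : ρ x ^ (p ^ n) = 1)
    (h3 : ∃ g ∈ Q, ρ (x ^ p ^ (n - 1)) * ρ g ≠ ρ g * ρ (x ^ p ^ (n - 1)))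
    (hM1 : ∀ Q₁ : Subgroup G, Q₁ ≤ Q → Q₁ ≠ Q → x ∈ Subgroup.normalizer (Q₁ : Set G) →
      ∀ g ∈ Q₁, ρ (x ^ p ^ (n - 1)) * ρ g = ρ g * ρ (x ^ p ^ (n - 1)))
    (hirr : ∀ U : Submodule K V, (∀ g ∈ Q, ∀ v ∈ U, ρ g v ∈ U) → (∀ v ∈ U, ρ x v ∈ U) →
      U = ⊥ ∨ U = ⊤)
    (hsc : ∀ g ∈ Q, (∀ h ∈ Q, ρ g * ρ h = ρ h * ρ g) → ∃ μ : K, ρ g = μ • 1) :
    HBConcl p q ρ Q x n := by
  classical
  have hp : p.Prime := Fact.out
  haveI : Nontrivial V := by
    by_contra hV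
    rw [not_nontrivial_iff_subsingleton] at hV
    obtain ⟨g, hg, hne⟩ := h3
    exact hne (LinearMap.ext fun v => Subsingleton.elim _ _)
  -- the group `G₁ = Q ⊔ ⟨x⟩` and its faithful quotient
  let G₁ : Subgroup G := Q ⊔ Subgroup.zpowers x
  have hQG₁ : Q ≤ G₁ := le_sup_left
  have hxG₁ : x ∈ G₁ := (le_sup_right : Subgroup.zpowers x ≤ G₁) (Subgroup.mem_zpowers x)
  let ρ₁ : G₁ →* Module.End K V := ρ.comp G₁.subtype
  let N : Subgroup G₁ := ρ₁.ker
  let π : G₁ →* G₁ ⧸ N := QuotientGroup.mk' N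
  let ρ' : G₁ ⧸ N →* Module.End K V := QuotientGroup.lift N ρ₁ (fun g hg => hg)
  have hρ' : ∀ g : G₁, ρ' (π g) = ρ (g : G) := fun g => rfl
  have hπsurj : Function.Surjective π := QuotientGroup.mk'_surjective N
  have hinj : Function.Injective ρ' := by
    intro a b hab
    obtain ⟨g, rfl⟩ := hπsurj a
    obtain ⟨h, rfl⟩ := hπsurj b
    rw [hρ', hρ'] at hab
    apply QuotientGroup.eq.2
    show ρ ((g⁻¹ * h : G₁) : G) = 1
    rw [Subgroup.coe_mul, Subgroup.coe_inv, map_mul, ← hab, hb_rho_inv_mul]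
  let Q₁ : Subgroup G₁ := Q.subgroupOf G₁
  let Q' : Subgroup (G₁ ⧸ N) := Q₁.map π
  let x₁ : G₁ := ⟨x, hxG₁⟩
  let x' : G₁ ⧸ N := π x₁
  have hG₁N : G₁ ≤ Subgroup.normalizer (Q : Set G) :=
    sup_le Subgroup.le_normalizer (Subgroup.zpowers_le.2 hx)
  have hQ₁n : Q₁.Normal := (Subgroup.normal_subgroupOf_iff_le_normalizer hQG₁).2 hG₁N
  haveI hQ'n : Q'.Normal := Subgroup.Normal.map hQ₁n π hπsurj
  have hQ'p : IsPGroup q Q' := (hQ.comap_subtype (K := G₁)).map π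
  have hmemQ' : ∀ g : G, ∀ hg : g ∈ Q, π ⟨g, hQG₁ hg⟩ ∈ Q' := fun g hg =>
    Subgroup.mem_map_of_mem π (Subgroup.mem_subgroupOf.2 hg)
  have hx'pn : x' ^ p ^ n = 1 := by
    apply hinj
    rw [map_pow, hρ', map_one]
    exact hxn
  let y₁ : G₁ := x₁ ^ p ^ (n - 1)
  let y' : G₁ ⧸ N := π y₁
  have hy'x : y' = x' ^ p ^ (n - 1) := map_pow π x₁ _
  have hρy' : ρ' y' = ρ (x ^ p ^ (n - 1)) := by
    rw [hρ']
    rfl
  have hy'ne : x' ^ p ^ (n - 1) ≠ 1 := by
    intro h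
    obtain ⟨g, hg, hne⟩ := h3
    apply hne
    rw [← hρy', hy'x, h, map_one, one_mul, mul_one]
  have hord : orderOf x' = p ^ n := by
    have := orderOf_eq_prime_pow (p := p) (n := n - 1) hy'ne (by rw [Nat.sub_add_cancel hn]; exact hx'pn)
    rwa [Nat.sub_add_cancel hn] at this
  have hx'p : IsPGroup p (Subgroup.zpowers x') :=
    IsPGroup.of_card (n := n) (by rw [Nat.card_zpowers, hord])
  have hgen₁ : Q₁ ⊔ Subgroup.zpowers x₁ = ⊤ := by
    apply Subgroup.map_injective G₁.subtype_injective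
    rw [Subgroup.map_sup, Subgroup.map_subgroupOf_eq_of_le hQG₁, MonoidHom.map_zpowers,
      ← MonoidHom.range_eq_map, Subgroup.range_subtype]
    rfl
  have hgen : Q' ⊔ Subgroup.zpowers x' = ⊤ := by
    rw [← Subgroup.map_top_of_surjective π hπsurj, ← hgen₁, Subgroup.map_sup, MonoidHom.map_zpowers]
  have hdecomp : ∀ g' : G₁ ⧸ N, ∃ u ∈ Q', ∃ k : ℤ, g' = u * x' ^ k := by
    intro g'
    have hmem : g' ∈ ((Q' ⊔ Subgroup.zpowers x' : Subgroup (G₁ ⧸ N)) : Set (G₁ ⧸ N)) := by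
      rw [hgen]
      exact Subgroup.mem_top g'
    rw [Subgroup.normal_mul] at hmem
    obtain ⟨u, hu, z, hz, rfl⟩ := Set.mem_mul.1 hmem
    obtain ⟨k, rfl⟩ := Subgroup.mem_zpowers_iff.1 hz
    exact ⟨u, hu, k, rfl⟩
  -- the structure lemma in the quotient
  have hx'N : x' ∈ Subgroup.normalizer (Q' : Set (G₁ ⧸ N)) := by
    apply hb_mem_normalizer
    · intro g hg
      exact hQ'n.conj_mem g hg x'
    · intro g hg
      have := hQ'n.conj_mem g hg x'⁻¹
      rw [inv_inv] at this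
      exact this
  have hy'z : y' ∈ Subgroup.zpowers x' := by
    rw [hy'x]
    exact Subgroup.pow_mem _ (Subgroup.mem_zpowers x') _
  have hy'p : y' ^ p = 1 := by
    rw [hy'x, ← pow_mul, ← pow_succ, Nat.sub_add_cancel hn]
    exact hx'pn
  have hmin' : ∀ R : Subgroup (G₁ ⧸ N), R ≤ Q' → R ≠ Q' →
      x' ∈ Subgroup.normalizer (R : Set (G₁ ⧸ N)) → ∀ g ∈ R, y' * g = g * y' := by
    intro R hRQ hRne hxR g' hg'
    let R₀ : Subgroup G := ((R.comap π) ⊓ Q₁).map G₁.subtype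
    have hR₀mem : ∀ g : G, g ∈ R₀ ↔ ∃ hg : g ∈ G₁, π ⟨g, hg⟩ ∈ R ∧ g ∈ Q := by
      intro g
      constructor
      · rintro ⟨g₁, ⟨h1, h2⟩, rfl⟩
        exact ⟨g₁.2, h1, h2⟩
      · rintro ⟨hg, h1, h2⟩
        exact ⟨⟨g, hg⟩, ⟨h1, h2⟩, rfl⟩
    have hR₀Q : R₀ ≤ Q := by
      intro g hg
      obtain ⟨_, _, h2⟩ := (hR₀mem g).1 hg
      exact h2
    have hR₀ne : R₀ ≠ Q := by
      intro h
      apply hRne
      apply le_antisymm hRQ
      intro g'' hg''
      obtain ⟨g₁, hg₁, rfl⟩ := Subgroup.mem_map.1 hg''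
      have h1 : (g₁ : G) ∈ R₀ := by
        rw [h]
        exact Subgroup.mem_subgroupOf.1 hg₁
      obtain ⟨_, h2, _⟩ := (hR₀mem _).1 h1
      exact h2
    have hconj : ∀ z : G, ∀ hz : z ∈ G₁, z ∈ Subgroup.normalizer (Q : Set G) →
        π ⟨z, hz⟩ ∈ Subgroup.normalizer (R : Set (G₁ ⧸ N)) → ∀ g ∈ R₀, z * g * z⁻¹ ∈ R₀ := by
      intro z hz hzQ hzR g hg
      obtain ⟨hgG, h1, h2⟩ := (hR₀mem g).1 hg
      refine (hR₀mem _).2 ⟨G₁.mul_mem (G₁.mul_mem hz hgG) (G₁.inv_mem hz), ?_,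
        hb_normalizer_conj hzQ h2⟩
      have e : π ⟨z * g * z⁻¹, G₁.mul_mem (G₁.mul_mem hz hgG) (G₁.inv_mem hz)⟩ =
          π ⟨z, hz⟩ * π ⟨g, hgG⟩ * (π ⟨z, hz⟩)⁻¹ := by
        rw [← map_inv, ← map_mul, ← map_mul]
        rfl
      rw [e]
      exact hb_normalizer_conj hzR h1
    have hxR₀ : x ∈ Subgroup.normalizer (R₀ : Set G) := by
      apply hb_mem_normalizer
      · exact hconj x hxG₁ hx hxR
      · intro g hg
        have hxinv : π ⟨x⁻¹, G₁.inv_mem hxG₁⟩ ∈ Subgroup.normalizer (R : Set (G₁ ⧸ N)) := by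
          have : π ⟨x⁻¹, G₁.inv_mem hxG₁⟩ = x'⁻¹ := by
            rw [← map_inv]
            rfl
          rw [this]
          exact Subgroup.inv_mem _ hxR
        have := hconj x⁻¹ (G₁.inv_mem hxG₁) (Subgroup.inv_mem _ hx) hxinv g hg
        simpa using this
    have hcomm := hM1 R₀ hR₀Q hR₀ne hxR₀
    obtain ⟨g₁, hg₁, rfl⟩ := Subgroup.mem_map.1 (hRQ hg')
    have hg₁R₀ : (g₁ : G) ∈ R₀ := (hR₀mem _).2 ⟨g₁.2, hg', Subgroup.mem_subgroupOf.1 hg₁⟩
    apply hinj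
    rw [map_mul, map_mul, hρy', hρ' g₁]
    exact hcomm _ hg₁R₀
  have hnt' : ∃ g ∈ Q', y' * g ≠ g * y' := by
    obtain ⟨g, hg, hne⟩ := h3
    refine ⟨π ⟨g, hQG₁ hg⟩, hmemQ' g hg, fun h => hne ?_⟩
    have := congrArg ρ' h
    rwa [map_mul, map_mul, hρy', hρ'] at this
  have hstruct := Cfsg.Agent.Lib.Helper57.HBStruct.hb_struct p q hpq Q' hQ'p x' y' hx'N hy'z hy'p
    hmin' hnt'
  have hE1 : ∀ u ∈ Q, ρ (x ^ p ^ (n - 1)) * ρ u = ρ u * ρ (x ^ p ^ (n - 1)) →
      ∀ h ∈ Q, ρ u * ρ h = ρ h * ρ u := by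
    intro u hu hyu h hh
    have h1 : y' * π ⟨u, hQG₁ hu⟩ = π ⟨u, hQG₁ hu⟩ * y' := by
      apply hinj
      rw [map_mul, map_mul, hρy', hρ']
      exact hyu
    have h2 := hstruct _ (hmemQ' u hu) h1 _ (hmemQ' h hh)
    have h3' := congrArg ρ' h2
    rwa [map_mul, map_mul, hρ', hρ'] at h3'
  -- commutators are scalar
  have hQnt : ∃ g ∈ Q, g ≠ 1 := by
    obtain ⟨g, hg, hne⟩ := h3
    refine ⟨g, hg, fun h => hne ?_⟩
    rw [h, map_one, one_mul, mul_one]
  have hcs : ∀ g ∈ Q, ∀ h ∈ Q, ∃ μ : K, ρ g * ρ h = μ • (ρ h * ρ g) := by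
    intro g hg h hh
    have hc : ⁅g, h⁆ ∈ ⁅Q, Q⁆ := Subgroup.commutator_mem_commutator hg hh
    have hcQ : ⁅g, h⁆ ∈ Q := hb_comm_le_self Q hc
    have h1 := hM1 ⁅Q, Q⁆ (hb_comm_le_self Q) (hb_comm_ne_self q Q hQ hQnt) (hb_comm_normalizer hx) _ hc
    obtain ⟨μ, hμ⟩ := hsc _ hcQ (hE1 _ hcQ h1)
    refine ⟨μ, ?_⟩
    have e : g * h = ⁅g, h⁆ * (h * g) := by
      rw [commutatorElement_def]
      group
    rw [← map_mul, e, map_mul, hμ, map_mul, smul_mul_assoc, one_mul]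
  have hqirr := Cfsg.Agent.Lib.Helper97.HBQirr.hb_qirr ρ Q (hb_card_ne_zero p q hpq Q hQ) x hx hcs
    hsc hirr
  have hirr' : ∀ W : Submodule K V, (∀ g ∈ Q', Submodule.map (ρ' g) W ≤ W) → W = ⊥ ∨ W = ⊤ := by
    intro W hW
    apply hqirr W
    intro g hg v hv
    exact hW _ (hmemQ' g hg) (Submodule.mem_map_of_mem hv)
  -- the centralizer condition
  have hC : ∀ z ∈ Subgroup.zpowers x', z ≠ 1 →
      Subgroup.centralizer ({z} : Set (G₁ ⧸ N)) = Subgroup.zpowers x' ⊔ Subgroup.center (G₁ ⧸ N) := by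
    intro z hz hz1
    apply le_antisymm
    · intro g' hg'
      have hgz : g' * z = z * g' := Subgroup.mem_centralizer_singleton_iff.1 hg'
      have hy'zz : y' ∈ Subgroup.zpowers z := by
        rw [hy'x]
        exact hb_cyclic_socle p x' n hn hx'pn z hz hz1
      have hgy : g' * y' = y' * g' := by
        obtain ⟨k, hk⟩ := Subgroup.mem_zpowers_iff.1 hy'zz
        rw [← hk]
        exact (Commute.zpow_right (show Commute g' z from hgz) k).eq
      obtain ⟨u, hu, k, rfl⟩ := hdecomp g'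
      have hxy : x' ^ k * y' = y' * x' ^ k := by
        rw [hy'x]
        exact ((Commute.refl x').zpow_left k).pow_right _ |>.eq
      have huy : y' * u = u * y' := by
        have h1 := hgy
        rw [mul_assoc, hxy, ← mul_assoc, ← mul_assoc] at h1
        exact (mul_right_cancel h1).symm
      have hucenter : u ∈ Subgroup.center (G₁ ⧸ N) := by
        obtain ⟨u₁, hu₁, rfl⟩ := Subgroup.mem_map.1 hu
        have huQ : (u₁ : G) ∈ Q := Subgroup.mem_subgroupOf.1 hu₁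
        have h1 : ρ (x ^ p ^ (n - 1)) * ρ (u₁ : G) = ρ (u₁ : G) * ρ (x ^ p ^ (n - 1)) := by
          have := congrArg ρ' huy
          rwa [map_mul, map_mul, hρy', hρ'] at this
        obtain ⟨μ, hμ⟩ := hsc _ huQ (hE1 _ huQ h1)
        rw [Subgroup.mem_center_iff]
        intro g''
        apply hinj
        rw [map_mul, map_mul, hρ', hμ, smul_mul_assoc, mul_smul_comm, one_mul, mul_one]
      rw [sup_comm]
      exact Subgroup.mul_mem_sup hucenter (Subgroup.zpow_mem _ (Subgroup.mem_zpowers x') k)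
    · apply sup_le
      · rw [Subgroup.zpowers_le, Subgroup.mem_centralizer_singleton_iff]
        obtain ⟨k, rfl⟩ := Subgroup.mem_zpowers_iff.1 hz
        exact ((Commute.refl x').zpow_right k).eq
      · exact Subgroup.center_le_centralizer _
  -- the nilpotency index
  have hnil : (ρ x - 1) ^ (p ^ n) = 0 := by
    rw [hh_sub_one_pow K p (ρ x) n, hxn, sub_self]
  have hex : ∃ s, (ρ x - 1) ^ s = 0 := ⟨p ^ n, hnil⟩
  obtain ⟨s, hs, hsmin⟩ : ∃ s, (ρ x - 1) ^ s = 0 ∧ ∀ k < s, (ρ x - 1) ^ k ≠ 0 :=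
    ⟨Nat.find hex, Nat.find_spec hex, fun k hk => Nat.find_min hex hk⟩
  have key := Cfsg.Agent.S4282.result p q hpq Q' hQ'p x' hx'p hgen hC ρ' hinj hirr' s hs hsmin
  rw [Nat.card_zpowers, hord] at key
  obtain ⟨k1, k2, k3⟩ := key
  have hpn2 : 2 ≤ p ^ n := by
    calc 2 ≤ p := hp.two_le
      _ = p ^ 1 := (pow_one p).symm
      _ ≤ p ^ n := Nat.pow_le_pow_right hp.pos hn
  by_cases hsn : s = p ^ n
  · left
    exact hsmin _ (by omega)
  · right
    have hs' : s = p ^ n - 1 := by omega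
    obtain ⟨⟨b, hb⟩, hnab⟩ := k3 hs'
    refine ⟨n, b, hn, le_refl n, ?_, hb, ?_, ?_⟩
    · by_contra hb0
      have hb0' : b = 0 := by omega
      rw [hb0', pow_zero] at hb
      have hs1 : s = 1 := by omega
      rw [hs1, pow_one] at hs
      have hρx : ρ x = 1 := sub_eq_zero.1 hs
      obtain ⟨g, hg, hne⟩ := h3
      apply hne
      rw [map_pow, hρx, one_pow, one_mul, mul_one]
    · by_contra hcon
      push Not at hcon
      apply hnab
      refine ⟨⟨fun a b => Subtype.ext ?_⟩⟩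
      obtain ⟨a₁, ha₁, ha⟩ := Subgroup.mem_map.1 a.2
      obtain ⟨b₁, hb₁, hb'⟩ := Subgroup.mem_map.1 b.2
      show (a : G₁ ⧸ N) * (b : G₁ ⧸ N) = (b : G₁ ⧸ N) * (a : G₁ ⧸ N)
      rw [← ha, ← hb']
      apply hinj
      rw [map_mul, map_mul, hρ', hρ']
      exact hcon _ (Subgroup.mem_subgroupOf.1 ha₁) _ (Subgroup.mem_subgroupOf.1 hb₁)
    · rw [Nat.sub_self, pow_zero, one_mul]
      exact hsmin _ (by omega)

end Final

section Core

variable (K : Type w) [Field K] [IsAlgClosed K]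

/-- **The Hall–Higman core theorem.** -/
theorem hb_core (p q : ℕ) [Fact p.Prime] [Fact q.Prime] (hpq : p ≠ q) [CharP K p] :
    HBCore.{u, v, w} K p q := by
  have hp : p.Prime := Fact.out
  have main : ∀ (N : ℕ) (G : Type u) [Group G] [Finite G] (V : Type v) [AddCommGroup V]
      [Module K V] [FiniteDimensional K V] (ρ : G →* Module.End K V) (Q : Subgroup G) (x : G)
      (n : ℕ), Nat.card Q + finrank K V = N → IsPGroup q Q →
      x ∈ Subgroup.normalizer (Q : Set G) → 1 ≤ n → ρ x ^ (p ^ n) = 1 →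
      (∃ g ∈ Q, ρ (x ^ p ^ (n - 1)) * ρ g ≠ ρ g * ρ (x ^ p ^ (n - 1))) → HBConcl p q ρ Q x n := by
    intro N
    induction N using Nat.strong_induction_on with
    | _ N IH =>
    intro G _ _ V _ _ _ ρ Q x n hN hQ hx hn hxn h3
    have ih : ∀ (G' : Type u) [Group G'] [Finite G'] (V' : Type v) [AddCommGroup V']
        [Module K V'] [FiniteDimensional K V'] (ρ' : G' →* Module.End K V') (Q' : Subgroup G')
        (x' : G') (n' : ℕ), Nat.card Q' + finrank K V' < Nat.card Q + finrank K V →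
        IsPGroup q Q' → x' ∈ Subgroup.normalizer (Q' : Set G') → 1 ≤ n' → ρ' x' ^ (p ^ n') = 1 →
        (∃ g ∈ Q', ρ' (x' ^ p ^ (n' - 1)) * ρ' g ≠ ρ' g * ρ' (x' ^ p ^ (n' - 1))) →
        HBConcl p q ρ' Q' x' n' := by
      intro G' _ _ V' _ _ _ ρ' Q' x' n' hlt
      exact IH _ (hN ▸ hlt) G' V' ρ' Q' x' n' rfl
    have hyz : x ^ p ^ (n - 1) ∈ Subgroup.zpowers x :=
      Subgroup.pow_mem _ (Subgroup.mem_zpowers x) _
    -- Step A: a smaller invariant subgroup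
    by_cases hA : ∃ Q₁ : Subgroup G, Q₁ ≤ Q ∧ Q₁ ≠ Q ∧ x ∈ Subgroup.normalizer (Q₁ : Set G) ∧
        ∃ g ∈ Q₁, ρ (x ^ p ^ (n - 1)) * ρ g ≠ ρ g * ρ (x ^ p ^ (n - 1))
    · obtain ⟨Q₁, hle, hne, hxQ₁, h3'⟩ := hA
      have hcard : Nat.card Q₁ < Nat.card Q := by
        by_contra hge
        push Not at hge
        exact hne (Subgroup.eq_of_le_of_card_ge hle hge)
      have hres := ih G V ρ Q₁ x n (by omega) (hQ.to_le hle) hxQ₁ hn hxn h3'
      rcases hres with h | ⟨n₀, m, h1, h2, h3'', h4, ⟨g, hg, h, hh, hgh⟩, h6⟩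
      · exact Or.inl h
      · exact Or.inr ⟨n₀, m, h1, h2, h3'', h4, ⟨g, hle hg, h, hle hh, hgh⟩, h6⟩
    -- Step B: a smaller invariant subspace
    by_cases hB : ∃ U : Submodule K V, U ≠ ⊤ ∧ (∀ g ∈ Q, ∀ v ∈ U, ρ g v ∈ U) ∧
        (∀ v ∈ U, ρ x v ∈ U) ∧
        ∃ g ∈ Q, ∃ v ∈ U, ρ (x ^ p ^ (n - 1)) (ρ g v) ≠ ρ g (ρ (x ^ p ^ (n - 1)) v)
    · obtain ⟨U, hU, hUQ, hUx, g, hg, v, hv, hne⟩ := hB
      have hQS : Q ≤ hbStab ρ U := fun g hg => ⟨hUQ g hg, hUQ _ (Q.inv_mem hg)⟩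
      have hxS : x ∈ hbStab ρ U := hb_mem_stab ρ U x hUx
      have hmeasure : Nat.card (Q.subgroupOf (hbStab ρ U)) + finrank K U <
          Nat.card Q + finrank K V := by
        have h1 : Nat.card (Q.subgroupOf (hbStab ρ U)) ≤ Nat.card Q := by
          apply Nat.card_le_card_of_injective
            (fun g : Q.subgroupOf (hbStab ρ U) => (⟨((g : hbStab ρ U) : G), g.2⟩ : Q))
          intro g h hgh
          have := congrArg (fun z : Q => (z : G)) hgh
          exact Subtype.ext (Subtype.ext this)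
        have h2 := Submodule.finrank_lt hU
        omega
      have hres := ih (hbStab ρ U) U (hbRes ρ U) (Q.subgroupOf (hbStab ρ U)) ⟨x, hxS⟩ n
        hmeasure (hQ.comap_subtype) ?_ hn ?_ ?_
      · rcases hres with h | ⟨n₀, m, h1, h2, h3', h4, ⟨g', hg', h', hh', hgh⟩, h6⟩
        · left
          intro hzero
          apply h
          ext u
          rw [hb_res_sub_one_pow]
          show ((ρ x - 1) ^ (p ^ n - 1)) (u : V) = _
          rw [hzero]
          simp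
        · right
          refine ⟨n₀, m, h1, h2, h3', h4, ⟨(g' : G), hg', (h' : G), hh', fun hcomm => hgh ?_⟩, ?_⟩
          · ext w
            have := congrArg (fun T : Module.End K V => T (w : V)) hcomm
            exact this
          · intro hzero
            apply h6
            ext u
            rw [hb_res_sub_one_pow]
            show ((ρ x - 1) ^ (p ^ (n - n₀) * (p ^ n₀ - 1) - 1)) (u : V) = _
            rw [hzero]
            simp
      · apply hb_mem_normalizer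
        · intro g hg
          exact hb_normalizer_conj hx hg
        · intro g hg
          exact hb_normalizer_conj' hx hg
      · rw [← map_pow]
        ext w
        show ρ (((⟨x, hxS⟩ : hbStab ρ U) ^ p ^ n : hbStab ρ U) : G) (w : V) = (w : V)
        rw [Subgroup.coe_pow]
        show ρ (x ^ p ^ n) (w : V) = w
        rw [map_pow, hxn]
        rfl
      · refine ⟨⟨g, hQS hg⟩, hg, fun hcomm => hne ?_⟩
        have h6 := congrArg (fun T : Module.End K U => ((T ⟨v, hv⟩ : U) : V)) hcomm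
        have e : (((⟨x, hxS⟩ : hbStab ρ U) ^ p ^ (n - 1) : hbStab ρ U) : G) = x ^ p ^ (n - 1) := by
          rw [Subgroup.coe_pow]
        simp only [Module.End.mul_apply, hbRes_apply] at h6
        rw [e] at h6
        exact h6
    -- the minimal situation
    push Not at hA hB
    obtain ⟨hirr, hF0⟩ := hb_irr p q hpq ρ Q hQ x (x ^ p ^ (n - 1)) hx hyz h3
      (fun U hU hUQ hUx g hg v hv => hB U hU hUQ hUx g hg v hv)
    haveI : Nontrivial V := by
      by_contra hV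
      rw [not_nontrivial_iff_subsingleton] at hV
      obtain ⟨g, hg, hne⟩ := h3
      exact hne (LinearMap.ext fun v => Subsingleton.elim _ _)
    rcases hb_cliff p q hpq ρ Q hQ x n hx hn hxn hirr hF0 ih with h | hsc
    · exact h
    · exact hb_final p q hpq ρ Q hQ x n hx hn hxn h3
        (fun Q₁ hle hne hxQ₁ g hg => hA Q₁ hle hne hxQ₁ g hg) hirr hsc
  intro G _ _ V _ _ _ ρ Q x n hQ hx hn hxn h3
  exact main _ G V ρ Q x n rfl hQ hx hn hxn h3

end Core

end Cfsg.Agent.Lib.Helper17
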