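import Mathlib

set_option autoImplicit false

open scoped commutatorElement

universe u v

namespace Cfsg.Agent.Lib.Helper17.J3MMOD3

theorem three_mod_add {M : Type u} [AddCommGroup M] (A : AddSubgroup M) (X Y φ : M →+ M)
    (hXY : ∀ b, X (Y b) = Y (X b))
    (hXA : ∀ b ∈ A, X b = b) (hYA : ∀ b ∈ A, Y b = b) (hφA : ∀ b ∈ A, φ b = b)
    (hX3 : ∀ b, X (X (X b)) = b) (hY3 : ∀ b, Y (Y (Y b)) = b)
    (hφX : ∀ b, φ (X b) = X (Y (Y (φ b)))) (hφY : ∀ b, φ (Y b) = X (Y (φ b)))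
    (a t₁ t₂ v₁₁ v₁₂ v₂₂ : M) (ht1 : t₁ = X a + -a) (ht2 : t₂ = Y a + -a)
    (hv11 : v₁₁ = X t₁ + -t₁) (hv12 : v₁₂ = X t₂ + -t₂) (hv22 : v₂₂ = Y t₂ + -t₂)
    (h11 : v₁₁ ∈ A) (h12 : v₁₂ ∈ A) (h22 : v₂₂ ∈ A) (h3a : (3 : ℕ) • a ∈ A)
    (hind : ∀ n₁ n₂ n₃ : ℤ, n₁ • a + n₂ • t₁ + n₃ • t₂ ∈ A →
      (3 : ℤ) ∣ n₁ ∧ (3 : ℤ) ∣ n₂ ∧ (3 : ℤ) ∣ n₃)
    (hφa : ∃ i j : ℤ, φ a + a + -(i • t₁) + -(j • t₂) ∈ A)
    (hφa' : ∃ m₁ m₂ m₃ l₁ l₂ l₃ : ℤ,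
      φ a = m₁ • a + m₂ • t₁ + m₃ • t₂ + l₁ • v₁₁ + l₂ • v₁₂ + l₃ • v₂₂) :
    (3 : ℕ) • v₁₁ = 0 ∧ ∀ g : M,
      (∃ n₁ n₂ n₃ l₁ l₂ l₃ : ℤ,
        g = n₁ • a + n₂ • t₁ + n₃ • t₂ + l₁ • v₁₁ + l₂ • v₁₂ + l₃ • v₂₂) → g ∈ A →
      (∃ n : ℕ, (3 ^ n : ℕ) • g = 0) → ∃ l : ℤ, l • v₁₁ = g := by
  have Xa : X a = a + t₁ := by rw [ht1]; abel
  have Ya : Y a = a + t₂ := by rw [ht2]; abel
  have Xt1 : X t₁ = t₁ + v₁₁ := by rw [hv11]; abel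
  have Xt2 : X t₂ = t₂ + v₁₂ := by rw [hv12]; abel
  have Yt2 : Y t₂ = t₂ + v₂₂ := by rw [hv22]; abel
  have Yt1 : Y t₁ = t₁ + v₁₂ := by
    have h := hXY a
    rw [Ya, Xa, map_add, map_add, Xa, Xt2, Ya] at h
    have h' : a + t₂ + Y t₁ = a + t₂ + (t₁ + v₁₂) := by rw [← h]; abel
    exact add_left_cancel h'
  have Xv11 := hXA _ h11
  have Xv12 := hXA _ h12
  have Xv22 := hXA _ h22
  have Yv11 := hYA _ h11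
  have Yv12 := hYA _ h12
  have Yv22 := hYA _ h22
  have φv11 := hφA _ h11
  have φv12 := hφA _ h12
  have φv22 := hφA _ h22
  have h3v11 : (3 : ℤ) • v₁₁ = 0 := by
    have key : X (X (X t₁)) = t₁ + (3 : ℤ) • v₁₁ := by
      simp only [Xt1, map_add, Xv11]; module
    rw [hX3] at key
    linear_combination (norm := module) -key
  have h3v12 : (3 : ℤ) • v₁₂ = 0 := by
    have key : X (X (X t₂)) = t₂ + (3 : ℤ) • v₁₂ := by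
      simp only [Xt2, map_add, Xv12]; module
    rw [hX3] at key
    linear_combination (norm := module) -key
  have h3v22 : (3 : ℤ) • v₂₂ = 0 := by
    have key : Y (Y (Y t₂)) = t₂ + (3 : ℤ) • v₂₂ := by
      simp only [Yt2, map_add, Yv22]; module
    rw [hY3] at key
    linear_combination (norm := module) -key
  have h3t1 : (3 : ℤ) • t₁ = 0 := by
    have key : X (X (X a)) = a + (3 : ℤ) • t₁ + (3 : ℤ) • v₁₁ := by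
      simp only [Xa, Xt1, map_add, Xv11]; module
    rw [hX3] at key
    linear_combination (norm := module) -key - h3v11
  have h3t2 : (3 : ℤ) • t₂ = 0 := by
    have key : Y (Y (Y a)) = a + (3 : ℤ) • t₂ + (3 : ℤ) • v₂₂ := by
      simp only [Ya, Yt2, map_add, Yv22]; module
    rw [hY3] at key
    linear_combination (norm := module) -key - h3v22
  obtain ⟨i, j, hij⟩ := hφa
  obtain ⟨m₁, m₂, m₃, l₁, l₂, l₃, hm⟩ := hφa'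
  have hwA : ∀ l₁ l₂ l₃ : ℤ, l₁ • v₁₁ + l₂ • v₁₂ + l₃ • v₂₂ ∈ A := fun l₁ l₂ l₃ =>
    A.add_mem (A.add_mem (A.zsmul_mem h11 _) (A.zsmul_mem h12 _)) (A.zsmul_mem h22 _)
  have hdiv : (3 : ℤ) ∣ m₁ + 1 ∧ (3 : ℤ) ∣ m₂ - i ∧ (3 : ℤ) ∣ m₃ - j := by
    apply hind
    have e : (m₁ + 1) • a + (m₂ - i) • t₁ + (m₃ - j) • t₂
        = (φ a + a + -(i • t₁) + -(j • t₂)) - (l₁ • v₁₁ + l₂ • v₁₂ + l₃ • v₂₂) := by
      rw [hm]; module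
    rw [e]; exact A.sub_mem hij (hwA _ _ _)
  obtain ⟨⟨k, hk⟩, -, -⟩ := hdiv
  obtain rfl : m₁ = 3 * k - 1 := by omega
  have φt1 : φ t₁ = (3 * k - 1) • (t₁ + (2 : ℤ) • t₂ + (2 : ℤ) • v₁₂ + v₂₂)
      + m₂ • (v₁₁ + (2 : ℤ) • v₁₂) + m₃ • (v₁₂ + (2 : ℤ) • v₂₂) := by
    have h := hφX a
    rw [Xa, map_add] at h
    have e : φ t₁ = X (Y (Y (φ a))) - φ a := by rw [← h]; abel
    rw [e, hm]
    simp only [map_add, map_zsmul, Xa, Ya, Xt1, Xt2, Yt1, Yt2, Xv11, Xv12, Xv22, Yv11, Yv12,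
      Yv22]
    module
  have φt2 : φ t₂ = (3 * k - 1) • (t₁ + t₂ + v₁₂)
      + m₂ • (v₁₁ + v₁₂) + m₃ • (v₁₂ + v₂₂) := by
    have h := hφY a
    rw [Ya, map_add] at h
    have e : φ t₂ = X (Y (φ a)) - φ a := by rw [← h]; abel
    rw [e, hm]
    simp only [map_add, map_zsmul, Xa, Ya, Xt1, Xt2, Yt1, Yt2, Xv11, Xv12, Xv22, Yv11, Yv12,
      Yv22]
    module
  have r1 : v₁₁ = (3 * k - 1) • (v₁₁ + (4 : ℤ) • v₁₂ + (4 : ℤ) • v₂₂) := by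
    have h := hφX t₁
    rw [Xt1, map_add, φv11, φt1] at h
    simp only [map_add, map_zsmul, Xa, Ya, Xt1, Xt2, Yt1, Yt2, Xv11, Xv12, Xv22, Yv11, Yv12,
      Yv22] at h
    linear_combination (norm := module) h
  have r2 : v₁₂ = (3 * k - 1) • (v₁₁ + (3 : ℤ) • v₁₂ + (2 : ℤ) • v₂₂) := by
    have h := hφX t₂
    rw [Xt2, map_add, φv12, φt2] at h
    simp only [map_add, map_zsmul, Xa, Ya, Xt1, Xt2, Yt1, Yt2, Xv11, Xv12, Xv22, Yv11, Yv12,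
      Yv22] at h
    linear_combination (norm := module) h
  have r3 : v₂₂ = (3 * k - 1) • (v₁₁ + (2 : ℤ) • v₁₂ + v₂₂) := by
    have h := hφY t₂
    rw [Yt2, map_add, φv22, φt2] at h
    simp only [map_add, map_zsmul, Xa, Ya, Xt1, Xt2, Yt1, Yt2, Xv11, Xv12, Xv22, Yv11, Yv12,
      Yv22] at h
    linear_combination (norm := module) h
  have hv12z : v₁₂ = 0 := by
    linear_combination (norm := module) (1 - k) • h3v12 - k • h3v22 - r2 + r3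
  subst hv12z
  have hv22e : v₂₂ = v₁₁ := by
    -- r3 : v₂₂ = (3k-1)(v₁₁ + v₂₂)
    linear_combination (norm := module) (1 - k) • h3v22 - k • h3v11 - r3
  subst hv22e
  have h3aZ : ((3 * k - 1) - 1 : ℤ) • ((3 : ℤ) • a) = 0 := by
    have h := hφA _ h3a
    rw [map_nsmul, hm] at h
    have h' : (3 : ℤ) • ((3 * k - 1) • a + m₂ • t₁ + m₃ • t₂ + l₁ • v₂₂ + l₂ • (0 : M) + l₃ • v₂₂)
        = (3 : ℤ) • a := by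
      have h2 := h
      rw [← natCast_zsmul, ← natCast_zsmul] at h2
      simpa only [Nat.cast_ofNat] using h2
    linear_combination (norm := module) h' - m₂ • h3t1 - m₃ • h3t2 - (l₁ + l₃) • h3v11
  refine ⟨by rw [← h3v11]; module, ?_⟩
  rintro g ⟨n₁, n₂, n₃, l₁', l₂', l₃', hg⟩ hgA ⟨n, hn⟩
  have hdiv : (3 : ℤ) ∣ n₁ ∧ (3 : ℤ) ∣ n₂ ∧ (3 : ℤ) ∣ n₃ := by
    apply hind
    have e : n₁ • a + n₂ • t₁ + n₃ • t₂ = g - (l₁' • v₂₂ + l₂' • (0 : M) + l₃' • v₂₂) := by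
      rw [hg]; module
    rw [e]; exact A.sub_mem hgA (hwA _ _ _)
  obtain ⟨⟨p, rfl⟩, ⟨q, rfl⟩, ⟨r, rfl⟩⟩ := hdiv
  have hg' : g = p • ((3 : ℤ) • a) + (l₁' + l₃') • v₂₂ := by
    rw [hg]
    linear_combination (norm := module) q • h3t1 + r • h3t2
  have hu2 : ((3 : ℤ) ^ (n + 1)) • (p • ((3 : ℤ) • a)) = 0 := by
    have hn' : ((3 : ℤ) ^ n) • g = 0 := by
      rw [← hn]; norm_cast
    have e : ((3 : ℤ) ^ (n + 1)) • (p • ((3 : ℤ) • a))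
        = (3 : ℤ) • (((3 : ℤ) ^ n) • g) - ((3 : ℤ) ^ n * (l₁' + l₃')) • ((3 : ℤ) • v₂₂) := by
      rw [hg', pow_succ]; module
    rw [e, hn', h3v11, smul_zero, smul_zero, sub_zero]
  have hu1 : ((3 * k - 1) - 1 : ℤ) • (p • ((3 : ℤ) • a)) = 0 := by
    rw [smul_comm, h3aZ, smul_zero]
  have hcop : IsCoprime ((3 * k - 1) - 1 : ℤ) ((3 : ℤ) ^ (n + 1)) :=
    IsCoprime.pow_right ⟨1, 1 - k, by ring⟩
  obtain ⟨x, y, hxy⟩ := hcop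
  have hu : p • ((3 : ℤ) • a) = 0 := by
    have e : p • ((3 : ℤ) • a) = (x * ((3 * k - 1) - 1) + y * (3 : ℤ) ^ (n + 1)) • (p • ((3 : ℤ) • a)) := by
      rw [hxy, one_smul]
    rw [e, add_smul, mul_smul, mul_smul, hu1, hu2, smul_zero, smul_zero, add_zero]
  exact ⟨l₁' + l₃', by rw [hg', hu, zero_add]⟩

theorem closure6 {B : Type u} [CommGroup B] (a t₁ t₂ v₁₁ v₁₂ v₂₂ g : B)
    (hg : g ∈ Subgroup.closure ({a, t₁, t₂, v₁₁, v₁₂, v₂₂} : Set B)) :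
    ∃ n₁ n₂ n₃ l₁ l₂ l₃ : ℤ,
      g = a ^ n₁ * t₁ ^ n₂ * t₂ ^ n₃ * v₁₁ ^ l₁ * v₁₂ ^ l₂ * v₂₂ ^ l₃ := by
  induction hg using Subgroup.closure_induction with
  | mem x hx =>
    simp only [Set.mem_insert_iff, Set.mem_singleton_iff] at hx
    rcases hx with h | h | h | h | h | h
    · exact ⟨1, 0, 0, 0, 0, 0, by simp [h]⟩
    · exact ⟨0, 1, 0, 0, 0, 0, by simp [h]⟩
    · exact ⟨0, 0, 1, 0, 0, 0, by simp [h]⟩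
    · exact ⟨0, 0, 0, 1, 0, 0, by simp [h]⟩
    · exact ⟨0, 0, 0, 0, 1, 0, by simp [h]⟩
    · exact ⟨0, 0, 0, 0, 0, 1, by simp [h]⟩
  | one => exact ⟨0, 0, 0, 0, 0, 0, by simp⟩
  | mul x y _ _ ihx ihy =>
    obtain ⟨n₁, n₂, n₃, l₁, l₂, l₃, rfl⟩ := ihx
    obtain ⟨m₁, m₂, m₃, k₁, k₂, k₃, rfl⟩ := ihy
    refine ⟨n₁ + m₁, n₂ + m₂, n₃ + m₃, l₁ + k₁, l₂ + k₂, l₃ + k₃, ?_⟩
    simp only [zpow_add, mul_assoc, mul_left_comm, mul_comm]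
  | inv x _ ih =>
    obtain ⟨n₁, n₂, n₃, l₁, l₂, l₃, rfl⟩ := ih
    exact ⟨-n₁, -n₂, -n₃, -l₁, -l₂, -l₃, by simp only [zpow_neg, mul_inv]⟩

theorem three_mod {B : Type u} [CommGroup B] (A : Subgroup B) (X Y φ : B →* B)
    (hXY : ∀ b, X (Y b) = Y (X b))
    (hXA : ∀ b ∈ A, X b = b) (hYA : ∀ b ∈ A, Y b = b) (hφA : ∀ b ∈ A, φ b = b)
    (hX3 : ∀ b, X (X (X b)) = b) (hY3 : ∀ b, Y (Y (Y b)) = b)
    (hφX : ∀ b, φ (X b) = X (Y (Y (φ b)))) (hφY : ∀ b, φ (Y b) = X (Y (φ b)))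
    (a t₁ t₂ v₁₁ v₁₂ v₂₂ : B) (ht1 : t₁ = X a * a⁻¹) (ht2 : t₂ = Y a * a⁻¹)
    (hv11 : v₁₁ = X t₁ * t₁⁻¹) (hv12 : v₁₂ = X t₂ * t₂⁻¹) (hv22 : v₂₂ = Y t₂ * t₂⁻¹)
    (h11 : v₁₁ ∈ A) (h12 : v₁₂ ∈ A) (h22 : v₂₂ ∈ A) (h3a : a ^ 3 ∈ A)
    (hind : ∀ n₁ n₂ n₃ : ℤ, a ^ n₁ * t₁ ^ n₂ * t₂ ^ n₃ ∈ A →
      (3 : ℤ) ∣ n₁ ∧ (3 : ℤ) ∣ n₂ ∧ (3 : ℤ) ∣ n₃)
    (hφa : ∃ i j : ℤ, φ a * a * (t₁ ^ i)⁻¹ * (t₂ ^ j)⁻¹ ∈ A)
    (hφa' : φ a ∈ Subgroup.closure ({a, t₁, t₂, v₁₁, v₁₂, v₂₂} : Set B)) :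
    v₁₁ ^ 3 = 1 ∧ ∀ g ∈ Subgroup.closure ({a, t₁, t₂, v₁₁, v₁₂, v₂₂} : Set B), g ∈ A →
      (∃ n : ℕ, g ^ (3 ^ n) = 1) → g ∈ Subgroup.zpowers v₁₁ := by
  have hcl := closure6 a t₁ t₂ v₁₁ v₁₂ v₂₂
  have core := three_mod_add (M := Additive B) (Subgroup.toAddSubgroup A)
    (MonoidHom.toAdditive X) (MonoidHom.toAdditive Y) (MonoidHom.toAdditive φ)
    hXY hXA hYA hφA hX3 hY3 hφX hφY (Additive.ofMul a) (Additive.ofMul t₁) (Additive.ofMul t₂)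
    (Additive.ofMul v₁₁) (Additive.ofMul v₁₂) (Additive.ofMul v₂₂)
    ht1 ht2 hv11 hv12 hv22 h11 h12 h22 h3a hind hφa (hcl _ hφa')
  refine ⟨core.1, fun g hg hgA hn => ?_⟩
  obtain ⟨l, hl⟩ := core.2 (Additive.ofMul g) (hcl g hg) hgA hn
  exact Subgroup.mem_zpowers_iff.mpr ⟨l, hl⟩

end Cfsg.Agent.Lib.Helper17.J3MMOD3
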