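import Mathlib
import Cfsg.Agent.Lib.Helper48.MulA

/-!
# S2086 piece HE3 (helper17, for helper48): `HypE` for `SL_3(K)`
-/

set_option autoImplicit false
open scoped commutatorElement

namespace Cfsg.Agent.Lib.Helper48.Mul

open Cfsg.Agent.Lib.Helper48 Cfsg.Agent.Lib.Helper48.St Cfsg.Agent.Lib.Helper70

section h17he3

variable {Γ : Type*} [Group Γ] {K : Type*} [Field K] {n : ℕ}

/-- the subring argument: a "pairing" with `z (r³ a) b = z a (r³ b)` only depends on `a * b` -/
theorem h17_subring_arg {A : Type*} [Group A] (z : K → K → A)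
    (hl : ∀ a a' b, z (a + a') b = z a' b * z a b)
    (hr : ∀ a b b', z a (b + b') = z a b * z a b')
    (hcm : ∀ a b a' b', Commute (z a b) (z a' b'))
    (hcube : ∀ S : Subring K, (∀ x : K, x ^ 3 ∈ S) → S = ⊤)
    (ht : ∀ r : K, r ≠ 0 → ∀ a b, z (r ^ 3 * a) b = z a (r ^ 3 * b)) :
    ∀ a b, z a b = z 1 (a * b) := by
  have z0l : ∀ b, z 0 b = 1 := by
    intro b
    have h := hl 0 0 b
    rw [add_zero] at h
    exact left_eq_mul.mp h
  have z0r : ∀ a, z a 0 = 1 := by
    intro a
    have h := hr a 0 0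
    rw [add_zero] at h
    exact left_eq_mul.mp h
  have znl : ∀ a b, z (-a) b = (z a b)⁻¹ := by
    intro a b
    have h := hl a (-a) b
    rw [add_neg_cancel, z0l] at h
    exact eq_inv_of_mul_eq_one_left h.symm
  have znr : ∀ a b, z a (-b) = (z a b)⁻¹ := by
    intro a b
    have h := hr a b (-b)
    rw [add_neg_cancel, z0r] at h
    exact eq_inv_of_mul_eq_one_right h.symm
  let R : Subring K :=
    { carrier := {r | ∀ a b, z (r * a) b = z a (r * b)}
      mul_mem' := fun {r s} hr' hs' a b => by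
        show z (r * s * a) b = z a (r * s * b)
        rw [mul_assoc, hr' (s * a) b, hs' a (r * b), ← mul_assoc, mul_comm s r]
      one_mem' := fun a b => by
        show z (1 * a) b = z a (1 * b)
        rw [one_mul, one_mul]
      add_mem' := fun {r s} hr' hs' a b => by
        show z ((r + s) * a) b = z a ((r + s) * b)
        rw [add_mul, add_mul, hl, hr, hr' a b, hs' a b]
        exact (hcm _ _ _ _).eq
      zero_mem' := fun a b => by
        show z (0 * a) b = z a (0 * b)
        rw [zero_mul, zero_mul, z0l, z0r]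
      neg_mem' := fun {r} hr' a b => by
        show z (-r * a) b = z a (-r * b)
        rw [neg_mul, neg_mul, znl, znr, hr' a b] }
  have hR : R = ⊤ := by
    apply hcube
    intro x
    by_cases hx : x = 0
    · rw [hx]
      have h0 : (0 : K) ^ 3 = 0 := by ring
      rw [h0]
      exact R.zero_mem
    · exact ht x hx
  intro a b
  have ha : a ∈ R := by rw [hR]; trivial
  have h := ha 1 b
  rw [mul_one] at h
  exact h

/-- powers of a commutator with a central value, right variable -/
theorem h17_comm_pow_right {G : Type*} [Group G] {σ : Γ →* G} (hc : σ.ker ≤ Subgroup.center Γ)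
    {T y : Γ} (h : Commute (σ T) (σ y)) (k : ℕ) : ⁅T, y ^ k⁆ = ⁅T, y⁆ ^ k := by
  induction k with
  | zero => rw [pow_zero, pow_zero, commutatorElement_one_right]
  | succ k ih => rw [pow_succ, pow_succ, comm_mul_right_of_central hc h, ih]

/-- powers of a commutator with a central value, left variable -/
theorem h17_comm_pow_left {G : Type*} [Group G] {σ : Γ →* G} (hc : σ.ker ≤ Subgroup.center Γ)
    {T y : Γ} (h : Commute (σ T) (σ y)) (k : ℕ) : ⁅T ^ k, y⁆ = ⁅T, y⁆ ^ k := by
  induction k with
  | zero => rw [pow_zero, pow_zero, commutatorElement_one_left]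
  | succ k ih => rw [pow_succ, pow_succ', comm_mul_left_of_central hc h, ih]

theorem h17_slX_pow {i l : Fin n} (hil : i ≠ l) (c : K) (k : ℕ) :
    (slX i l c : Matrix.SpecialLinearGroup (Fin n) K) ^ k = slX i l ((k : K) * c) := by
  induction k with
  | zero => rw [pow_zero, Nat.cast_zero, zero_mul, slX_zero]
  | succ k ih =>
    rw [pow_succ, ih, slX_add hil]
    congr 1
    push_cast
    ring

/-- the torus element -/
theorem h17_torus [Fintype K] (σ : Γ →* Matrix.SpecialLinearGroup (Fin n) K)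
    (hs : Function.Surjective σ) (hc : σ.ker ≤ Subgroup.center Γ) {i j l : Fin n} (hij : i ≠ j)
    (hjl : j ≠ l) (hil : i ≠ l) (r : K) (hr : r ≠ 0) :
    ∃ T : Γ, (∀ c y, σ y = slX i l c → Commute T y) ∧
      (∀ a u, σ u = slX i j a → σ (T * u * T⁻¹) = slX i j (r ^ 3 * a)) ∧
      (∀ b v, σ v = slX j l b → σ (T * v * T⁻¹) = slX j l (r⁻¹ ^ 3 * b)) := by
  classical
  let p : Kˣ := Units.mk0 r hr
  let d : Fin n → Kˣ := fun k => duFun i j p k * duFun l j p k
  have hd : ∏ k, d k = 1 := by
    rw [Finset.prod_mul_distrib, duFun_prod hij, duFun_prod hjl.symm, one_mul]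
  have hdi : d i = p := by simp [d, duFun, hij, hil]
  have hdj : d j = p⁻¹ * p⁻¹ := by simp [d, duFun, hij.symm, hjl]
  have hdl : d l = p := by simp [d, duFun, hil.symm, hjl.symm]
  have hpv : (p : K) = r := rfl
  obtain ⟨T, hT⟩ := hs (slD d hd)
  refine ⟨T, ?_, ?_, ?_⟩
  · intro c y hy
    have hcomm : Commute (σ T) (σ y) := by
      rw [hT, hy]
      have h1 := slD_conj d hd hil c
      have e : (d i : K) * ((d l : K))⁻¹ * c = c := by
        rw [hdi, hdl, hpv]
        field_simp
      rw [e] at h1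
      exact mul_inv_eq_iff_eq_mul.mp h1
    have hq1 : ⁅T, y⁆ ^ Fintype.card K = 1 := by
      rw [← h17_comm_pow_right hc hcomm]
      have h1 : σ (y ^ Fintype.card K) = σ 1 := by
        rw [map_pow, hy, h17_slX_pow hil, Nat.cast_card_eq_zero K, zero_mul, slX_zero, map_one]
      rw [lift_comm_eq hc (rfl : σ T = σ T) h1, commutatorElement_one_right]
    have hq2 : ⁅T, y⁆ ^ (Fintype.card K - 1) = 1 := by
      rw [← h17_comm_pow_left hc hcomm]
      have h1 : σ (T ^ (Fintype.card K - 1)) = σ 1 := by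
        rw [map_pow, hT, map_one]
        apply slD_pow
        intro k
        apply Units.ext
        rw [Units.val_pow_eq_pow_val, Units.val_one]
        exact FiniteField.pow_card_sub_one_eq_one _ (Units.ne_zero _)
      rw [lift_comm_eq hc h1 (rfl : σ y = σ y), commutatorElement_one_left]
    have hq : Fintype.card K - 1 + 1 = Fintype.card K := Nat.sub_add_cancel Fintype.card_pos
    have hm : ⁅T, y⁆ = 1 := by
      rw [← hq, pow_succ, hq2, one_mul] at hq1
      exact hq1
    exact commutatorElement_eq_one_iff_commute.mp hm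
  · intro a u hu
    rw [map_mul, map_mul, map_inv, hT, hu, slD_conj d hd hij]
    congr 1
    rw [hdi, hdj, hpv, Units.val_mul, Units.val_inv_eq_inv_val, hpv]
    field_simp
  · intro b v hv
    rw [map_mul, map_mul, map_inv, hT, hv, slD_conj d hd hjl]
    congr 1
    rw [hdj, hdl, hpv, Units.val_mul, Units.val_inv_eq_inv_val, hpv]
    field_simp

/-- the main computation, for distinct `i, j, l` -/
theorem h17_E3_main [Fintype K]
    (hcube : ∀ S : Subring K, (∀ x : K, x ^ 3 ∈ S) → S = ⊤)
    (σ : Γ →* Matrix.SpecialLinearGroup (Fin n) K) (hs : Function.Surjective σ)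
    (hc : σ.ker ≤ Subgroup.center Γ) (hA : HypA σ slX) (hB : HypB σ slX) (hC : HypC σ slX)
    {i j l : Fin n} (hij : i ≠ j) (hjl : j ≠ l) (hil : i ≠ l) (a b : K) (u v u' v' : Γ)
    (hu : σ u = slX i j a) (hv : σ v = slX j l b) (hu' : σ u' = slX i j 1)
    (hv' : σ v' = slX j l (a * b)) : ⁅u, v⁆ = ⁅u', v'⁆ := by
  classical
  choose L hL using fun (x : Fin n × Fin n × K) => hs (slX x.1 x.2.1 x.2.2)
  let z : K → K → Γ := fun a b => ⁅L (i, j, a), L (j, l, b)⁆
  have hz : ∀ a b (u v : Γ), σ u = slX i j a → σ v = slX j l b → ⁅u, v⁆ = z a b := by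
    intro a b u v hu hv
    exact lift_comm_eq hc (hu.trans (hL (i, j, a)).symm) (hv.trans (hL (j, l, b)).symm)
  have hσz : ∀ a b, σ (z a b) = slX i l (a * b) := by
    intro a b
    show σ ⁅L (i, j, a), L (j, l, b)⁆ = _
    rw [map_commutatorElement, hL, hL]
    exact slX_comm3 hij hjl hil a b
  have hl : ∀ a a' b, z (a + a') b = z a' b * z a b := by
    intro a a' b
    have e : ⁅L (i, j, a) * L (i, j, a'), L (j, l, b)⁆ = z (a + a') b := by
      apply hz
      · rw [map_mul, hL, hL]
        exact slX_add hij a a'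
      · exact hL (j, l, b)
    rw [← e]
    exact comm_mul_left_of_commute
      (hB i j l hij hil hjl a (a' * b) (L (i, j, a)) (z a' b) (hL (i, j, a)) (hσz a' b))
  have hr : ∀ a b b', z a (b + b') = z a b * z a b' := by
    intro a b b'
    have e : ⁅L (i, j, a), L (j, l, b) * L (j, l, b')⁆ = z a (b + b') := by
      apply hz
      · exact hL (i, j, a)
      · rw [map_mul, hL, hL]
        exact slX_add hjl b b'
    rw [← e]
    exact comm_mul_right_of_commute
      (hC i j l hij hil hjl (a * b') b (z a b') (L (j, l, b)) (hσz a b') (hL (j, l, b))).symm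
  have hcm : ∀ a b a' b', Commute (z a b) (z a' b') := by
    intro a b a' b'
    exact hA i l hil (a * b) (a' * b') _ _ (hσz a b) (hσz a' b')
  have ht : ∀ r : K, r ≠ 0 → ∀ a b, z (r ^ 3 * a) b = z a (r ^ 3 * b) := by
    intro r hr0 a b
    obtain ⟨T, hT1, hT2, hT3⟩ := h17_torus σ hs hc hij hjl hil r hr0
    have key : ∀ a b, z (r ^ 3 * a) (r⁻¹ ^ 3 * b) = z a b := by
      intro a b
      have e3 : ⁅T * L (i, j, a) * T⁻¹, T * L (j, l, b) * T⁻¹⁆ = z (r ^ 3 * a) (r⁻¹ ^ 3 * b) :=
        hz _ _ _ _ (hT2 a _ (hL (i, j, a))) (hT3 b _ (hL (j, l, b)))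
      have e4 : T * z a b * T⁻¹ = z a b := by
        rw [(hT1 (a * b) (z a b) (hσz a b)).eq, mul_inv_cancel_right]
      rw [← e3, ← conj_comm]
      exact e4
    have h1 := key a (r ^ 3 * b)
    have e : r⁻¹ ^ 3 * (r ^ 3 * b) = b := by field_simp
    rw [e] at h1
    exact h1
  have hfin := h17_subring_arg z hl hr hcm hcube ht a b
  rw [hz a b u v hu hv, hfin]
  exact (hz 1 (a * b) u' v' hu' hv').symm

/-- piece HE3 -/
theorem hypE_three [Fintype K]
    (hcube : ∀ S : Subring K, (∀ x : K, x ^ 3 ∈ S) → S = ⊤)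
    (σ : Γ →* Matrix.SpecialLinearGroup (Fin 3) K) (hs : Function.Surjective σ)
    (hc : σ.ker ≤ Subgroup.center Γ) (hA : HypA σ slX) (hB : HypB σ slX) (hC : HypC σ slX) :
    HypE σ slX := by
  intro i j j' l hij hjl hil hij' hj'l a b u v u' v' hu hv hu' hv'
  have hjj : j' = j := by
    have h1 : i.val ≠ j.val := fun h => hij (Fin.ext h)
    have h2 : j.val ≠ l.val := fun h => hjl (Fin.ext h)
    have h3 : i.val ≠ l.val := fun h => hil (Fin.ext h)
    have h4 : i.val ≠ j'.val := fun h => hij' (Fin.ext h)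
    have h5 : j'.val ≠ l.val := fun h => hj'l (Fin.ext h)
    have b1 := i.2
    have b2 := j.2
    have b3 := j'.2
    have b4 := l.2
    apply Fin.ext
    omega
  subst hjj
  exact h17_E3_main hcube σ hs hc hA hB hC hij hjl hil a b u v u' v' hu hv hu' hv'

end h17he3

end Cfsg.Agent.Lib.Helper48.Mul
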