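import Mathlib
import Cfsg.Agent.Lib.Helper51.Spinor
import Cfsg.Agent.Lib.Helper96.SpDefs

/-!
Project O72 (S5972, helper98), piece BRA: the bridge between a quadratic form `Q` on `ι → F`
with its isometry group `Cfsg.isometryGroup` and the notions `ND` / `Orth` / `Isom` for the
polar bilinear form of `Q`.
-/

set_option autoImplicit false
set_option linter.unusedSectionVars false
set_option linter.unusedVariables false

namespace Cfsg.Agent.Lib.Helper98.O72

open Module Cfsg Cfsg.Agent.Lib.Helper96.Sp Cfsg.Agent.Lib.Helper51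
open scoped MatrixGroups

section Concrete

variable {ι : Type} [Fintype ι] [DecidableEq ι] {F : Type*} [Field F] [Fintype F]

/-- PIECE BRA (1/5). -/
theorem br_isSymm (Q : QuadraticForm F (ι → F)) : (QuadraticMap.polarBilin Q).IsSymm := by
  refine ⟨fun x y => ?_⟩
  rw [QuadraticMap.polarBilin_apply_apply, QuadraticMap.polarBilin_apply_apply]
  exact QuadraticMap.polar_comm _ _ _

/-- PIECE BRA (2/5). -/
theorem br_nd (Q : QuadraticForm F (ι → F)) (hQ : (QuadraticMap.polarBilin Q).Nondegenerate) :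
    ND (QuadraticMap.polarBilin Q) ⊤ := by
  intro u _ hu
  exact hQ.1 u (fun v => hu v Submodule.mem_top)

/-- PIECE BRA (3/5). -/
theorem br_ts_iff (Q : QuadraticForm F (ι → F)) (h2 : (2 : F) ≠ 0) (W : Submodule F (ι → F)) :
    (∀ w ∈ W, Q w = 0) ↔ Orth (QuadraticMap.polarBilin Q) W W := by
  constructor
  · intro h u hu v hv
    rw [QuadraticMap.polarBilin_apply_apply]
    unfold QuadraticMap.polar
    rw [h _ (W.add_mem hu hv), h u hu, h v hv]
    simp
  · intro h w hw
    have h1 := h w hw w hw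
    rw [QuadraticMap.polarBilin_apply_apply, polar_self] at h1
    rcases mul_eq_zero.1 h1 with h3 | h3
    · exact absurd h3 h2
    · exact h3

/-- PIECE BRA (4/5). -/
theorem br_isom_of_mem (Q : QuadraticForm F (ι → F)) (g : isometryGroup F ⇑Q) :
    Isom (QuadraticMap.polarBilin Q)
      (Matrix.toLin' ((g : GL ι F) : Matrix ι ι F)) := by
  intro x y
  rw [QuadraticMap.polarBilin_apply_apply, QuadraticMap.polarBilin_apply_apply,
    Matrix.toLin'_apply, Matrix.toLin'_apply]
  exact isometry_polar Q g x y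

/-- PIECE BRA (5/5). -/
theorem br_exists_of_isom (Q : QuadraticForm F (ι → F)) (h2 : (2 : F) ≠ 0)
    (T : Module.End F (ι → F)) (hT : Isom (QuadraticMap.polarBilin Q) T)
    (hinj : Function.Injective T) :
    ∃ g : isometryGroup F ⇑Q, Matrix.toLin' ((g : GL ι F) : Matrix ι ι F) = T := by
  have hQT : ∀ x, Q (T x) = Q x := by
    intro x
    have h1 := hT x x
    rw [QuadraticMap.polarBilin_apply_apply, QuadraticMap.polarBilin_apply_apply,
      polar_self, polar_self] at h1
    exact mul_left_cancel₀ h2 h1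
  let f : (ι → F) ≃ₗ[F] (ι → F) := LinearEquiv.ofInjectiveEndo T hinj
  have hf : ∀ x, f x = T x := fun x => rfl
  have hfT : (f : (ι → F) →ₗ[F] (ι → F)) = T := by
    refine LinearMap.ext fun x => ?_
    exact hf x
  let gm : GL ι F :=
    ⟨LinearMap.toMatrix' (f : (ι → F) →ₗ[F] (ι → F)),
      LinearMap.toMatrix' (f.symm : (ι → F) →ₗ[F] (ι → F)),
      by rw [← LinearMap.toMatrix'_comp]; simp,
      by rw [← LinearMap.toMatrix'_comp]; simp⟩
  have hgm : ((gm : GL ι F) : Matrix ι ι F) = LinearMap.toMatrix' T := by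
    show LinearMap.toMatrix' (f : (ι → F) →ₗ[F] (ι → F)) = LinearMap.toMatrix' T
    rw [hfT]
  have hmem : gm ∈ isometryGroup F ⇑Q := by
    rw [mem_isometryGroup_iff]
    intro x
    rw [hgm, ← Matrix.toLin'_apply, Matrix.toLin'_toMatrix']
    exact hQT x
  refine ⟨⟨gm, hmem⟩, ?_⟩
  show Matrix.toLin' ((gm : GL ι F) : Matrix ι ι F) = T
  rw [hgm, Matrix.toLin'_toMatrix']

end Concrete

end Cfsg.Agent.Lib.Helper98.O72
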