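import Mathlib
import Cfsg.Prelude.Def_Local
import Cfsg.Agent.Lib.Helper40.PLenDefs
import Cfsg.Agent.Lib.Helper29.WrREPA
import Cfsg.Agent.Lib.Helper29.WrREPB
import Cfsg.Agent.Lib.Helper78.WrRANGE
import Cfsg.Agent.Lib.Helper40.HallHigman

/-!
# S3789 piece KC (helper17, for helper40): from the linear core `YStmt` to the key claim `KCStmt`
-/

set_option autoImplicit false

namespace Cfsg.Agent.Lib.Helper17

open Cfsg Cfsg.Agent.Lib.Helper40.PLen

open scoped commutatorElement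

universe u

/-- Linear automorphisms of `V` as automorphisms of the multiplicative group `Multiplicative V`. -/
def kcToMulAut (p : ℕ) (V : Type u) [AddCommGroup V] [Module (ZMod p) V] :
    (V ≃ₗ[ZMod p] V) →* MulAut (Multiplicative V) where
  toFun e := AddEquiv.toMultiplicative e.toAddEquiv
  map_one' := by ext v; rfl
  map_mul' e₁ e₂ := by ext v; rfl

/-- The group-theoretic core of KC. -/
theorem kc_core (p : ℕ) [Fact p.Prime] (h : YStmt.{u} p) {G : Type u} [Group G] [Finite G]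
    (hsol : IsPSolvable p G) (hpp : pPrimeCore p G = ⊥) (S : Subgroup G) (hS : IsPGroup p S)
    (hNS : pCore p G ≤ S)
    (R : Subgroup G) (hRS : R ≤ S) (hRn : ∀ s ∈ S, ∀ r ∈ R, s * r * s⁻¹ ∈ R)
    (hTc : ∀ t₁ ∈ ⁅R, R⁆, ∀ t₂ ∈ ⁅R, R⁆, t₁ * t₂ = t₂ * t₁) :
    ⁅R, R⁆ ≤ pCore p G := by
  classical
  have hp : p.Prime := Fact.out
  haveI hN : (pCore p G).Normal := Cfsg.Agent.Lib.Helper40.pCore_normal' p
  have hNp : IsPGroup p (pCore p G) := Cfsg.Agent.Lib.Helper40.pCore_isPGroup' p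
  obtain ⟨V, iA, iM, iF, ρ, π, hπs, hπeq, hπfr⟩ :=
    Cfsg.Agent.Lib.Helper29.s3787_repA p (pCore p G) hNp
  have hker : ρ.ker = pCore p G :=
    Cfsg.Agent.Lib.Helper29.s3787_repB p hsol hpp ρ π hπs hπeq hπfr
  obtain ⟨hHsol, hHcore⟩ := Cfsg.Agent.Lib.Helper78.s3787_range p hsol ρ hker
  haveI hfin : Finite ↥ρ.range :=
    Finite.of_surjective ρ.rangeRestrict ρ.rangeRestrict_surjective
  set θ : ↥ρ.range →* MulAut (Multiplicative V) :=
    (kcToMulAut p V).comp ρ.range.subtype with hθdef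
  have hθπ : ∀ (g : G) (a : ↥(pCore p G)),
      θ (ρ.rangeRestrict g) (π a) = π ⟨g * a * g⁻¹, hN.conj_mem a a.2 g⟩ := by
    intro g a
    rw [hπeq g a]
    rfl
  have hTn : ∀ s ∈ S, ∀ t ∈ ⁅R, R⁆, s * t * s⁻¹ ∈ ⁅R, R⁆ := by
    intro s hs t ht
    have hmap : (⁅R, R⁆).map (MulAut.conj s).toMonoidHom ≤ ⁅R, R⁆ := by
      rw [Subgroup.map_commutator]
      have h1 : R.map (MulAut.conj s).toMonoidHom ≤ R := by
        rintro _ ⟨r, hr, rfl⟩
        exact hRn s hs r hr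
      exact Subgroup.commutator_mono h1 h1
    exact hmap ⟨t, ht, rfl⟩
  have hD : ∀ (g : G) (a : ↥(pCore p G)),
      θ (ρ.rangeRestrict g) (π a) / π a
        = π ⟨g * a * g⁻¹ * (a : G)⁻¹,
            (pCore p G).mul_mem (hN.conj_mem a a.2 g) ((pCore p G).inv_mem a.2)⟩ := by
    intro g a
    rw [hθπ, div_eq_mul_inv, ← map_inv, ← map_mul]
    rfl
  have hfixT : ∀ t ∈ ⁅R, R⁆, ∀ c : ↥(pCore p G), (c : G) ∈ ⁅R, R⁆ →
      θ (ρ.rangeRestrict t) (π c) = π c := by
    intro t ht c hc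
    rw [hθπ]
    congr 1
    apply Subtype.ext
    show t * c * t⁻¹ = c
    rw [hTc t ht c hc, mul_inv_cancel_right]
  have key : ⁅R.map ρ.rangeRestrict, R.map ρ.rangeRestrict⁆ = ⊥ := by
    refine h (Multiplicative V) ↥ρ.range θ (R.map ρ.rangeRestrict) ?_ ?_ hHsol hHcore ?_ ?_ ?_
    · intro v
      have h1 := ZModModule.char_nsmul_eq_zero p (Multiplicative.toAdd v)
      apply Multiplicative.toAdd.injective
      rw [toAdd_pow]
      exact h1
    · intro g hg
      apply Subtype.ext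
      apply LinearEquiv.ext
      intro v
      have h1 := congrArg (fun f => Multiplicative.toAdd (f (Multiplicative.ofAdd v))) hg
      exact h1
    · exact (hS.to_le hRS).map ρ.rangeRestrict
    · intro t₁ ht₁ t₂ ht₂ v
      rw [← Subgroup.map_commutator] at ht₁ ht₂
      obtain ⟨t₁', ht₁', rfl⟩ := ht₁
      obtain ⟨t₂', ht₂', rfl⟩ := ht₂
      obtain ⟨a, rfl⟩ := hπs v
      rw [hD]
      apply hfixT t₂' ht₂'
      show t₁' * a * t₁'⁻¹ * (a : G)⁻¹ ∈ ⁅R, R⁆
      have h1 := hTn a (hNS a.2) t₁'⁻¹ (inv_mem ht₁')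
      have h2 := mul_mem ht₁' h1
      simpa [mul_assoc] using h2
    · intro r₁ hr₁ r₂ hr₂ t ht v
      rw [← Subgroup.map_commutator] at ht
      obtain ⟨r₁', hr₁', rfl⟩ := hr₁
      obtain ⟨r₂', hr₂', rfl⟩ := hr₂
      obtain ⟨t', ht', rfl⟩ := ht
      obtain ⟨a, rfl⟩ := hπs v
      rw [hD, hD]
      apply hfixT t' ht'
      show r₂' * (r₁' * a * r₁'⁻¹ * (a : G)⁻¹) * r₂'⁻¹ * (r₁' * a * r₁'⁻¹ * (a : G)⁻¹)⁻¹ ∈ ⁅R, R⁆
      have hc1 : r₁' * a * r₁'⁻¹ * (a : G)⁻¹ ∈ R := by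
        have h1 := hRn a (hNS a.2) r₁'⁻¹ (inv_mem hr₁')
        have h2 := mul_mem hr₁' h1
        simpa [mul_assoc] using h2
      have h3 := Subgroup.commutator_mem_commutator hr₂' hc1
      rwa [commutatorElement_def] at h3
  intro t ht
  rw [← hker, MonoidHom.mem_ker]
  have h1 : ρ.rangeRestrict t ∈ ⁅R.map ρ.rangeRestrict, R.map ρ.rangeRestrict⁆ := by
    rw [← Subgroup.map_commutator]; exact ⟨t, ht, rfl⟩
  rw [key, Subgroup.mem_bot] at h1
  have h2 := congrArg Subtype.val h1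
  simpa using h2

/-- **KC**: the key claim follows from the linear core. -/
theorem kc_of_y (p : ℕ) [Fact p.Prime] (h : YStmt.{u} p) : KCStmt.{u} p := by
  intro G _ _ hsol hpp S k hd
  haveI hN : (pCore p G).Normal := Cfsg.Agent.Lib.Helper40.pCore_normal' p
  have hNp : IsPGroup p (pCore p G) := Cfsg.Agent.Lib.Helper40.pCore_isPGroup' p
  have hNS : pCore p G ≤ (S : Subgroup G) := hNp.le_sylow_of_normal S
  cases k with
  | zero =>
    have hcomm : ∀ a b : ↥(S : Subgroup G), a * b = b * a := by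
      intro a b
      have h1 : (⁅a, b⁆ : ↥(S : Subgroup G)) ∈ derivedSeries ↥(S : Subgroup G) (0 + 1) := by
        rw [derivedSeries_succ, derivedSeries_zero]
        exact Subgroup.commutator_mem_commutator (Subgroup.mem_top a) (Subgroup.mem_top b)
      rw [hd, Subgroup.mem_bot, commutatorElement_eq_one_iff_mul_comm] at h1
      exact h1
    rintro _ ⟨s, -, rfl⟩
    apply Cfsg.Agent.Lib.Helper40.centralizer_pCore_le hsol hpp
    rw [Subgroup.mem_centralizer_iff]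
    intro n hn
    have h1 := hcomm ⟨n, hNS hn⟩ s
    exact congrArg Subtype.val h1
  | succ j =>
    haveI hDn : (derivedSeries ↥(S : Subgroup G) j).Normal := derivedSeries_normal _ j
    have key := kc_core p h hsol hpp (S : Subgroup G) S.isPGroup' hNS
      ((derivedSeries ↥(S : Subgroup G) j).map (S : Subgroup G).subtype)
      (Subgroup.map_subtype_le _) ?_ ?_
    · rw [derivedSeries_succ, Subgroup.map_commutator]
      exact key
    · rintro s hs _ ⟨r, hr, rfl⟩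
      exact ⟨⟨s, hs⟩ * r * ⟨s, hs⟩⁻¹, hDn.conj_mem r hr ⟨s, hs⟩, rfl⟩
    · intro t₁ ht₁ t₂ ht₂
      rw [← Subgroup.map_commutator, ← derivedSeries_succ] at ht₁ ht₂
      obtain ⟨t₁', ht₁', rfl⟩ := ht₁
      obtain ⟨t₂', ht₂', rfl⟩ := ht₂
      have h1 : (⁅t₁', t₂'⁆ : ↥(S : Subgroup G)) ∈ derivedSeries ↥(S : Subgroup G) (j + 1 + 1) := by
        rw [derivedSeries_succ]
        exact Subgroup.commutator_mem_commutator ht₁' ht₂'
      rw [hd, Subgroup.mem_bot, commutatorElement_eq_one_iff_mul_comm] at h1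
      exact congrArg Subtype.val h1

end Cfsg.Agent.Lib.Helper17
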