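import Mathlib
import Cfsg.Agent.Lib.Helper72.PQDefs
import Cfsg.Agent.Lib.Helper12.Ward2

/-!
# Piece PQ-L2 of S4306: structure of `Q` in the tower configuration
-/

set_option autoImplicit false

namespace Cfsg.Agent.Lib.Helper17.PQ

open Cfsg.Agent.Lib.Helper72.PQ
open Cfsg.Agent.Lib.Helper12
open scoped commutatorElement

universe u

/-- power of a product modulo a central subgroup containing the commutators -/
theorem l2_pow_mul {Γ : Type u} [Group Γ] (Q Z : Subgroup Γ)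
    (hcen : ∀ z ∈ Z, ∀ y ∈ Q, z * y = y * z)
    (hcom : ∀ y ∈ Q, ∀ y' ∈ Q, y * y' * y⁻¹ * y'⁻¹ ∈ Z)
    (y y' : Γ) (hy : y ∈ Q) (hy' : y' ∈ Q) :
    ∀ n : ℕ, ∃ z ∈ Z, (y * y') ^ n = y ^ n * y' ^ n * z := by
  intro n
  induction n with
  | zero => exact ⟨1, Z.one_mem, by simp⟩
  | succ n ih =>
    obtain ⟨z, hz, e⟩ := ih
    have hc : (y' ^ n)⁻¹ * y⁻¹ * y' ^ n * y ∈ Z := by
      have := hcom _ (Q.inv_mem (Q.pow_mem hy' n)) _ (Q.inv_mem hy)
      simpa using this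
    refine ⟨(y' ^ n)⁻¹ * y⁻¹ * y' ^ n * y * z, Z.mul_mem hc hz, ?_⟩
    have h1 : z * (y * y') = (y * y') * z := hcen z hz _ (Q.mul_mem hy hy')
    have h2 : ((y' ^ n)⁻¹ * y⁻¹ * y' ^ n * y) * y' = y' * ((y' ^ n)⁻¹ * y⁻¹ * y' ^ n * y) :=
      hcen _ hc _ hy'
    rw [pow_succ, e, pow_succ, pow_succ]
    calc y ^ n * y' ^ n * z * (y * y') = y ^ n * y' ^ n * (z * (y * y')) := by
          simp only [mul_assoc]
      _ = y ^ n * y' ^ n * ((y * y') * z) := by rw [h1]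
      _ = y ^ n * y * y' ^ n * (((y' ^ n)⁻¹ * y⁻¹ * y' ^ n * y) * y') * z := by
          simp only [mul_assoc, mul_inv_cancel_left]
      _ = y ^ n * y * y' ^ n * (y' * ((y' ^ n)⁻¹ * y⁻¹ * y' ^ n * y)) * z := by rw [h2]
      _ = y ^ n * y * (y' ^ n * y') * ((y' ^ n)⁻¹ * y⁻¹ * y' ^ n * y * z) := by
          simp only [mul_assoc]

theorem l2 : Cfsg.Agent.Lib.Helper72.PQ.L2Stmt.{u} := by
  intro Γ _ _ p ℓ r q s A F V Q R tw
  have : Fact q.Prime := ⟨tw.hq⟩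
  have : Fact s.Prime := ⟨tw.hs⟩
  have hZQ : cz Q R ≤ Q := fun x hx => (mem_cz.mp hx).1
  have hDQ : ⁅Q, Q⁆ ≤ Q := by
    rw [Subgroup.commutator_le]
    intro x hx y hy
    rw [commutatorElement_def]
    exact Q.mul_mem (Q.mul_mem (Q.mul_mem hx hy) (Q.inv_mem hx)) (Q.inv_mem hy)
  have hDne : ⁅Q, Q⁆ ≠ Q := by
    intro h
    have : Nontrivial ↥Q := (Subgroup.nontrivial_iff_ne_bot Q).mpr tw.hQ1
    have : Group.IsNilpotent ↥Q := tw.hQq.isNilpotent
    have h1 := Group.IsSolvable.commutator_lt_top_of_nontrivial ↥Q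
    apply h1.ne
    apply Subgroup.map_injective Q.subtype_injective
    rw [commutator_def, Subgroup.map_commutator, ← MonoidHom.range_eq_map,
      Subgroup.range_subtype, h]
  have hAD : A ≤ Subgroup.normalizer ((⁅Q, Q⁆ : Subgroup Γ) : Set Γ) :=
    fun a ha => Ward.nz_comm (tw.hAQ ha) (tw.hAQ ha)
  have hRD : R ≤ Subgroup.normalizer ((⁅Q, Q⁆ : Subgroup Γ) : Set Γ) :=
    fun a ha => Ward.nz_comm (tw.hRQ ha) (tw.hRQ ha)
  have hDc := tw.hE3 _ hDQ hDne hAD hRD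
  have hDZ : ⁅Q, Q⁆ ≤ cz Q R := fun y hy => mem_cz.mpr ⟨hDQ hy, fun x hx => hDc y hy x hx⟩
  have hb : ∀ y ∈ Q, ∀ y' ∈ Q, y * y' * y⁻¹ * y'⁻¹ ∈ cz Q R := by
    intro y hy y' hy'
    have := Subgroup.commutator_mem_commutator hy hy'
    rw [commutatorElement_def] at this
    exact hDZ this
  have ha : ∀ z ∈ cz Q R, ∀ y ∈ Q, z * y = y * z := by
    have h1 : ⁅⁅R, cz Q R⁆, Q⁆ = ⊥ := by
      have : ⁅R, cz Q R⁆ = ⊥ := by
        rw [eq_bot_iff, Subgroup.commutator_le]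
        intro x hx z hz
        rw [Subgroup.mem_bot]
        exact commutatorElement_eq_one_iff_mul_comm.mpr ((mem_cz.mp hz).2 x hx)
      rw [this, Subgroup.commutator_bot_left]
    have h2 : ⁅⁅cz Q R, Q⁆, R⁆ = ⊥ := by
      rw [eq_bot_iff]
      refine (Subgroup.commutator_mono (Subgroup.commutator_mono hZQ le_rfl) le_rfl).trans ?_
      rw [Subgroup.commutator_le]
      intro d hd x hx
      rw [Subgroup.mem_bot]
      exact commutatorElement_eq_one_iff_mul_comm.mpr (hDc d hd x hx).symm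
    have h3 := Subgroup.commutator_commutator_eq_bot_of_rotate h1 h2
    rw [tw.hE5] at h3
    intro z hz y hy
    have h4 : ⁅y, z⁆ ∈ ⁅Q, cz Q R⁆ := Subgroup.commutator_mem_commutator hy hz
    rw [h3, Subgroup.mem_bot] at h4
    exact (commutatorElement_eq_one_iff_mul_comm.mp h4).symm
  have hAZ : A ≤ Subgroup.normalizer ((cz Q R : Subgroup Γ) : Set Γ) :=
    fun a ha => Ward.nz_inf (tw.hAQ ha) (Ward.nz_centralizer (tw.hAR ha))
  have hRZ : R ≤ Subgroup.normalizer ((cz Q R : Subgroup Γ) : Set Γ) :=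
    fun x hx => Ward.nz_inf (tw.hRQ hx) (Ward.nz_centralizer (Subgroup.le_normalizer hx))
  let S : Subgroup Γ :=
    { carrier := {y | y ∈ Q ∧ y ^ q ∈ cz Q R}
      mul_mem' := by
        rintro y y' ⟨hy, hyq⟩ ⟨hy', hyq'⟩
        refine ⟨Q.mul_mem hy hy', ?_⟩
        obtain ⟨z, hz, e⟩ := l2_pow_mul Q (cz Q R) ha hb y y' hy hy' q
        rw [e]
        exact (cz Q R).mul_mem ((cz Q R).mul_mem hyq hyq') hz
      one_mem' := ⟨Q.one_mem, by rw [one_pow]; exact (cz Q R).one_mem⟩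
      inv_mem' := by
        rintro y ⟨hy, hyq⟩
        exact ⟨Q.inv_mem hy, by rw [inv_pow]; exact (cz Q R).inv_mem hyq⟩ }
  have hSmem : ∀ y, y ∈ S ↔ y ∈ Q ∧ y ^ q ∈ cz Q R := fun y => Iff.rfl
  have hSQ : S ≤ Q := fun y hy => ((hSmem y).mp hy).1
  have hconj : ∀ g : Γ, g ∈ Subgroup.normalizer (Q : Set Γ) →
      g ∈ Subgroup.normalizer ((cz Q R : Subgroup Γ) : Set Γ) →
      ∀ y ∈ S, g * y * g⁻¹ ∈ S := by
    intro g hgQ hgZ y hy
    obtain ⟨hyQ, hyq⟩ := (hSmem y).mp hy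
    refine (hSmem _).mpr ⟨Ward.conj_mem_of_nz hgQ hyQ, ?_⟩
    rw [conj_pow]
    exact Ward.conj_mem_of_nz hgZ hyq
  have hnS : ∀ g : Γ, g ∈ Subgroup.normalizer (Q : Set Γ) →
      g ∈ Subgroup.normalizer ((cz Q R : Subgroup Γ) : Set Γ) →
      g ∈ Subgroup.normalizer ((S : Subgroup Γ) : Set Γ) := by
    intro g hgQ hgZ
    apply Ward.nz_of_conj_mem (hconj g hgQ hgZ)
    intro y hy
    have := hconj g⁻¹ (Subgroup.inv_mem _ hgQ) (Subgroup.inv_mem _ hgZ) y hy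
    simpa using this
  have hc : ∀ y ∈ Q, y ^ q ∈ cz Q R := by
    by_contra hcon
    have hSne : S ≠ Q := by
      intro h
      apply hcon
      intro y hy
      have hy' : y ∈ S := by rw [h]; exact hy
      exact ((hSmem y).mp hy').2
    have hSc := tw.hE3 S hSQ hSne (fun a ha' => hnS a (tw.hAQ ha') (hAZ ha'))
      (fun x hx => hnS x (tw.hRQ hx) (hRZ hx))
    have hSZ : S ≤ cz Q R := fun y hy => mem_cz.mpr ⟨hSQ hy, fun x hx => hSc y hy x hx⟩
    have hZne : cz Q R ≠ Q := by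
      intro h
      apply tw.hQ1
      have h5 : ⁅Q, R⁆ = ⊥ := by
        rw [eq_bot_iff, Subgroup.commutator_le]
        intro y hy x hx
        rw [Subgroup.mem_bot]
        have hy' : y ∈ cz Q R := by rw [h]; exact hy
        exact commutatorElement_eq_one_iff_mul_comm.mpr ((mem_cz.mp hy').2 x hx).symm
      rw [tw.hE5] at h5
      exact h5
    obtain ⟨y, hyQ, hyZ⟩ := SetLike.exists_of_lt (lt_of_le_of_ne hZQ hZne)
    have hex : ∃ k : ℕ, y ^ q ^ k ∈ cz Q R := by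
      obtain ⟨k, hk⟩ := tw.hQq ⟨y, hyQ⟩
      refine ⟨k, ?_⟩
      have h6 : y ^ q ^ k = 1 := by
        have := congrArg Subtype.val hk
        simpa using this
      rw [h6]; exact (cz Q R).one_mem
    classical
    obtain ⟨k, hk, hkmin⟩ : ∃ k, y ^ q ^ k ∈ cz Q R ∧ ∀ m < k, ¬ y ^ q ^ m ∈ cz Q R :=
      ⟨Nat.find hex, Nat.find_spec hex, fun m hm => Nat.find_min hex hm⟩
    rcases Nat.eq_zero_or_pos k with rfl | hkpos
    · apply hyZ; simpa using hk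
    · obtain ⟨m, rfl⟩ : ∃ m, k = m + 1 := ⟨k - 1, by omega⟩
      apply hkmin m (Nat.lt_succ_self m)
      apply hSZ
      refine (hSmem _).mpr ⟨Q.pow_mem hyQ _, ?_⟩
      rw [← pow_mul, ← pow_succ]
      exact hk
  refine ⟨ha, hb, hc, ?_⟩
  intro hab
  have hcop : (Nat.card R).Coprime (Nat.card Q) :=
    IsPGroup.coprime_card_of_ne s q tw.hqs.symm R Q tw.hRs tw.hQq
  have hfix := Ward.comm_fix_trivial Q R hab tw.hRQ hcop tw.hE5.ge
  rw [eq_bot_iff]
  intro z hz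
  rw [Subgroup.mem_bot]
  exact hfix z (mem_cz.mp hz).1 (mem_cz.mp hz).2

end Cfsg.Agent.Lib.Helper17.PQ
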