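import Mathlib
import Cfsg.Agent.Lib.Helper72.S3Defs

/-!
# S4305 piece NMA (helper17, for helper72): the group-theoretic reduction
-/

set_option autoImplicit false
open scoped commutatorElement

universe u

namespace Cfsg.Agent.Lib.Helper17.S3F

open Cfsg.Agent.Lib.Helper72.S3F

theorem nma_comm_pow {G : Type*} [Group G] (x e : G) (h : Commute ⁅x, e⁆ x) (n : ℕ) :
    ⁅x ^ n, e⁆ = ⁅x, e⁆ ^ n := by
  induction n with
  | zero => rw [pow_zero, pow_zero, commutatorElement_one_left]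
  | succ n ih =>
    have e1 : ⁅x ^ (n + 1), e⁆ = x ^ n * ⁅x, e⁆ * (x ^ n)⁻¹ * ⁅x ^ n, e⁆ := by
      simp only [commutatorElement_def, pow_succ]
      group
    have hc : x ^ n * ⁅x, e⁆ = ⁅x, e⁆ * x ^ n := (h.pow_right n).eq.symm
    rw [e1, ih, hc, mul_inv_cancel_right, pow_succ']

theorem nma_comm_mul {G : Type*} [Group G] (x y e : G) (h : Commute ⁅y, e⁆ x) :
    ⁅x * y, e⁆ = ⁅y, e⁆ * ⁅x, e⁆ := by
  have e1 : ⁅x * y, e⁆ = x * ⁅y, e⁆ * x⁻¹ * ⁅x, e⁆ := by
    simp only [commutatorElement_def]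
    group
  rw [e1, h.symm.eq, mul_inv_cancel_right]

theorem nma_pow_mul {G : Type*} [Group G] (x y : G) (hx : Commute ⁅y, x⁆ x)
    (hy : Commute ⁅y, x⁆ y) (n : ℕ) :
    (x * y) ^ n = x ^ n * y ^ n * ⁅y, x⁆ ^ (n * (n - 1) / 2) := by
  obtain ⟨c, hc⟩ : ∃ c, c = ⁅y, x⁆ := ⟨_, rfl⟩
  rw [← hc] at hx hy ⊢
  have hcxy : Commute (x * y) c := (hx.mul_right hy).symm
  have hyx : y * x = x * y * c := by
    rw [hcxy.eq, hc, commutatorElement_def]
    group
  induction n with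
  | zero => simp
  | succ n ih =>
    have hT : (n + 1) * (n + 1 - 1) / 2 = n * (n - 1) / 2 + n := Nat.triangle_succ n
    rw [hT]
    generalize n * (n - 1) / 2 = T at ih ⊢
    have hsemi : (x * y) ^ n * x = x * (y * x) ^ n := by
      have h1 : SemiconjBy x (y * x) (x * y) := by
        unfold SemiconjBy
        group
      exact (h1.pow_right n).eq.symm
    calc (x * y) ^ (n + 1) = (x * y) ^ n * x * y := by rw [pow_succ, mul_assoc]
      _ = x * (x * y * c) ^ n * y := by rw [hsemi, hyx]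
      _ = x * ((x * y) ^ n * c ^ n) * y := by rw [hcxy.mul_pow]
      _ = x * (x ^ n * y ^ n * c ^ T * c ^ n) * y := by rw [ih]
      _ = x ^ (n + 1) * y ^ n * (c ^ (T + n) * y) := by
        rw [pow_succ', pow_add]
        group
      _ = x ^ (n + 1) * y ^ n * (y * c ^ (T + n)) := by rw [(hy.pow_left _).eq]
      _ = x ^ (n + 1) * y ^ (n + 1) * c ^ (T + n) := by
        rw [pow_succ y]
        group

theorem nma_odd_pow {G : Type*} [Group G] (c : G) (r : ℕ) (hodd : r % 2 = 1) (hc : c ^ r = 1) :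
    c ^ (r * (r - 1) / 2) = 1 := by
  obtain ⟨k, hk⟩ : ∃ k, r = 2 * k + 1 := ⟨r / 2, by omega⟩
  have h1 : r * (r - 1) = r * k * 2 := by
    subst hk
    rw [Nat.add_sub_cancel]
    ring
  rw [h1, Nat.mul_div_cancel _ (by norm_num : 0 < 2), pow_mul, hc, one_pow]

theorem nma : NMAStmt.{u} := by
  intro Γ _ H f hfin hsol hf3 hfH hcop hab hne
  have := hfin
  have := hsol
  classical
  let φ : Γ ≃* Γ := MulAut.conj f
  have hφ : ∀ x, φ x = f * x * f⁻¹ := fun x => rfl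
  have hφ3 : ∀ x, φ (φ (φ x)) = x := by
    intro x
    rw [hφ, hφ, hφ]
    have h3 : f * f * f = 1 := by
      rw [← hf3, pow_succ, pow_two]
    calc f * (f * (f * x * f⁻¹) * f⁻¹) * f⁻¹ = (f * f * f) * x * (f * f * f)⁻¹ := by group
      _ = x := by
        rw [h3]
        group
  -- a minimal non-centralised invariant subgroup
  have hex : ∃ n, ∃ E : Subgroup Γ,
      (E ≤ H ∧ (∀ x ∈ E, φ x ∈ E) ∧ ∃ x ∈ E, φ x ≠ x) ∧ Nat.card E = n :=
    ⟨_, H, ⟨le_rfl, hfH, hne⟩, rfl⟩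
  obtain ⟨E, ⟨hEH, hEf, hEne⟩, hEn⟩ := Nat.find_spec hex
  haveI hEfin : Finite E := Finite.of_injective _ (Subgroup.inclusion_injective hEH)
  have hminE : ∀ E₁ : Subgroup Γ, E₁ ≤ E → (∀ x ∈ E₁, φ x ∈ E₁) → E₁ ≠ E →
      ∀ x ∈ E₁, φ x = x := by
    intro E₁ h1 h2 h3 x hx
    by_contra hxne
    have hlt : Nat.card E₁ < Nat.card E := by
      by_contra hge
      exact h3 (Subgroup.eq_of_le_of_card_ge h1 (not_lt.mp hge))
    rw [hEn] at hlt
    exact Nat.find_min hex hlt ⟨E₁, ⟨h1.trans hEH, h2, x, hx, hxne⟩, rfl⟩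
  have hcardE : Nat.card E ∣ Nat.card H := Subgroup.card_dvd_of_le hEH
  have hcopE : (Nat.card E).Coprime 6 := Nat.Coprime.coprime_dvd_left hcardE hcop
  have hEf2 : ∀ x ∈ E, φ (φ x) ∈ E := fun x hx => hEf _ (hEf x hx)
  have hcE : ∀ x ∈ E, ∀ e ∈ E, ⁅x, e⁆ ∈ E := by
    intro x hx e he
    rw [commutatorElement_def]
    exact E.mul_mem (E.mul_mem (E.mul_mem hx he) (E.inv_mem hx)) (E.inv_mem he)
  -- (2) commutators are fixed
  have hcomm_fix : ∀ x ∈ E, ∀ y ∈ E, φ ⁅x, y⁆ = ⁅x, y⁆ := by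
    have h1 : ⁅E, E⁆ ≤ E := Subgroup.commutator_le.mpr (fun g₁ h₁ g₂ h₂ => hcE g₁ h₁ g₂ h₂)
    have h2 : ∀ g ∈ ⁅E, E⁆, φ g ∈ ⁅E, E⁆ := by
      intro g hg
      have hmapE : E.map φ.toMonoidHom ≤ E := by
        rintro _ ⟨x, hx, rfl⟩
        exact hEf x hx
      have h4 : φ g ∈ (⁅E, E⁆).map φ.toMonoidHom := ⟨g, hg, rfl⟩
      rw [Subgroup.map_commutator] at h4
      exact Subgroup.commutator_mono hmapE hmapE h4
    have h3 : ⁅E, E⁆ ≠ E := by
      intro heq
      obtain ⟨x, hx, hxne⟩ := hEne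
      haveI : Nontrivial E := ⟨⟨⟨x, hx⟩, 1, fun h => hxne (by
        have hx1 : x = 1 := congrArg Subtype.val h
        rw [hx1, map_one])⟩⟩
      haveI : Group.IsSolvable E :=
        Group.isSolvable_of_isSolvable_injective (Subgroup.inclusion_injective hEH)
      have hlt := Group.IsSolvable.commutator_lt_top_of_nontrivial E
      apply hlt.ne
      rw [eq_top_iff]
      intro e _
      have he : (e : Γ) ∈ ⁅E, E⁆ := by
        rw [heq]
        exact e.2
      rw [← Subgroup.map_subtype_commutator] at he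
      obtain ⟨c, hc, hce⟩ := he
      have hce' : c = e := Subtype.ext hce
      rw [← hce']
      exact hc
    intro x hx y hy
    exact hminE _ h1 h2 h3 _ (Subgroup.commutator_mem_commutator hx hy)
  -- (3) the trick
  have trick : ∀ x ∈ E, φ (x⁻¹ * φ x) = x⁻¹ * φ x → φ x = x := by
    intro x hx hc
    have hcE' : x⁻¹ * φ x ∈ E := E.mul_mem (E.inv_mem hx) (hEf x hx)
    obtain ⟨c, hcdef⟩ : ∃ c, c = x⁻¹ * φ x := ⟨_, rfl⟩
    rw [← hcdef] at hc hcE'
    have e1 : φ x = x * c := by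
      rw [hcdef]
      group
    have e2 : φ (φ x) = x * c * c := by rw [e1, map_mul, hc, e1]
    have e3 : φ (φ (φ x)) = x * c * c * c := by rw [e2, map_mul, map_mul, hc, e1]
    have e4 := hφ3 x
    rw [e3] at e4
    have hc3 : c ^ 3 = 1 := by
      apply mul_left_cancel (a := x)
      rw [mul_one, pow_succ, pow_two, ← mul_assoc, ← mul_assoc]
      exact e4
    have h1 : orderOf c ∣ 3 := orderOf_dvd_of_pow_eq_one hc3
    have h2 : orderOf c ∣ Nat.card E := E.orderOf_dvd_natCard hcE'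
    have h3 : (Nat.card E).Coprime 3 := Nat.Coprime.coprime_dvd_right (by norm_num) hcopE
    have h4 : orderOf c ∣ 1 := by
      have h5 := Nat.dvd_gcd h2 h1
      rwa [h3.gcd_eq_one] at h5
    have h6 : c = 1 := orderOf_eq_one_iff.mp (Nat.dvd_one.mp h4)
    rw [e1, h6, mul_one]
  -- (4) `[E, f] = E`
  let D : Subgroup Γ := Subgroup.closure {g | ∃ x ∈ E, g = x⁻¹ * φ x}
  have hDE : D ≤ E := (Subgroup.closure_le _).mpr (by
    rintro g ⟨x, hx, rfl⟩
    exact E.mul_mem (E.inv_mem hx) (hEf x hx))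
  have hDf : ∀ g ∈ D, φ g ∈ D := by
    have h1 : D ≤ D.comap φ.toMonoidHom := (Subgroup.closure_le _).mpr (by
      rintro g ⟨x, hx, rfl⟩
      show φ (x⁻¹ * φ x) ∈ D
      rw [map_mul, map_inv]
      exact Subgroup.subset_closure ⟨φ x, hEf x hx, rfl⟩)
    exact fun g hg => h1 hg
  have hDeq : D = E := by
    by_contra hD
    obtain ⟨x, hx, hxne⟩ := hEne
    exact hxne (trick x hx (hminE D hDE hDf hD _ (Subgroup.subset_closure ⟨x, hx, rfl⟩)))
  -- (5) fixed elements are central in `E`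
  have hcen : ∀ c ∈ E, φ c = c → ∀ x ∈ E, x * c = c * x := by
    intro c hc hfc
    have h0 : D ≤ Subgroup.centralizer {c} := (Subgroup.closure_le _).mpr (by
      rintro g ⟨x, hx, rfl⟩
      rw [SetLike.mem_coe, Subgroup.mem_centralizer_iff]
      intro h hh
      rw [Set.mem_singleton_iff] at hh
      subst hh
      have h1 := hcomm_fix x hx h hc
      rw [map_commutatorElement, hfc, commutatorElement_def, commutatorElement_def] at h1
      have h2 : φ x * h * (φ x)⁻¹ = x * h * x⁻¹ := mul_right_cancel h1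
      calc h * (x⁻¹ * φ x) = x⁻¹ * (x * h * x⁻¹) * φ x := by group
        _ = x⁻¹ * (φ x * h * (φ x)⁻¹) * φ x := by rw [h2]
        _ = x⁻¹ * φ x * h := by group)
    intro x hx
    have hxD : x ∈ D := by
      rw [hDeq]
      exact hx
    exact (Subgroup.mem_centralizer_iff.mp (h0 hxD) c rfl).symm
  have hcc : ∀ x ∈ E, ∀ e ∈ E, ∀ g ∈ E, Commute ⁅x, e⁆ g := by
    intro x hx e he g hg
    exact (hcen ⁅x, e⁆ (hcE x hx e he) (hcomm_fix x hx e he) g hg).symm
  -- (6) central elements of `E` are fixed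
  have hZ3 : ∀ x ∈ E, (∀ y ∈ E, x * y = y * x) → φ x = x := by
    let ZE : Subgroup Γ := E ⊓ Subgroup.centralizer (E : Set Γ)
    have h1 : ZE ≤ H := inf_le_left.trans hEH
    have h2 : ∀ x ∈ ZE, ∀ y ∈ ZE, x * y = y * x := by
      intro x hx y hy
      exact Subgroup.mem_centralizer_iff.mp (Subgroup.mem_inf.mp hy).2 x (Subgroup.mem_inf.mp hx).1
    have h3 : ∀ x ∈ ZE, φ x ∈ ZE := by
      intro x hx
      obtain ⟨hxE, hxC⟩ := Subgroup.mem_inf.mp hx
      apply Subgroup.mem_inf.mpr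
      refine ⟨hEf x hxE, ?_⟩
      rw [Subgroup.mem_centralizer_iff]
      intro h hh
      have hh' : φ (φ h) ∈ E := hEf2 h hh
      have e := Subgroup.mem_centralizer_iff.mp hxC _ hh'
      have e2 := congrArg φ e
      rw [map_mul, map_mul, hφ3] at e2
      exact e2
    intro x hx hxc
    exact hab ZE h1 h2 h3 x
      (Subgroup.mem_inf.mpr ⟨hx, Subgroup.mem_centralizer_iff.mpr (fun h hh => (hxc h hh).symm)⟩)
  -- (7) the prime `r`
  obtain ⟨x₁, hx₁, hx₁ne⟩ := hEne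
  have hn_ex : ∃ n, 0 < n ∧ φ (x₁ ^ n) = x₁ ^ n := by
    refine ⟨Nat.card E, Nat.card_pos, ?_⟩
    have h1 : (⟨x₁, hx₁⟩ : E) ^ Nat.card E = 1 := pow_card_eq_one'
    have h2 : x₁ ^ Nat.card E = 1 := by
      have h3 : ((⟨x₁, hx₁⟩ : E) : Γ) ^ Nat.card E = 1 := by
        rw [← Subgroup.coe_pow, h1, Subgroup.coe_one]
      exact h3
    rw [h2, map_one]
  obtain ⟨hnpos, hnfix⟩ := Nat.find_spec hn_ex
  have hnmin : ∀ m, m < Nat.find hn_ex → ¬ (0 < m ∧ φ (x₁ ^ m) = x₁ ^ m) :=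
    fun m hm => Nat.find_min hn_ex hm
  obtain ⟨n, hn⟩ : ∃ n, n = Nat.find hn_ex := ⟨_, rfl⟩
  rw [← hn] at hnpos hnfix hnmin
  have hn1 : n ≠ 1 := by
    intro h1
    rw [h1, pow_one] at hnfix
    exact hx₁ne hnfix
  have hr : (n.minFac).Prime := Nat.minFac_prime hn1
  obtain ⟨r, hrdef⟩ : ∃ r, r = n.minFac := ⟨_, rfl⟩
  rw [← hrdef] at hr
  obtain ⟨m, hm⟩ : r ∣ n := by
    rw [hrdef]
    exact Nat.minFac_dvd n
  have hmpos : 0 < m := by
    rcases Nat.eq_zero_or_pos m with h0 | h0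
    · rw [h0, mul_zero] at hm
      omega
    · exact h0
  have hmlt : m < n := by
    have h2 := hr.two_le
    nlinarith
  have hx₂E : x₁ ^ m ∈ E := E.pow_mem hx₁ m
  have hx₂ne : φ (x₁ ^ m) ≠ x₁ ^ m := fun h => hnmin m hmlt ⟨hmpos, h⟩
  have hx₂r : (x₁ ^ m) ^ r = x₁ ^ n := by rw [← pow_mul, mul_comm, ← hm]
  have hx₂rfix : φ ((x₁ ^ m) ^ r) = (x₁ ^ m) ^ r := by
    rw [hx₂r]
    exact hnfix
  have hrH : r ∣ Nat.card H := by
    have h1 : r ∣ orderOf (x₁ ^ m) := by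
      by_contra hnd
      have hcop' : r.Coprime (orderOf (x₁ ^ m)) := (Nat.Prime.coprime_iff_not_dvd hr).mpr hnd
      obtain ⟨k, hk⟩ := exists_pow_eq_self_of_coprime hcop'
      apply hx₂ne
      rw [← hk, map_pow, hx₂rfix]
    exact h1.trans ((E.orderOf_dvd_natCard hx₂E).trans hcardE)
  have hodd : r % 2 = 1 := by
    rcases hr.eq_two_or_odd with h2 | h2
    · exfalso
      have h3 : 2 ∣ Nat.gcd (Nat.card H) 6 := Nat.dvd_gcd (h2 ▸ hrH) (by norm_num)
      rw [hcop.gcd_eq_one] at h3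
      omega
    · exact h2
  -- the subgroup `E_r`
  let Er : Subgroup Γ :=
    { carrier := {x | x ∈ E ∧ ∀ e ∈ E, ⁅x, e⁆ ^ r = 1}
      one_mem' := ⟨E.one_mem, fun e _ => by rw [commutatorElement_one_left, one_pow]⟩
      mul_mem' := by
        rintro x y ⟨hx, hx'⟩ ⟨hy, hy'⟩
        refine ⟨E.mul_mem hx hy, fun e he => ?_⟩
        rw [nma_comm_mul x y e (hcc y hy e he x hx),
          (hcc y hy e he _ (hcE x hx e he)).mul_pow, hx' e he, hy' e he, one_mul]
      inv_mem' := by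
        rintro x ⟨hx, hx'⟩
        refine ⟨E.inv_mem hx, fun e he => ?_⟩
        have h1 := nma_comm_mul x⁻¹ x e (hcc x hx e he x⁻¹ (E.inv_mem hx))
        rw [inv_mul_cancel, commutatorElement_one_left] at h1
        have h2 : ⁅x⁻¹, e⁆ = ⁅x, e⁆⁻¹ := eq_inv_of_mul_eq_one_right h1.symm
        rw [h2, inv_pow, hx' e he, inv_one] }
  have hErE : Er ≤ E := fun x hx => hx.1
  have hErf : ∀ x ∈ Er, φ x ∈ Er := by
    rintro x ⟨hx, hx'⟩
    refine ⟨hEf x hx, fun e he => ?_⟩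
    have he' : φ (φ (φ e)) = e := hφ3 e
    rw [← he', ← map_commutatorElement, ← map_pow, hx' _ (hEf2 e he), map_one]
  have hx₂Er : x₁ ^ m ∈ Er := by
    refine ⟨hx₂E, fun e he => ?_⟩
    rw [← nma_comm_pow _ _ (hcc _ hx₂E e he _ hx₂E), commutatorElement_eq_one_iff_commute]
    exact (hcen _ (E.pow_mem hx₂E r) hx₂rfix e he).symm
  have hErEq : Er = E := by
    by_contra h
    exact hx₂ne (hminE Er hErE hErf h _ hx₂Er)
  have h8 : ∀ x ∈ E, ∀ e ∈ E, ⁅x, e⁆ ^ r = 1 := by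
    intro x hx e he
    have hxEr : x ∈ Er := by
      rw [hErEq]
      exact hx
    exact hxEr.2 e he
  -- (9) `y = x₁⁻¹ * φ x₁` has order `r`
  have hx₁r : φ (x₁ ^ r) = x₁ ^ r := by
    apply hZ3 _ (E.pow_mem hx₁ r)
    intro e he
    have h1 : ⁅x₁ ^ r, e⁆ = 1 := by
      rw [nma_comm_pow _ _ (hcc _ hx₁ e he _ hx₁), h8 x₁ hx₁ e he]
    exact commutatorElement_eq_one_iff_commute.mp h1
  have hφx₁ : φ x₁ ∈ E := hEf x₁ hx₁
  have hyE : x₁⁻¹ * φ x₁ ∈ E := E.mul_mem (E.inv_mem hx₁) hφx₁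
  have hyr : (x₁⁻¹ * φ x₁) ^ r = 1 := by
    rw [nma_pow_mul x₁⁻¹ (φ x₁) (hcc _ hφx₁ _ (E.inv_mem hx₁) _ (E.inv_mem hx₁))
      (hcc _ hφx₁ _ (E.inv_mem hx₁) _ hφx₁) r,
      nma_odd_pow _ r hodd (h8 _ hφx₁ _ (E.inv_mem hx₁)), mul_one, inv_pow, ← map_pow, hx₁r,
      inv_mul_cancel]
  obtain ⟨y, hydef⟩ : ∃ y, y = x₁⁻¹ * φ x₁ := ⟨_, rfl⟩
  rw [← hydef] at hyE hyr
  have hy₁E : φ y ∈ E := hEf y hyE
  have ht : y * φ y * φ (φ y) = 1 := by
    rw [hydef]
    simp only [map_mul, map_inv, hφ3]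
    group
  have hyne : φ y ≠ y := by
    intro h
    apply hx₁ne
    apply trick x₁ hx₁
    rw [← hydef]
    exact h
  have hzne : ⁅y, φ y⁆ ≠ 1 := by
    intro hz1
    have hyy : y * φ y = φ y * y := commutatorElement_eq_one_iff_commute.mp hz1
    let R : Subgroup Γ := Subgroup.closure {y, φ y}
    have hRH : R ≤ H := (Subgroup.closure_le _).mpr (by
      rintro g (rfl | rfl)
      · exact hEH hyE
      · exact hEH hy₁E)
    have h1 : R ≤ Subgroup.centralizer ({y, φ y} : Set Γ) := (Subgroup.closure_le _).mpr (by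
      rintro g hg
      rw [SetLike.mem_coe, Subgroup.mem_centralizer_iff]
      rintro h hh
      rcases hg with rfl | rfl <;> rcases hh with rfl | rfl
      · rfl
      · exact hyy.symm
      · exact hyy
      · rfl)
    have h2 : R ≤ Subgroup.centralizer (R : Set Γ) := (Subgroup.closure_le _).mpr (by
      rintro g hg
      rw [SetLike.mem_coe, Subgroup.mem_centralizer_iff]
      intro h hh
      exact (Subgroup.mem_centralizer_iff.mp (h1 hh) g hg).symm)
    have hRc : ∀ a ∈ R, ∀ b ∈ R, a * b = b * a := by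
      intro a ha b hb
      exact Subgroup.mem_centralizer_iff.mp (h2 hb) a ha
    have hRf : ∀ g ∈ R, φ g ∈ R := by
      have h3 : R ≤ R.comap φ.toMonoidHom := (Subgroup.closure_le _).mpr (by
        rintro g (rfl | rfl)
        · show φ g ∈ R
          exact Subgroup.subset_closure (Or.inr rfl)
        · show φ (φ y) ∈ R
          have h4 : φ (φ y) = (y * φ y)⁻¹ := eq_inv_of_mul_eq_one_right ht
          rw [h4]
          exact R.inv_mem (R.mul_mem (Subgroup.subset_closure (Or.inl rfl))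
            (Subgroup.subset_closure (Or.inr rfl))))
      exact fun g hg => h3 hg
    exact hyne (hab R hRH hRc hRf y (Subgroup.subset_closure (Or.inl rfl)))
  refine ⟨r, y, hr, hrH, hEH hyE, hyr, ?_, ?_, ?_, ?_, ?_, ?_⟩
  · exact hzne
  · exact h8 y hyE _ hy₁E
  · exact (hcc y hyE _ hy₁E y hyE).eq
  · exact (hcc y hyE _ hy₁E _ hy₁E).eq
  · exact hcomm_fix y hyE _ hy₁E
  · have e : f ^ 2 * y * (f ^ 2)⁻¹ = φ (φ y) := by
      rw [hφ, hφ, pow_two]
      group
    rw [e]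
    exact ht

end Cfsg.Agent.Lib.Helper17.S3F
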