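import Mathlib

set_option autoImplicit false

namespace Cfsg.Agent.Lib.Helper30.S4501.C2b

/-- core: abstract version with `P` a subgroup `{1, x, x⁻¹}` that contains everything commuting
with `x`, and `τ` inverting `x`. -/
theorem core {G : Type*} [Group G] (x τ : G) (hx3 : x ^ 3 = 1) (hx1 : x ≠ 1)
    (hcent : ∀ g : G, g * x = x * g → g = 1 ∨ g = x ∨ g = x⁻¹)
    (hτ2 : τ * τ = 1) (hτx : τ * x * τ⁻¹ = x⁻¹) :
    Nat.card {p : G × G // IsConj τ p.1 ∧ IsConj τ p.2 ∧ p.1 * p.2 = x} = 3 ∧
      ∀ t : G, orderOf t = 2 →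
        (∃ p : G × G, IsConj τ p.1 ∧ IsConj t p.2 ∧ p.1 * p.2 = x) → IsConj τ t := by
  have hτinv : τ⁻¹ = τ := inv_eq_of_mul_eq_one_right hτ2
  have hxx : x * x = x⁻¹ := by
    apply eq_inv_of_mul_eq_one_left
    rw [← hx3, pow_succ, pow_two]
  have hxixi : x⁻¹ * x⁻¹ = x := by
    have : x⁻¹ * x⁻¹ = (x * x)⁻¹ := by group
    rw [this, hxx, inv_inv]
  -- τ x = x⁻¹ τ, τ x⁻¹ = x τ
  have h1 : τ * x = x⁻¹ * τ := by
    have := hτx
    rw [mul_inv_eq_iff_eq_mul] at this
    exact this
  have h2 : τ * x⁻¹ = x * τ := by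
    have : x * τ * x = τ := by rw [mul_assoc, h1, ← mul_assoc, mul_inv_cancel, one_mul]
    calc τ * x⁻¹ = (x * τ * x) * x⁻¹ := by rw [this]
      _ = x * τ := by group
  have hxne : x ≠ x⁻¹ := by
    intro h
    apply hx1
    have : x * x * x = 1 := by rw [← hx3, pow_succ, pow_two]
    rw [hxx, ← h, hxx] at this
    -- this : x⁻¹ = 1
    exact inv_eq_one.mp this
  -- conjugates of τ
  have c1 : IsConj τ (τ * x) := by
    rw [isConj_iff]
    refine ⟨x, ?_⟩
    rw [← h2, mul_assoc, hxixi]
  have c2 : IsConj τ (τ * x⁻¹) := by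
    rw [isConj_iff]
    refine ⟨x⁻¹, ?_⟩
    rw [inv_inv, ← h1, mul_assoc, hxx]
  -- inverting elements are conjugate to τ, of the form τ, τ x, τ x⁻¹
  have hform : ∀ n : G, n * x * n⁻¹ = x⁻¹ → n = τ ∨ n = τ * x ∨ n = τ * x⁻¹ := by
    intro n hn
    have hn1 : n * x = x⁻¹ * n := by
      rw [mul_inv_eq_iff_eq_mul] at hn
      exact hn
    have hc : (τ * n) * x = x * (τ * n) := by
      rw [mul_assoc, hn1, ← mul_assoc, h2, mul_assoc]
    have hn' : n = τ * (τ * n) := by rw [← mul_assoc, hτ2, one_mul]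
    rcases hcent _ hc with h | h | h
    · left; rw [hn', h, mul_one]
    · right; left; rw [hn', h]
    · right; right; rw [hn', h]
  have hconj : ∀ n : G, n * x * n⁻¹ = x⁻¹ → IsConj τ n := by
    intro n hn
    rcases hform n hn with h | h | h
    · rw [h]
    · rw [h]; exact c1
    · rw [h]; exact c2
  -- involutions with product x invert x
  have hinvol : ∀ t₁ t₂ : G, t₁ * t₁ = 1 → t₂ * t₂ = 1 → t₁ * t₂ = x →
      t₁ * x * t₁⁻¹ = x⁻¹ ∧ t₂ * x * t₂⁻¹ = x⁻¹ := by
    intro t₁ t₂ h1 h2 h12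
    have e1 : t₁⁻¹ = t₁ := inv_eq_of_mul_eq_one_right h1
    have e2 : t₂⁻¹ = t₂ := inv_eq_of_mul_eq_one_right h2
    have ex : x⁻¹ = t₂ * t₁ := by rw [← h12, mul_inv_rev, e1, e2]
    constructor
    · rw [e1, ex, ← h12, ← mul_assoc, h1, one_mul]
    · rw [e2, ex, ← h12, mul_assoc, mul_assoc, h2, mul_one]
  have hsq : ∀ t : G, IsConj τ t → t * t = 1 := by
    intro t ht
    rw [isConj_iff] at ht
    obtain ⟨c, rfl⟩ := ht
    have : c * τ * c⁻¹ * (c * τ * c⁻¹) = c * (τ * τ) * c⁻¹ := by group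
    rw [this, hτ2, mul_one, mul_inv_cancel]
  refine ⟨?_, ?_⟩
  · change Nat.card ↥({p : G × G | IsConj τ p.1 ∧ IsConj τ p.2 ∧ p.1 * p.2 = x}) = 3
    rw [Nat.card_coe_set_eq, Set.ncard_eq_three]
    refine ⟨(τ, τ * x), (τ * x, τ * x⁻¹), (τ * x⁻¹, τ), ?_, ?_, ?_, ?_⟩
    · intro h
      have := congrArg Prod.fst h
      simp only at this
      exact hx1 (by simpa using this.symm)
    · intro h
      have := congrArg Prod.fst h
      simp only at this
      exact hx1 (by simpa using this.symm)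
    · intro h
      have := congrArg Prod.fst h
      simp only at this
      exact hxne (mul_left_cancel this)
    · ext p
      simp only [Set.mem_setOf_eq, Set.mem_insert_iff, Set.mem_singleton_iff]
      constructor
      · rintro ⟨hp1, hp2, hp⟩
        have s1 := hsq _ hp1
        have s2 := hsq _ hp2
        have hi := (hinvol _ _ s1 s2 hp).1
        have e1 : p.1⁻¹ = p.1 := inv_eq_of_mul_eq_one_right s1
        have hp2' : p.2 = p.1 * x := by
          rw [← hp, ← mul_assoc, s1, one_mul]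
        rcases hform _ hi with h | h | h
        · left
          ext
          · exact h
          · rw [hp2', h]
        · right; left
          ext
          · exact h
          · rw [hp2', h, mul_assoc, hxx]
        · right; right
          ext
          · exact h
          · rw [hp2', h, mul_assoc, inv_mul_cancel, mul_one]
      · rintro (rfl | rfl | rfl)
        · refine ⟨IsConj.refl _, c1, ?_⟩
          rw [← mul_assoc, hτ2, one_mul]
        · refine ⟨c1, c2, ?_⟩
          show τ * x * (τ * x⁻¹) = x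
          rw [mul_assoc, ← mul_assoc x, ← h2, mul_assoc, hxixi, ← mul_assoc, hτ2, one_mul]
        · refine ⟨c2, IsConj.refl _, ?_⟩
          show τ * x⁻¹ * τ = x
          rw [h2, mul_assoc, hτ2, mul_one]
  · rintro t ht ⟨p, hp1, hp2, hp⟩
    have s1 := hsq _ hp1
    have s2 : p.2 * p.2 = 1 := by
      rw [isConj_iff] at hp2
      obtain ⟨c, hc⟩ := hp2
      have ht2 : t * t = 1 := by
        have := pow_orderOf_eq_one t
        rw [ht, pow_two] at this
        exact this
      rw [← hc]
      have : c * t * c⁻¹ * (c * t * c⁻¹) = c * (t * t) * c⁻¹ := by group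
      rw [this, ht2, mul_one, mul_inv_cancel]
    have hi := (hinvol _ _ s1 s2 hp).2
    exact (hconj _ hi).trans hp2.symm

theorem involution_pairs {G : Type*} [Group G] [Finite G] (P : Sylow 3 G) (hP : Nat.card P = 3)
    (hC : Subgroup.centralizer ((P : Subgroup G) : Set G) = (P : Subgroup G))
    (hN : (Subgroup.centralizer ((P : Subgroup G) : Set G)).relIndex
      (Subgroup.normalizer ((P : Subgroup G) : Set G)) = 2)
    (x : G) (hx : x ∈ (P : Subgroup G)) (hx1 : x ≠ 1) :
    ∃ τ : G, orderOf τ = 2 ∧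
      Nat.card {p : G × G // IsConj τ p.1 ∧ IsConj τ p.2 ∧ p.1 * p.2 = x} = 3 ∧
      ∀ t : G, orderOf t = 2 →
        (∃ p : G × G, IsConj τ p.1 ∧ IsConj t p.2 ∧ p.1 * p.2 = x) → IsConj τ t := by
  have hx3o : orderOf x = 3 := by
    have hd : orderOf x ∣ 3 := by
      rw [← hP]; exact Subgroup.orderOf_dvd_natCard _ hx
    rcases (Nat.prime_three.eq_one_or_self_of_dvd _ hd) with h | h
    · exact absurd (orderOf_eq_one_iff.mp h) hx1
    · exact h
  have hx3 : x ^ 3 = 1 := by rw [← hx3o]; exact pow_orderOf_eq_one x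
  have hxx : x * x = x⁻¹ := by
    apply eq_inv_of_mul_eq_one_left
    rw [← hx3, pow_succ, pow_two]
  -- P = zpowers x
  have hPz : Subgroup.zpowers x = (P : Subgroup G) := by
    apply Subgroup.eq_of_le_of_card_ge
    · rw [Subgroup.zpowers_le]; exact hx
    · rw [Nat.card_zpowers, hx3o]; exact hP.le
  have hPx : ∀ y ∈ (P : Subgroup G), y = 1 ∨ y = x ∨ y = x⁻¹ := by
    intro y hy
    rw [← hPz] at hy
    obtain ⟨k, rfl⟩ := Subgroup.mem_zpowers_iff.mp hy
    have h3 : x ^ (3 : ℤ) = 1 := by exact_mod_cast hx3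
    have hk : x ^ k = x ^ (k % 3) := by
      conv_lhs => rw [← Int.emod_add_mul_ediv k 3]
      rw [zpow_add, zpow_mul, h3, one_zpow, mul_one]
    have hk3 : k % 3 = 0 ∨ k % 3 = 1 ∨ k % 3 = 2 := by omega
    rcases hk3 with h | h | h <;> rw [hk, h]
    · left; simp
    · right; left; simp
    · right; right
      rw [← hxx]; exact zpow_two x
  have hcent : ∀ g : G, g * x = x * g → g = 1 ∨ g = x ∨ g = x⁻¹ := by
    intro g hg
    apply hPx
    rw [← hC, Subgroup.mem_centralizer_iff]
    intro y hy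
    rcases hPx y hy with rfl | rfl | rfl
    · simp
    · exact hg.symm
    · rw [inv_mul_eq_iff_eq_mul, ← mul_assoc, ← hg, mul_assoc, mul_inv_cancel, mul_one]
  -- τ
  have hne : ¬ Subgroup.normalizer ((P : Subgroup G) : Set G)
      ≤ Subgroup.centralizer ((P : Subgroup G) : Set G) := by
    intro hle
    have := Subgroup.relIndex_eq_one.mpr hle
    rw [hN] at this
    exact absurd this (by norm_num)
  obtain ⟨τ, hτN, hτC⟩ := SetLike.not_le_iff_exists.mp hne
  rw [hC] at hτC
  have hτx : τ * x * τ⁻¹ = x⁻¹ := by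
    have hmem : τ * x * τ⁻¹ ∈ (P : Subgroup G) :=
      (Subgroup.mem_normalizer_iff.mp hτN x).mp hx
    rcases hPx _ hmem with h | h | h
    · exfalso; apply hx1
      have : x = τ⁻¹ * (τ * x * τ⁻¹) * τ := by group
      rw [this, h]; group
    · exfalso; apply hτC
      have hc : τ * x = x * τ := by
        rw [mul_inv_eq_iff_eq_mul] at h; exact h
      rcases hcent τ hc with h' | h' | h'
      · rw [h']; exact one_mem _
      · rw [h']; exact hx
      · rw [h']; exact inv_mem hx
    · exact h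
  have h1 : τ * x = x⁻¹ * τ := by
    have := hτx
    rw [mul_inv_eq_iff_eq_mul] at this
    exact this
  have hτ2 : τ * τ = 1 := by
    have hc : (τ * τ) * x = x * (τ * τ) := by
      rw [mul_assoc, h1, ← mul_assoc]
      have h2 : τ * x⁻¹ = x * τ := by
        have : x * τ * x = τ := by rw [mul_assoc, h1, ← mul_assoc, mul_inv_cancel, one_mul]
        calc τ * x⁻¹ = (x * τ * x) * x⁻¹ := by rw [this]
          _ = x * τ := by group
      rw [h2, mul_assoc]
    rcases hcent _ hc with h | h | h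
    · exact h
    · exfalso; apply hτC
      have hc' : τ * x = x * τ := by rw [← h, mul_assoc]
      rcases hcent τ hc' with h' | h' | h'
      · rw [h']; exact one_mem _
      · rw [h']; exact hx
      · rw [h']; exact inv_mem hx
    · exfalso; apply hτC
      have hc' : τ * x = x * τ := by
        have e : x = (τ * τ)⁻¹ := by rw [h, inv_inv]
        rw [e]; group
      rcases hcent τ hc' with h' | h' | h'
      · rw [h']; exact one_mem _
      · rw [h']; exact hx
      · rw [h']; exact inv_mem hx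
  have hτ1 : τ ≠ 1 := by
    intro h; apply hτC; rw [h]; exact one_mem _
  have hτo : orderOf τ = 2 := by
    haveI : Fact (Nat.Prime 2) := ⟨Nat.prime_two⟩
    exact orderOf_eq_prime (by rw [pow_two]; exact hτ2) hτ1
  exact ⟨τ, hτo, core x τ hx3 hx1 hcent hτ2 hτx⟩

end Cfsg.Agent.Lib.Helper30.S4501.C2b
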