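import Mathlib

set_option autoImplicit false

namespace Cfsg.Agent.Lib.Helper30.S4501.C9

theorem card_centralizer_conj {G : Type*} [Group G] (τ c : G) :
    Nat.card (Subgroup.centralizer ({c * τ * c⁻¹} : Set G))
      = Nat.card (Subgroup.centralizer ({τ} : Set G)) := by
  refine Nat.card_congr
    { toFun := fun g => ⟨c⁻¹ * g.1 * c, ?_⟩
      invFun := fun g => ⟨c * g.1 * c⁻¹, ?_⟩
      left_inv := fun g => by ext; simp [mul_assoc]
      right_inv := fun g => by ext; simp [mul_assoc] }
  · have hg := g.2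
    rw [Subgroup.mem_centralizer_iff] at hg ⊢
    intro h hh
    rw [Set.mem_singleton_iff] at hh
    subst hh
    have := hg (c * h * c⁻¹) rfl
    calc h * (c⁻¹ * g.1 * c) = c⁻¹ * ((c * h * c⁻¹) * g.1) * c := by group
      _ = c⁻¹ * (g.1 * (c * h * c⁻¹)) * c := by rw [this]
      _ = c⁻¹ * g.1 * c * h := by group
  · have hg := g.2
    rw [Subgroup.mem_centralizer_iff] at hg ⊢
    intro h hh
    rw [Set.mem_singleton_iff] at hh
    subst hh
    have := hg τ rfl
    calc c * τ * c⁻¹ * (c * g.1 * c⁻¹) = c * (τ * g.1) * c⁻¹ := by group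
      _ = c * (g.1 * τ) * c⁻¹ := by rw [this]
      _ = c * g.1 * c⁻¹ * (c * τ * c⁻¹) := by group

theorem centralizer_involution {G : Type*} [Group G] [Finite G] (p a b : ℕ) (hp : p.Prime)
    (hp5 : 5 ≤ p) (hG : Nat.card G = 3 * p ^ a * 2 ^ b)
    (hS : ∀ S : Sylow 3 G, Nat.card S = 3 ∧
      Subgroup.centralizer ((S : Subgroup G) : Set G) = (S : Subgroup G))
    (τ : G) (hτ : orderOf τ = 2) (hone : ∀ t : G, orderOf t = 2 → IsConj τ t) :
    ∃ j : ℕ, j ≤ a ∧ Nat.card (Subgroup.centralizer ({τ} : Set G)) = 2 ^ b * p ^ j := by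
  classical
  have hcdvd : Nat.card (Subgroup.centralizer ({τ} : Set G)) ∣ 3 * p ^ a * 2 ^ b :=
    hG ▸ Subgroup.card_subgroup_dvd_card _
  -- (1)
  have h3 : ¬ 3 ∣ Nat.card (Subgroup.centralizer ({τ} : Set G)) := by
    intro h3
    haveI : Fact (Nat.Prime 3) := ⟨Nat.prime_three⟩
    obtain ⟨g, hg⟩ := exists_prime_orderOf_dvd_card' 3 h3
    have hg3 : orderOf (g : G) = 3 := by rw [Subgroup.orderOf_coe]; exact hg
    have hpg : IsPGroup 3 (Subgroup.zpowers (g : G)) := by
      apply IsPGroup.of_card (n := 1)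
      rw [Nat.card_zpowers, hg3, pow_one]
    obtain ⟨S, hS'⟩ := hpg.exists_le_sylow
    obtain ⟨hS3, hSC⟩ := hS S
    have hzS : Subgroup.zpowers (g : G) = (S : Subgroup G) := by
      apply Subgroup.eq_of_le_of_card_ge hS'
      rw [Nat.card_zpowers, hg3, hS3]
    have hτS : τ ∈ (S : Subgroup G) := by
      rw [← hSC, ← hzS, Subgroup.mem_centralizer_iff]
      intro y hy
      obtain ⟨k, rfl⟩ := Subgroup.mem_zpowers_iff.mp hy
      have hcomm : Commute τ (g : G) := by
        have := g.2
        rw [Subgroup.mem_centralizer_iff] at this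
        exact this τ rfl
      exact (hcomm.zpow_right k).eq.symm
    have : orderOf τ ∣ 3 := by rw [← hS3]; exact Subgroup.orderOf_dvd_natCard _ hτS
    rw [hτ] at this
    exact absurd this (by decide)
  -- (2)
  have h2 : 2 ^ b ∣ Nat.card (Subgroup.centralizer ({τ} : Set G)) := by
    haveI : Fact (Nat.Prime 2) := ⟨Nat.prime_two⟩
    obtain ⟨T⟩ : Nonempty (Sylow 2 G) := inferInstance
    have hT : 2 ^ b ∣ Nat.card T :=
      T.pow_dvd_card_of_pow_dvd_card (by rw [hG]; exact Dvd.intro_left _ rfl)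
    rcases Nat.eq_zero_or_pos b with hb | hb
    · rw [hb, pow_zero]; exact one_dvd _
    · have hTnt : Nontrivial T := by
        rw [← Finite.one_lt_card_iff_nontrivial]
        have h1 : 2 ^ b ≤ Nat.card T := Nat.le_of_dvd Nat.card_pos hT
        have h2 : 2 ^ 1 ≤ 2 ^ b := Nat.pow_le_pow_right (by norm_num) hb
        omega
      have hTp : IsPGroup 2 T := T.isPGroup'
      have hcnt : Nontrivial (Subgroup.center T) := hTp.center_nontrivial
      have hcp : IsPGroup 2 (Subgroup.center T) := hTp.to_subgroup _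
      have h2c : 2 ∣ Nat.card (Subgroup.center T) := by
        obtain ⟨k, hk⟩ := IsPGroup.iff_card.mp hcp
        have h1 : 1 < Nat.card (Subgroup.center T) := Finite.one_lt_card
        rw [hk] at h1 ⊢
        exact dvd_pow_self 2 (by rintro rfl; simp at h1)
      obtain ⟨z, hz⟩ := exists_prime_orderOf_dvd_card' 2 h2c
      have hz2 : orderOf ((z : T) : G) = 2 := by
        rw [Subgroup.orderOf_coe, Subgroup.orderOf_coe]; exact hz
      have hTle : (T : Subgroup G) ≤ Subgroup.centralizer ({((z : T) : G)} : Set G) := by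
        intro y hy
        rw [Subgroup.mem_centralizer_iff]
        intro h hh
        rw [Set.mem_singleton_iff] at hh
        subst hh
        have := Subgroup.mem_center_iff.mp z.2 ⟨y, hy⟩
        exact (congrArg Subtype.val this).symm
      obtain ⟨c, hc⟩ := isConj_iff.mp (hone _ hz2)
      have hcard : Nat.card (Subgroup.centralizer ({((z : T) : G)} : Set G))
          = Nat.card (Subgroup.centralizer ({τ} : Set G)) := by
        rw [← hc]; exact card_centralizer_conj τ c
      rw [← hcard]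
      exact hT.trans (Subgroup.card_dvd_of_le hTle)
  -- (3)
  have hcop : Nat.Coprime (Nat.card (Subgroup.centralizer ({τ} : Set G))) 3 :=
    ((Nat.Prime.coprime_iff_not_dvd Nat.prime_three).mpr h3).symm
  have hd : Nat.card (Subgroup.centralizer ({τ} : Set G)) ∣ p ^ a * 2 ^ b := by
    rw [mul_assoc] at hcdvd
    exact hcop.dvd_of_dvd_mul_left hcdvd
  obtain ⟨m, hm⟩ := h2
  have hm' : m ∣ p ^ a := by
    rw [hm, mul_comm (p ^ a)] at hd
    exact Nat.dvd_of_mul_dvd_mul_left (by positivity) hd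
  obtain ⟨j, hj, rfl⟩ := (Nat.dvd_prime_pow hp).mp hm'
  exact ⟨j, hj, hm⟩

end Cfsg.Agent.Lib.Helper30.S4501.C9
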