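import Mathlib
import Cfsg.Prelude.Def_ClassicalGeometry

/-!
# S6002 piece SM-TV (helper17, for helper98): an explicit symplectic transvection in `spGL 2 F`
-/

set_option autoImplicit false

namespace Cfsg.Agent.Lib.Helper98.SM

open Matrix Polynomial

/-- the nilpotent matrix `E(inl 0, inr 0)` -/
def smtvN (F : Type*) [Field F] : Matrix (Fin 2 ⊕ Fin 2) (Fin 2 ⊕ Fin 2) F :=
  Matrix.single (Sum.inl 0) (Sum.inr 0) 1

theorem smtvN_sq (F : Type*) [Field F] : smtvN F * smtvN F = 0 := by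
  unfold smtvN
  apply Matrix.single_mul_single_of_ne
  exact Sum.inr_ne_inl

/-- the transvection `1 + E(inl 0, inr 0)` -/
def smtvX (F : Type*) [Field F] : GL (Fin 2 ⊕ Fin 2) F where
  val := 1 + smtvN F
  inv := 1 - smtvN F
  val_inv := by
    rw [add_mul, mul_sub, mul_sub, smtvN_sq]
    simp
  inv_val := by
    rw [sub_mul, mul_add, mul_add, smtvN_sq]
    simp

theorem smtvX_val (F : Type*) [Field F] :
    ((smtvX F : GL (Fin 2 ⊕ Fin 2) F) : Matrix (Fin 2 ⊕ Fin 2) (Fin 2 ⊕ Fin 2) F)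
      = 1 + smtvN F := rfl

theorem smtvX_sub (F : Type*) [Field F] :
    ((smtvX F : GL (Fin 2 ⊕ Fin 2) F) : Matrix (Fin 2 ⊕ Fin 2) (Fin 2 ⊕ Fin 2) F) - 1
      = smtvN F := by
  rw [smtvX_val]
  simp

theorem smtv_mem_iff {F : Type*} [Field F] (x : GL (Fin 2 ⊕ Fin 2) F) :
    x ∈ Cfsg.spGL 2 F ↔ ∀ u v : Fin 2 ⊕ Fin 2 → F,
      Cfsg.sympForm 2 F ((x : Matrix (Fin 2 ⊕ Fin 2) (Fin 2 ⊕ Fin 2) F) *ᵥ u)
        ((x : Matrix (Fin 2 ⊕ Fin 2) (Fin 2 ⊕ Fin 2) F) *ᵥ v) = Cfsg.sympForm 2 F u v :=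
  Iff.rfl

theorem smtv_form {F : Type*} [Field F] (u v : Fin 2 ⊕ Fin 2 → F) :
    Cfsg.sympForm 2 F u v = u (Sum.inr 0) * v (Sum.inl 0) + u (Sum.inr 1) * v (Sum.inl 1)
      - u (Sum.inl 0) * v (Sum.inr 0) - u (Sum.inl 1) * v (Sum.inr 1) := by
  simp [Cfsg.sympForm, Matrix.J, dotProduct, Matrix.mulVec, Fintype.sum_sum_type,
    Fin.sum_univ_two]
  ring

theorem smtv_act {F : Type*} [Field F] (u : Fin 2 ⊕ Fin 2 → F) :
    ((1 + smtvN F) *ᵥ u) (Sum.inl 0) = u (Sum.inl 0) + u (Sum.inr 0) ∧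
    ((1 + smtvN F) *ᵥ u) (Sum.inl 1) = u (Sum.inl 1) ∧
    ((1 + smtvN F) *ᵥ u) (Sum.inr 0) = u (Sum.inr 0) ∧
    ((1 + smtvN F) *ᵥ u) (Sum.inr 1) = u (Sum.inr 1) := by
  refine ⟨?_, ?_, ?_, ?_⟩ <;>
    simp [smtvN, Matrix.mulVec, dotProduct, Fintype.sum_sum_type,
      Fin.sum_univ_two, Matrix.single_apply]

theorem smtvX_mem (F : Type*) [Field F] : smtvX F ∈ Cfsg.spGL 2 F := by
  rw [smtv_mem_iff]
  intro u v
  rw [smtvX_val, smtv_form, smtv_form]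
  obtain ⟨a1, a2, a3, a4⟩ := smtv_act u
  obtain ⟨b1, b2, b3, b4⟩ := smtv_act v
  rw [a1, a2, a3, a4, b1, b2, b3, b4]
  ring

theorem exists_sp_transv {F : Type*} [Field F] :
    ∃ x : GL (Fin 2 ⊕ Fin 2) F, x ∈ Cfsg.spGL 2 F ∧
      ((x : Matrix (Fin 2 ⊕ Fin 2) (Fin 2 ⊕ Fin 2) F) - 1)
        * ((x : Matrix (Fin 2 ⊕ Fin 2) (Fin 2 ⊕ Fin 2) F) - 1) = 0 ∧
      (∀ M : Matrix (Fin 2 ⊕ Fin 2) (Fin 2 ⊕ Fin 2) F,
        ((x : Matrix (Fin 2 ⊕ Fin 2) (Fin 2 ⊕ Fin 2) F) - 1) * M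
          * ((x : Matrix (Fin 2 ⊕ Fin 2) (Fin 2 ⊕ Fin 2) F) - 1)
        = (M * ((x : Matrix (Fin 2 ⊕ Fin 2) (Fin 2 ⊕ Fin 2) F) - 1)).trace
          • ((x : Matrix (Fin 2 ⊕ Fin 2) (Fin 2 ⊕ Fin 2) F) - 1)) ∧
      (∀ z : F, (x : Matrix (Fin 2 ⊕ Fin 2) (Fin 2 ⊕ Fin 2) F)
        ≠ z • (1 : Matrix (Fin 2 ⊕ Fin 2) (Fin 2 ⊕ Fin 2) F)) ∧
      ∀ (p : ℕ) [Fact p.Prime] [CharP F p], x ^ p = 1 := by
  refine ⟨smtvX F, smtvX_mem F, ?_, ?_, ?_, ?_⟩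
  · rw [smtvX_sub]
    exact smtvN_sq F
  · intro M
    rw [smtvX_sub]
    unfold smtvN
    rw [Matrix.single_mul_mul_single, Matrix.trace_mul_single]
    ext i j
    simp [Matrix.single_apply]
  · intro z hz
    have h1 := congrFun (congrFun hz (Sum.inl 0)) (Sum.inr 0)
    rw [smtvX_val] at h1
    simp [smtvN] at h1
  · intro p _ _
    apply Units.ext
    rw [Units.val_pow_eq_pow_val, smtvX_val, Units.val_one]
    have hp : 2 ≤ p := (Fact.out : p.Prime).two_le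
    have hNp : smtvN F ^ p = 0 := by
      obtain ⟨k, rfl⟩ := Nat.exists_eq_add_of_le hp
      rw [pow_add, pow_two, smtvN_sq, zero_mul]
    rw [add_pow_char_of_commute _ (Commute.one_left _), one_pow, hNp, add_zero]

end Cfsg.Agent.Lib.Helper98.SM
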