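import Cfsg.Agent.Lib.Helper98.T73Defs

/-!
# Project T73 (S5973), assembly piece LEX

`lex_of` is the statement `lex` of the skeleton with the sibling pieces CYC, CHARPU, TYPC, TAUSGN,
SPLIT, WIBD (`sub_wi_bound`), HALF and BOUND taken as explicit hypotheses (for the fixed
`F`, `V`, `Q`, `B`, `p`, `r`), so that this file does not depend on the sibling modules.
-/

set_option autoImplicit false

namespace Cfsg.Agent.Lib.Helper98.T73

open Cfsg.Agent.Lib.Helper47 Module Polynomial

universe u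

variable {F : Type u} [Field F] [Fintype F] {V : Type u} [AddCommGroup V] [Module F V]
  [FiniteDimensional F V] {Q : V → F} {B : V → V → F}

/-- a multiset with `c + 1` copies of `ψ 0` and one copy of every other `ψ a`. -/
theorem lex_mset {α : Type*} [DecidableEq α] (n c : ℕ) (hn : 1 ≤ n) (ψ : Fin n → α)
    (hψ : Function.Injective ψ) :
    ∃ (s : Multiset α) (f₀ : α), (∀ f ∈ s, ∃ a, ψ a = f) ∧ Multiset.card s = c + n ∧
      (∀ f ∈ s, f ≠ f₀ → s.count f = 1) ∧ s.count f₀ = c + 1 := by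
  have hcount : ∀ a : Fin n, ((Finset.univ : Finset (Fin n)).val.map ψ).count (ψ a) = 1 := by
    intro a
    rw [Multiset.count_map_eq_count' ψ _ hψ a]
    exact Multiset.count_eq_one_of_mem Finset.univ.nodup (Finset.mem_univ_val a)
  refine ⟨Multiset.replicate c (ψ ⟨0, hn⟩) + (Finset.univ : Finset (Fin n)).val.map ψ,
    ψ ⟨0, hn⟩, ?_, ?_, ?_, ?_⟩
  · intro f hf
    rw [Multiset.mem_add] at hf
    rcases hf with hf | hf
    · exact ⟨⟨0, hn⟩, (Multiset.eq_of_mem_replicate hf).symm⟩
    · rw [Multiset.mem_map] at hf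
      obtain ⟨a, -, ha⟩ := hf
      exact ⟨a, ha⟩
  · rw [Multiset.card_add, Multiset.card_replicate, Multiset.card_map]
    simp
  · intro f hf hne
    rw [Multiset.mem_add] at hf
    rcases hf with hf | hf
    · exact absurd (Multiset.eq_of_mem_replicate hf) hne
    · rw [Multiset.mem_map] at hf
      obtain ⟨a, -, rfl⟩ := hf
      rw [Multiset.count_add, Multiset.count_replicate, if_neg (Ne.symm hne), zero_add]
      exact hcount a
  · rw [Multiset.count_add, Multiset.count_replicate_self, hcount]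

open Classical in
/-- LEX, with the sibling pieces as hypotheses. -/
theorem lex_of (p : ℕ) [Fact p.Prime] [CharP F p] (r : ℕ) (hr : r.Prime) (hr2 : r ≠ 2)
    (hrp : r ≠ p)
    (h_cyc : ∃ (t : ℕ) (φ : Fin t → F[X]), Function.Injective φ ∧ (∀ a, IsCycFactor r (φ a)) ∧
      t * orderOf ((Fintype.card F : ℕ) : ZMod r) = r - 1 ∧
      (Even (orderOf ((Fintype.card F : ℕ) : ZMod r)) →
        ∀ f : F[X], IsCycFactor r f → dualP (RingHom.id F) f = f) ∧
      (¬ Even (orderOf ((Fintype.card F : ℕ) : ZMod r)) →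
        ∀ f : F[X], IsCycFactor r f → dualP (RingHom.id F) f ≠ f) ∧
      (∀ f : F[X], IsCycFactor r f → IsCycFactor r (dualP (RingHom.id F) f) ∧
        dualP (RingHom.id F) (dualP (RingHom.id F) f) = f))
    (h_charpu : ∀ (g : Module.End F V), g ^ r = 1 → ∀ (u : Multiset F[X]),
      (∀ f ∈ u, IsCycFactor r f) → ∀ (e : ℕ), g.charpoly = (X - 1) ^ e * u.prod →
      finrank F (LinearMap.ker (g - 1)) = e ∧
        finrank F (LinearMap.range (g - 1))
          = orderOf ((Fintype.card F : ℕ) : ZMod r) * Multiset.card u ∧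
        (u ≠ 0 → g ≠ 1))
    (h_typc : ∀ (k : ℕ), finrank F V = 2 * k + 2 → ∀ (ε : ℤ), IsTyp Q k ε →
      ∀ (g : Module.End F V), QI Q g → g ^ r = 1 → ∀ (u : Multiset F[X]),
      (∀ f ∈ u, IsCycFactor r f) → u.map (dualP (RingHom.id F)) = u → u ≠ 0 →
      g.charpoly = (X - 1) ^ finrank F (LinearMap.ker (g - 1)) * u.prod →
      Even (finrank F (LinearMap.ker (g - 1))) ∧
        Nondeg (resForm B (LinearMap.range (g - 1))) ∧
        (∀ e : ℕ, finrank F (LinearMap.ker (g - 1)) = 2 * e + 2 →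
          SubTyp Q B (LinearMap.ker (g - 1)) e (ε * tauSign u)) ∧
        (finrank F (LinearMap.ker (g - 1)) = 0 → tauSign u = ε))
    (h_tau : ∀ (u : Multiset F[X]), (∀ f ∈ u, IsCycFactor r f) →
      tauSign u = sgn (orderOf ((Fintype.card F : ℕ) : ZMod r)) (Multiset.card u))
    (h_split : ∀ (g : Module.End F V), g ^ r = 1 → ∀ (W : Submodule F V), W.map g ≤ W →
      finrank F W = finrank F ↥(W ⊓ LinearMap.ker (g - 1))
          + finrank F ↥(W ⊓ LinearMap.range (g - 1)) ∧
        orderOf ((Fintype.card F : ℕ) : ZMod r) ∣ finrank F ↥(W ⊓ LinearMap.range (g - 1)))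
    (h_subwi : ∀ (K : Submodule F V) (e : ℕ) (η : ℤ), SubTyp Q B K e η →
      ∀ (U : Submodule F V), U ≤ K → TS Q U → finrank F U ≤ wi e η)
    (h_half : ∀ (K U : Submodule F V), Nondeg (resForm B K) → U ≤ K → TS Q U →
      2 * finrank F U ≤ finrank F K)
    (h_bound : ∀ (g : Module.End F V), QI Q g → g ^ r = 1 →
      Even (orderOf ((Fintype.card F : ℕ) : ZMod r)) →
      ∀ (u : Multiset F[X]), (∀ f ∈ u, IsCycFactor r f) → ∀ (e : ℕ),
      g.charpoly = (X - 1) ^ e * u.prod →
      ∀ (f₀ : F[X]), (∀ f ∈ u, f ≠ f₀ → u.count f = 1) →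
      ∀ (U : Submodule F V), U ≤ LinearMap.range (g - 1) → U.map g ≤ U → TS Q U →
      2 * finrank F U ≤ orderOf ((Fintype.card F : ℕ) : ZMod r) * u.count f₀)
    (hf : QFacts F) (hQ : IsQuad Q B) (hnd : Nondeg B) (d : ℕ) (hd : 1 ≤ d)
    (hdim : finrank F V = 2 * d) (ε : ℤ) (hε : ε = 1 ∨ ε = -1) (htyp : IsTyp Q (d - 1) ε)
    (A : ℕ) (hA : Valid ε (orderOf ((Fintype.card F : ℕ) : ZMod r)) d A) :
    ∃ g : Module.End F V, QI Q g ∧ g ^ r = 1 ∧ g ≠ 1 ∧
      finrank F (LinearMap.ker (g - 1))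
        = 2 * d - orderOf ((Fintype.card F : ℕ) : ZMod r) * A ∧
      (∀ e : ℕ, 2 * d - orderOf ((Fintype.card F : ℕ) : ZMod r) * A = 2 * e + 2 →
        SubTyp Q B (LinearMap.ker (g - 1)) e
          (ε * sgn (orderOf ((Fintype.card F : ℕ) : ZMod r)) A)) ∧
      ∀ W : Submodule F V, TS Q W → W.map g ≤ W →
        ∃ j w : ℕ, JC (orderOf ((Fintype.card F : ℕ) : ZMod r))
            ((r - 1) / orderOf ((Fintype.card F : ℕ) : ZMod r)) A j ∧
          w ≤ om ε (orderOf ((Fintype.card F : ℕ) : ZMod r)) d A ∧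
          finrank F W = orderOf ((Fintype.card F : ℕ) : ZMod r) * j + w := by
  obtain ⟨hA1, hA2, hA3, hA4⟩ := hA
  obtain ⟨t, φ, hφinj, hφc, hti, hself, hnself, hdualc⟩ := h_cyc
  generalize hi : orderOf ((Fintype.card F : ℕ) : ZMod r) = i at *
  have hr3 : 3 ≤ r := by have := hr.two_le; omega
  have hi0 : 0 < i := by
    rcases Nat.eq_zero_or_pos i with h | h
    · rw [h, mul_zero] at hti; omega
    · exact h
  have ht0 : 0 < t := by
    rcases Nat.eq_zero_or_pos t with h | h
    · rw [h, zero_mul] at hti; omega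
    · exact h
  have htdiv : (r - 1) / i = t := by rw [← hti]; exact Nat.mul_div_cancel _ hi0
  -- the multiset of cyclotomic factors
  obtain ⟨u, hu, hcard, hdual, hJ⟩ : ∃ u : Multiset F[X], (∀ f ∈ u, IsCycFactor r f) ∧
      Multiset.card u = A ∧ u.map (dualP (RingHom.id F)) = u ∧
      (Even i → ∃ f₀ : F[X], (∀ f ∈ u, f ≠ f₀ → u.count f = 1) ∧
        ∀ j : ℕ, 2 * j ≤ u.count f₀ → (j = 0 ∨ t + 2 * j ≤ A + 1)) := by
    by_cases hev : Even i
    · have key : ∃ (n : ℕ) (ψ : Fin n → F[X]), Function.Injective ψ ∧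
          (∀ a, IsCycFactor r (ψ a)) ∧ 1 ≤ n ∧ n ≤ A ∧ (A < t → n = A) ∧ (t ≤ A → n = t) := by
        by_cases hAt : t ≤ A
        · exact ⟨t, φ, hφinj, hφc, ht0, hAt, fun h => by omega, fun _ => rfl⟩
        · have hAt' : A ≤ t := (not_le.mp hAt).le
          exact ⟨A, φ ∘ Fin.castLE hAt', hφinj.comp (Fin.castLE_injective _), fun a => hφc _,
            hA1, le_refl _, fun _ => rfl, fun h => by omega⟩
      obtain ⟨n, ψ, hψinj, hψc, hn1, hnA, hn2, hn3⟩ := key
      obtain ⟨u, f₀, hu1, hu2, hu3, hu4⟩ := lex_mset n (A - n) hn1 ψ hψinj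
      refine ⟨u, ?_, ?_, ?_, fun _ => ⟨f₀, hu3, ?_⟩⟩
      · intro f hf
        obtain ⟨a, rfl⟩ := hu1 f hf
        exact hψc a
      · rw [hu2]; omega
      · have hsd : ∀ f ∈ u, dualP (RingHom.id F) f = f := fun f hf => by
          obtain ⟨a, rfl⟩ := hu1 f hf
          exact hself hev _ (hψc a)
        rw [Multiset.map_congr rfl hsd, Multiset.map_id']
      · intro j hj
        rw [hu4] at hj
        by_cases hAt : t ≤ A
        · right
          have := hn3 hAt
          omega
        · left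
          have := hn2 (by omega)
          omega
    · have hodd : Odd i := Nat.not_even_iff_odd.mp hev
      obtain ⟨A', hA'⟩ := hA3 hodd
      have hfc : IsCycFactor r (φ ⟨0, ht0⟩) := hφc _
      refine ⟨Multiset.replicate A' (φ ⟨0, ht0⟩) +
        Multiset.replicate A' (dualP (RingHom.id F) (φ ⟨0, ht0⟩)), ?_, ?_, ?_,
        fun h => absurd h hev⟩
      · intro g hg
        rw [Multiset.mem_add] at hg
        rcases hg with hg | hg
        · rw [Multiset.eq_of_mem_replicate hg]; exact hfc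
        · rw [Multiset.eq_of_mem_replicate hg]; exact (hdualc _ hfc).1
      · rw [Multiset.card_add, Multiset.card_replicate, Multiset.card_replicate]; omega
      · rw [Multiset.map_add, Multiset.map_replicate, Multiset.map_replicate, (hdualc _ hfc).2,
          add_comm]
  have hdeg : u.prod.natDegree = i * A := by
    rw [Polynomial.natDegree_multiset_prod_of_monic u (fun f hf => (hu f hf).1)]
    have h1 : u.map natDegree = u.map (fun _ => i) :=
      Multiset.map_congr rfl (fun f hf => by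
        rw [← hi]; exact IsCycFactor.natDegree_eq rfl hr hrp (hu f hf))
    rw [h1, Multiset.map_const', Multiset.sum_replicate, hcard, smul_eq_mul, mul_comm]
  have hu0 : u ≠ 0 := by
    intro h
    rw [h, Multiset.card_zero] at hcard
    omega
  have hk : 2 * (d - 1) + 2 = 2 * d := by omega
  have hdim' : finrank F V = 2 * (d - 1) + 2 := by rw [hdim, hk]
  have hsg : tauSign u = sgn i A := by rw [h_tau u hu, hcard]
  obtain ⟨g, hgQ, hgr, hch⟩ :=
    Cfsg.Agent.Lib.Helper29.QuadEXIST.quad_exists_of_multiset hf hQ hnd (d - 1) hdim' ε hε htyp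
      p r hr hr2 hrp u hu hu0 hdual (by rw [hdeg, hk]; exact hA2) (by
        intro h
        rw [hdeg, hk] at h
        rw [hsg]; exact hA4 h.symm)
  rw [hdeg, hk] at hch
  obtain ⟨hker, hrange, hne⟩ := h_charpu g hgr u hu (2 * d - i * A) hch
  have hch' : g.charpoly = (X - 1) ^ finrank F (LinearMap.ker (g - 1)) * u.prod := by
    rw [hker]; exact hch
  obtain ⟨hevk, hndR, hsub, hz⟩ := h_typc (d - 1) hdim' ε htyp g hgQ hgr u hu hdual hu0 hch'
  rw [hsg] at hsub
  refine ⟨g, hgQ, hgr, hne hu0, hker, ?_, ?_⟩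
  · intro e he
    exact hsub e (by rw [hker]; exact he)
  · intro W hW hWg
    obtain ⟨hs1, j, hj⟩ := h_split g hgr W hWg
    refine ⟨j, finrank F ↥(W ⊓ LinearMap.ker (g - 1)), ?_, ?_, ?_⟩
    · have hTSR : TS Q (W ⊓ LinearMap.range (g - 1)) := fun w hw => hW w hw.1
      unfold JC
      rw [htdiv]
      by_cases hev : Even i
      · rw [if_pos hev]
        obtain ⟨f₀, hone, hjj⟩ := hJ hev
        have hinv : (W ⊓ LinearMap.range (g - 1)).map g ≤ W ⊓ LinearMap.range (g - 1) := by
          rintro _ ⟨x, ⟨hxW, ⟨y, rfl⟩⟩, rfl⟩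
          refine ⟨hWg ⟨_, hxW, rfl⟩, ⟨g y, ?_⟩⟩
          simp [LinearMap.sub_apply, map_sub]
        have hb := h_bound g hgQ hgr hev u hu _ hch f₀ hone _ inf_le_right hinv hTSR
        rw [hj] at hb
        apply hjj
        have h2 : i * (2 * j) ≤ i * u.count f₀ := by
          calc i * (2 * j) = 2 * (i * j) := by ring
            _ ≤ i * u.count f₀ := hb
        exact Nat.le_of_mul_le_mul_left h2 hi0
      · rw [if_neg hev]
        have hb := h_half _ _ hndR inf_le_right hTSR
        rw [hj, hrange, hcard] at hb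
        have h2 : i * (2 * j) ≤ i * A := by
          calc i * (2 * j) = 2 * (i * j) := by ring
            _ ≤ i * A := hb
        exact Nat.le_of_mul_le_mul_left h2 hi0
    · have hTSK : TS Q (W ⊓ LinearMap.ker (g - 1)) := fun w hw => hW w hw.1
      unfold om
      by_cases h0 : 2 * d = i * A
      · rw [if_pos h0]
        have hk0 : finrank F (LinearMap.ker (g - 1)) = 0 := by rw [hker, h0]; simp
        have hmono := Submodule.finrank_mono
          (inf_le_right : W ⊓ LinearMap.ker (g - 1) ≤ LinearMap.ker (g - 1))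
        omega
      · rw [if_neg h0]
        obtain ⟨c, hc⟩ := hevk
        have hc' : 2 * d - i * A = c + c := by rw [← hker]; exact hc
        have he : finrank F (LinearMap.ker (g - 1)) = 2 * (c - 1) + 2 := by
          rw [hc]; omega
        have hST := hsub (c - 1) he
        have hb := h_subwi _ (c - 1) _ hST _ inf_le_right hTSK
        unfold wi at hb
        have hc2 : (2 * d - i * A) / 2 = c := by omega
        rw [hc2]
        by_cases hη : ε * sgn i A = 1
        · rw [if_pos hη] at hb ⊢; omega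
        · rw [if_neg hη] at hb ⊢; omega
    · rw [hs1, hj]; ring

end Cfsg.Agent.Lib.Helper98.T73
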