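import Mathlib
import Cfsg.Agent.Lib.Helper17.O72BRA
import Cfsg.Agent.Lib.Helper98.O72Defs
import Cfsg.Agent.Lib.Helper51.NegOne
import Cfsg.Agent.Lib.Helper51.OMinus
import Cfsg.Agent.Lib.Helper52.GeoOmega
import Cfsg.Prelude.Def_GeometricClasses

/-!
# Project T73 (S5987), piece SPINM

If `2` is a nonsquare of `F` (e.g. `|F| ≡ 3 mod 8`) and `d` is odd, no element `x` of the
commutator subgroup of the isometry group of a nondegenerate quadratic form in dimension `2d`
satisfies `x² = -1`: the space is an orthogonal sum of `d` planes `⟨v, x v⟩` with `Q v ≠ 0`, on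
such a plane `x` is the product of the reflections in `v` and `v - x v` (of norms `c`, `2c`),
so the spinor character of `x` is `(-1)^d = -1`.
-/

set_option autoImplicit false
set_option linter.unusedSectionVars false
set_option linter.unusedVariables false

namespace Cfsg.Agent.Lib.Helper98.T73

open Module Matrix Cfsg Cfsg.Agent.Lib.Helper96.Sp Cfsg.Agent.Lib.Helper51
open Cfsg.Agent.Lib.Helper98.O72

section Abstract

variable {F : Type*} [Field F] [Fintype F] {V : Type*} [AddCommGroup V] [Module F V]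
  [FiniteDimensional F V] {B : LinearMap.BilinForm F V}

/-- orthogonal decomposition of an invariant nondegenerate subspace into planes `⟨v, T v⟩`
(`T² = -1`). -/
theorem spinm_planes (hS : B.IsSymm) (hchar2 : (2 : F) ≠ 0) (T : Module.End F V)
    (hT : Isom B T) (hT2 : ∀ v, T (T v) = -v) :
    ∀ (n : ℕ) (K : Submodule F V), finrank F K = 2 * n → ND B K → K.map T ≤ K →
    ∃ vs : List V, vs.Pairwise (fun u v => B u v = 0 ∧ B u (T v) = 0) ∧
      (∀ v ∈ vs, B v v ≠ 0) ∧ vs.length = n ∧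
      Submodule.span F {y | ∃ v ∈ vs, y = v ∨ y = T v} = K := by
  intro n
  induction n with
  | zero =>
    intro K hn hK hKT
    have hbot : K = ⊥ := Submodule.finrank_eq_zero.mp (by rw [hn])
    refine ⟨[], List.Pairwise.nil, by simp, rfl, ?_⟩
    rw [hbot]
    simp
  | succ n ih =>
    intro K hn hK hKT
    obtain ⟨v, hvK, hvv⟩ : ∃ v ∈ K, B v v ≠ 0 := by
      by_contra hcon
      push Not at hcon
      have hzero : ∀ u ∈ K, ∀ w ∈ K, B u w = 0 := by
        intro u hu w hw
        have h1 := hcon (u + w) (K.add_mem hu hw)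
        have h2 := hcon u hu
        have h3 := hcon w hw
        have h4 : B w u = B u w := sym_swap hS hchar2 w u
        simp only [map_add, LinearMap.add_apply] at h1
        rw [h2, h3, h4] at h1
        have h5 : (2 : F) * B u w = 0 := by linear_combination h1
        rcases mul_eq_zero.mp h5 with h | h
        · exact absurd h hchar2
        · exact h
      have hbot : K = ⊥ := by
        rw [eq_bot_iff]
        intro u hu
        rw [Submodule.mem_bot]
        exact hK u hu (hzero u hu)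
      rw [hbot, finrank_bot] at hn
      omega
    have hTvK : T v ∈ K := hKT ⟨v, hvK, rfl⟩
    have hvTv : B v (T v) = 0 := by
      have h1 := hT v (T v)
      rw [hT2, map_neg, sym_swap hS hchar2 (T v) v] at h1
      have h5 : (2 : F) * B v (T v) = 0 := by linear_combination -h1
      rcases mul_eq_zero.mp h5 with h | h
      · exact absurd h hchar2
      · exact h
    have hTvTv : B (T v) (T v) = B v v := hT v v
    have hTvv : B (T v) v = 0 := by rw [sym_swap hS hchar2, hvTv]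
    obtain ⟨W, hW⟩ : ∃ W : Submodule F V, W = Submodule.span F {v, T v} := ⟨_, rfl⟩
    have hmemW : ∀ u, u ∈ W ↔ ∃ α β : F, α • v + β • T v = u := fun u => by
      rw [hW]; exact Submodule.mem_span_pair
    have hvW : v ∈ W := by rw [hW]; exact Submodule.subset_span (Set.mem_insert _ _)
    have hTvW : T v ∈ W := by
      rw [hW]; exact Submodule.subset_span (Set.mem_insert_of_mem _ rfl)
    have hWK : W ≤ K := by
      rw [hW, Submodule.span_le]
      intro x hx
      rcases hx with hx | hx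
      · rw [hx]; exact hvK
      · rw [Set.mem_singleton_iff] at hx
        rw [hx]; exact hTvK
    have hcoef : ∀ α β : F, B (α • v + β • T v) v = 0 → B (α • v + β • T v) (T v) = 0 →
        α = 0 ∧ β = 0 := by
      intro α β h1 h2
      simp only [map_add, map_smul, LinearMap.add_apply, LinearMap.smul_apply,
        smul_eq_mul] at h1 h2
      rw [hTvv, mul_zero, add_zero] at h1
      rw [hvTv, mul_zero, zero_add, hTvTv] at h2
      exact ⟨(mul_eq_zero.mp h1).resolve_right hvv, (mul_eq_zero.mp h2).resolve_right hvv⟩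
    have hWnd : ND B W := by
      intro u hu h
      obtain ⟨α, β, rfl⟩ := (hmemW u).1 hu
      obtain ⟨hα, hβ⟩ := hcoef α β (h v hvW) (h (T v) hTvW)
      rw [hα, hβ, zero_smul, zero_smul, add_zero]
    have hW2 : finrank F W = 2 := by
      have hli : LinearIndependent F ![v, T v] := by
        rw [LinearIndependent.pair_iff]
        intro s t hst
        exact hcoef s t (by rw [hst]; simp) (by rw [hst]; simp)
      have h3 := finrank_span_eq_card hli
      rw [Fintype.card_fin, Matrix.range_cons_cons_empty] at h3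
      rw [hW]; exact h3
    obtain ⟨hK'nd, hsup, hfin⟩ := nd_rel hS hchar2 hWnd hK hWK
    have hK'n : finrank F ↥(K ⊓ B.orthogonal W) = 2 * n := by omega
    have hWT : ∀ w ∈ W, T w ∈ W := by
      intro w hw
      obtain ⟨α, β, rfl⟩ := (hmemW w).1 hw
      rw [map_add, map_smul, map_smul, hT2]
      refine (hmemW _).2 ⟨-β, α, ?_⟩
      rw [smul_neg, neg_smul, add_comm]
    have hK'T : (K ⊓ B.orthogonal W).map T ≤ K ⊓ B.orthogonal W := by
      rintro _ ⟨u, ⟨huK, huW⟩, rfl⟩
      refine ⟨hKT ⟨u, huK, rfl⟩, ?_⟩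
      have huW' : u ∈ B.orthogonal W := huW
      show T u ∈ B.orthogonal W
      rw [mem_perp_iff' hS hchar2] at huW' ⊢
      intro w hw
      have h1 : B (T u) w = B (T u) (T (-(T w))) := by rw [map_neg, hT2, neg_neg]
      rw [h1, hT]
      exact huW' _ (W.neg_mem (hWT w hw))
    obtain ⟨vs, hpw, hne, hlen, hspan⟩ := ih (K ⊓ B.orthogonal W) hK'n hK'nd hK'T
    have hvsK' : ∀ a ∈ vs, a ∈ K ⊓ B.orthogonal W := by
      intro a ha
      rw [← hspan]
      exact Submodule.subset_span ⟨a, ha, Or.inl rfl⟩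
    refine ⟨v :: vs, ?_, ?_, ?_, ?_⟩
    · rw [List.pairwise_cons]
      refine ⟨?_, hpw⟩
      intro a ha
      have h1 : a ∈ B.orthogonal W := (hvsK' a ha).2
      have h2 : T a ∈ B.orthogonal W := (hK'T ⟨a, hvsK' a ha, rfl⟩).2
      rw [mem_perp_iff' hS hchar2] at h1 h2
      exact ⟨by rw [sym_swap hS hchar2]; exact h1 v hvW,
        by rw [sym_swap hS hchar2]; exact h2 v hvW⟩
    · intro x hx
      rcases List.mem_cons.mp hx with hx | hx
      · rw [hx]; exact hvv
      · exact hne x hx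
    · rw [List.length_cons, hlen]
    · have hset : {y | ∃ u ∈ v :: vs, y = u ∨ y = T u}
          = {v, T v} ∪ {y | ∃ u ∈ vs, y = u ∨ y = T u} := by
        ext y
        simp only [List.mem_cons, Set.mem_ofPred_eq, Set.mem_union, Set.mem_insert_iff,
          Set.mem_singleton_iff]
        constructor
        · rintro ⟨u, hu | hu, h⟩
          · rw [hu] at h; exact Or.inl h
          · exact Or.inr ⟨u, hu, h⟩
        · rintro (h | ⟨u, hu, h⟩)
          · exact ⟨v, Or.inl rfl, h⟩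
          · exact ⟨u, Or.inr hu, h⟩
      rw [hset, Submodule.span_union, hspan, ← hW]
      exact hsup

end Abstract

section Concrete

variable {ι : Type} [Fintype ι] [DecidableEq ι] {F : Type*} [Field F] [Fintype F]

/-- the interleaved list `v₁, v₁ - M v₁, v₂, v₂ - M v₂, …` -/
def spinmIl (M : Matrix ι ι F) : List (ι → F) → List (ι → F)
  | [] => []
  | v :: vs => v :: (v - M *ᵥ v) :: spinmIl M vs

variable (Q : QuadraticForm F (ι → F)) (h2 : (2 : F) ≠ 0) (M : Matrix ι ι F)
  (hiso : ∀ u, Q (M *ᵥ u) = Q u)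
  (hpol : ∀ u w, QuadraticMap.polar ⇑Q (M *ᵥ u) (M *ᵥ w) = QuadraticMap.polar ⇑Q u w)
  (hMM : ∀ u, M *ᵥ (M *ᵥ u) = -u)

include h2 hpol hMM in
theorem spinm_polar_self (v : ι → F) : QuadraticMap.polar ⇑Q v (M *ᵥ v) = 0 := by
  have h1 := hpol v (M *ᵥ v)
  rw [hMM, QuadraticMap.polar_neg_right, polar_comm' Q (M *ᵥ v) v] at h1
  have h3 : (2 : F) * QuadraticMap.polar ⇑Q v (M *ᵥ v) = 0 := by linear_combination -h1
  exact (mul_eq_zero.mp h3).resolve_left h2

include h2 hiso hpol hMM in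
theorem spinm_Q_sub (v : ι → F) : Q (v - M *ᵥ v) = 2 * Q v := by
  have h0 := spinm_polar_self Q h2 M hpol hMM v
  have h1 : QuadraticMap.polar ⇑Q v (-(M *ᵥ v))
      = Q (v + -(M *ᵥ v)) - Q v - Q (-(M *ᵥ v)) := rfl
  rw [QuadraticMap.polar_neg_right, h0, QuadraticMap.map_neg, hiso, neg_zero,
    ← sub_eq_add_neg] at h1
  linear_combination -h1

include h2 hiso hpol hMM in
theorem spinm_pair (v : ι → F) (hv : Q v ≠ 0) :
    (reflectionMatrix ⇑Q v) *ᵥ ((reflectionMatrix ⇑Q (v - M *ᵥ v)) *ᵥ v) = M *ᵥ v ∧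
    (reflectionMatrix ⇑Q v) *ᵥ ((reflectionMatrix ⇑Q (v - M *ᵥ v)) *ᵥ (M *ᵥ v)) = -v := by
  have h0 := spinm_polar_self Q h2 M hpol hMM v
  have hQw := spinm_Q_sub Q h2 M hiso hpol hMM v
  have h2v : (2 : F) * Q v ≠ 0 := mul_ne_zero h2 hv
  have hp1 : QuadraticMap.polar ⇑Q (v - M *ᵥ v) v = 2 * Q v := by
    rw [QuadraticMap.polar_sub_left, polar_self, polar_comm' Q (M *ᵥ v) v, h0, sub_zero]
  have hp2 : QuadraticMap.polar ⇑Q (v - M *ᵥ v) (M *ᵥ v) = -(2 * Q v) := by
    rw [QuadraticMap.polar_sub_left, h0, polar_self, hiso, zero_sub]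
  have e1 : (reflectionMatrix ⇑Q (v - M *ᵥ v)) *ᵥ v = M *ᵥ v := by
    rw [reflectionMatrix_mulVec, hp1, hQw, inv_mul_cancel₀ h2v, one_smul]
    abel
  have e2 : (reflectionMatrix ⇑Q (v - M *ᵥ v)) *ᵥ (M *ᵥ v) = v := by
    rw [reflectionMatrix_mulVec, hp2, hQw, mul_neg, inv_mul_cancel₀ h2v, neg_one_smul]
    abel
  have e3 : (reflectionMatrix ⇑Q v) *ᵥ (M *ᵥ v) = M *ᵥ v := by
    rw [reflectionMatrix_mulVec, h0, mul_zero, zero_smul, sub_zero]
  have e4 : (reflectionMatrix ⇑Q v) *ᵥ v = -v := by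
    have h5 : (Q v)⁻¹ * (2 * Q v) = 2 := by field_simp
    rw [reflectionMatrix_mulVec, polar_self, h5, two_smul]
    abel
  exact ⟨by rw [e1, e3], by rw [e2, e4]⟩

theorem spinm_pair_fixed (v u : ι → F) (h1 : QuadraticMap.polar ⇑Q v u = 0)
    (h1' : QuadraticMap.polar ⇑Q (M *ᵥ v) u = 0) :
    (reflectionMatrix ⇑Q v) *ᵥ ((reflectionMatrix ⇑Q (v - M *ᵥ v)) *ᵥ u) = u := by
  have e1 : (reflectionMatrix ⇑Q (v - M *ᵥ v)) *ᵥ u = u := by
    rw [reflectionMatrix_mulVec, QuadraticMap.polar_sub_left, h1, h1', sub_zero, mul_zero,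
      zero_smul, sub_zero]
  rw [e1, reflectionMatrix_mulVec, h1, mul_zero, zero_smul, sub_zero]

theorem spinm_prod_cons (v : ι → F) (vs : List (ι → F)) (u : ι → F) :
    (((spinmIl M (v :: vs)).map (fun y => reflectionMatrix ⇑Q y)).prod) *ᵥ u =
      (reflectionMatrix ⇑Q v) *ᵥ ((reflectionMatrix ⇑Q (v - M *ᵥ v)) *ᵥ
        ((((spinmIl M vs).map (fun y => reflectionMatrix ⇑Q y)).prod) *ᵥ u)) := by
  show (((v :: (v - M *ᵥ v) :: spinmIl M vs).map (fun y => reflectionMatrix ⇑Q y)).prod) *ᵥ u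
    = _
  rw [List.map_cons, List.map_cons, List.prod_cons, List.prod_cons, ← Matrix.mulVec_mulVec,
    ← Matrix.mulVec_mulVec]

theorem spinm_prod_fixed (vs : List (ι → F)) (u : ι → F)
    (h : ∀ v ∈ vs, QuadraticMap.polar ⇑Q v u = 0 ∧ QuadraticMap.polar ⇑Q (M *ᵥ v) u = 0) :
    (((spinmIl M vs).map (fun y => reflectionMatrix ⇑Q y)).prod) *ᵥ u = u := by
  induction vs with
  | nil => simp [spinmIl]
  | cons v vs ih =>
    rw [spinm_prod_cons, ih (fun y hy => h y (List.mem_cons_of_mem _ hy))]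
    exact spinm_pair_fixed Q M v u (h v List.mem_cons_self).1 (h v List.mem_cons_self).2

include h2 hiso hpol hMM in
theorem spinm_prod (vs : List (ι → F)) (hvsQ : ∀ v ∈ vs, Q v ≠ 0)
    (hpw : vs.Pairwise (fun u v => QuadraticMap.polar ⇑Q u v = 0 ∧
      QuadraticMap.polar ⇑Q u (M *ᵥ v) = 0)) :
    ∀ v ∈ vs, (((spinmIl M vs).map (fun y => reflectionMatrix ⇑Q y)).prod) *ᵥ v = M *ᵥ v ∧
      (((spinmIl M vs).map (fun y => reflectionMatrix ⇑Q y)).prod) *ᵥ (M *ᵥ v) = -v := by
  induction vs with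
  | nil => intro v hv; simp at hv
  | cons a vs ih =>
    rw [List.pairwise_cons] at hpw
    obtain ⟨hp1, hp2⟩ := hpw
    intro v hv
    rcases List.mem_cons.mp hv with hva | hv'
    · rw [hva]
      have hfix1 : (((spinmIl M vs).map (fun y => reflectionMatrix ⇑Q y)).prod) *ᵥ a = a :=
        spinm_prod_fixed Q M vs a (fun y hy => by
          obtain ⟨q1, q2⟩ := hp1 y hy
          exact ⟨by rw [polar_comm' Q y a]; exact q1,
            by rw [polar_comm' Q (M *ᵥ y) a]; exact q2⟩)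
      have hfix2 : (((spinmIl M vs).map (fun y => reflectionMatrix ⇑Q y)).prod) *ᵥ (M *ᵥ a)
          = M *ᵥ a :=
        spinm_prod_fixed Q M vs (M *ᵥ a) (fun y hy => by
          obtain ⟨q1, q2⟩ := hp1 y hy
          refine ⟨?_, ?_⟩
          · have h3 := hpol y (M *ᵥ a)
            rw [hMM, QuadraticMap.polar_neg_right, polar_comm' Q (M *ᵥ y) a, q2, neg_zero] at h3
            exact h3.symm
          · rw [hpol, polar_comm' Q y a]; exact q1)
      rw [spinm_prod_cons, spinm_prod_cons, hfix1, hfix2]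
      exact spinm_pair Q h2 M hiso hpol hMM a (hvsQ a List.mem_cons_self)
    · obtain ⟨i1, i2⟩ := ih (fun y hy => hvsQ y (List.mem_cons_of_mem _ hy)) hp2 v hv'
      obtain ⟨q1, q2⟩ := hp1 v hv'
      rw [spinm_prod_cons, spinm_prod_cons, i1, i2]
      constructor
      · exact spinm_pair_fixed Q M a (M *ᵥ v) q2 (by rw [hpol]; exact q1)
      · have q3 : QuadraticMap.polar ⇑Q (M *ᵥ a) v = 0 := by
          have h3 := hpol (M *ᵥ a) v
          rw [hMM, QuadraticMap.polar_neg_left, q2, neg_zero] at h3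
          exact h3.symm
        exact spinm_pair_fixed Q M a (-v) (by rw [QuadraticMap.polar_neg_right, q1, neg_zero])
          (by rw [QuadraticMap.polar_neg_right, q3, neg_zero])

include h2 hiso hpol hMM in
theorem spinm_il_ne (vs : List (ι → F)) (hvsQ : ∀ v ∈ vs, Q v ≠ 0) :
    ∀ y ∈ spinmIl M vs, Q y ≠ 0 := by
  induction vs with
  | nil => intro y hy; simp [spinmIl] at hy
  | cons a vs ih =>
    intro y hy
    have hy' : y = a ∨ y = a - M *ᵥ a ∨ y ∈ spinmIl M vs := by simpa [spinmIl] using hy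
    rcases hy' with hy' | hy' | hy'
    · rw [hy']; exact hvsQ _ List.mem_cons_self
    · rw [hy', spinm_Q_sub Q h2 M hiso hpol hMM]
      exact mul_ne_zero h2 (hvsQ _ List.mem_cons_self)
    · exact ih (fun z hz => hvsQ z (List.mem_cons_of_mem _ hz)) y hy'

open Classical in
include h2 hiso hpol hMM in
theorem spinm_count (hns2 : ¬ IsSquare (2 : F)) (vs : List (ι → F))
    (hvsQ : ∀ v ∈ vs, Q v ≠ 0) :
    (spinmIl M vs).countP (fun y => IsSquare (1 * Q y)) = vs.length := by
  induction vs with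
  | nil => rfl
  | cons a vs ih =>
    have ha := hvsQ a List.mem_cons_self
    have hw := spinm_Q_sub Q h2 M hiso hpol hMM a
    have hiff : IsSquare (1 * Q (a - M *ᵥ a)) ↔ ¬ IsSquare (1 * Q a) := by
      rw [one_mul, one_mul, hw, isSquare_mul_iff h2 ha]
      constructor
      · intro h hq; exact hns2 (h.mpr hq)
      · intro h; exact ⟨fun h' => absurd h' hns2, fun h' => absurd h' h⟩
    show (a :: (a - M *ᵥ a) :: spinmIl M vs).countP (fun y => IsSquare (1 * Q y))
      = vs.length + 1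
    rw [List.countP_cons, List.countP_cons, ih (fun z hz => hvsQ z (List.mem_cons_of_mem _ hz))]
    by_cases hq : IsSquare (1 * Q a)
    · have hq' : ¬ IsSquare (1 * Q (a - M *ᵥ a)) := fun h => (hiff.mp h) hq
      rw [one_mul] at hq hq'
      simp [hq, hq']
    · have hq' : IsSquare (1 * Q (a - M *ᵥ a)) := hiff.mpr hq
      rw [one_mul] at hq hq'
      simp [hq, hq']

/-- the general statement: no element of `Ω(Q)` squares to `-1` when `2` is a nonsquare and
the dimension is `2d` with `d` odd. -/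
theorem spinm_general (h2' : (2 : F) ≠ 0) (hQ : (QuadraticMap.polarBilin Q).Nondegenerate)
    (hns2 : ¬ IsSquare (2 : F)) (d : ℕ) (hd : Odd d) (hcard : Fintype.card ι = 2 * d)
    (g : isometryGroup F ⇑Q) (hg : g ∈ commutator (isometryGroup F ⇑Q))
    (hg2 : ((g : GL ι F) : Matrix ι ι F) * ((g : GL ι F) : Matrix ι ι F)
      = (-1 : F) • (1 : Matrix ι ι F)) : False := by
  have h2 : (2 : F) ≠ 0 := h2'
  obtain ⟨M, hM⟩ : ∃ M : Matrix ι ι F, M = ((g : GL ι F) : Matrix ι ι F) := ⟨_, rfl⟩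
  obtain ⟨B, hB⟩ : ∃ B : LinearMap.BilinForm F (ι → F), B = QuadraticMap.polarBilin Q :=
    ⟨_, rfl⟩
  obtain ⟨T, hTdef⟩ : ∃ T : Module.End F (ι → F), T = Matrix.toLin' M := ⟨_, rfl⟩
  have hS : B.IsSymm := by
    refine ⟨fun a b => ?_⟩
    rw [hB, QuadraticMap.polarBilin_apply_apply, QuadraticMap.polarBilin_apply_apply,
      QuadraticMap.polar_comm]
  have hN : ND B ⊤ := by rw [hB]; exact br_nd Q hQ
  have hT : Isom B T := by rw [hB, hTdef, hM]; exact br_isom_of_mem Q g
  have hMM : ∀ u, M *ᵥ (M *ᵥ u) = -u := by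
    intro u
    rw [Matrix.mulVec_mulVec, hM, hg2, Matrix.smul_mulVec, Matrix.one_mulVec, neg_one_smul]
  have hiso : ∀ u, Q (M *ᵥ u) = Q u := fun u => by rw [hM]; exact isometry_apply Q g u
  have hpol : ∀ u w, QuadraticMap.polar ⇑Q (M *ᵥ u) (M *ᵥ w) = QuadraticMap.polar ⇑Q u w :=
    fun u w => by rw [hM]; exact isometry_polar Q g u w
  have hT2 : ∀ v, T (T v) = -v := by
    intro v
    rw [hTdef, Matrix.toLin'_apply, Matrix.toLin'_apply]
    exact hMM v
  have hfinV : finrank F (ι → F) = 2 * d := by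
    rw [Module.finrank_fintype_fun_eq_card, hcard]
  obtain ⟨vs, hpw, hne, hlen, hspan⟩ :=
    spinm_planes hS h2 T hT hT2 d ⊤ (by rw [finrank_top, hfinV]) hN le_top
  have hBpol : ∀ u w, B u w = QuadraticMap.polar ⇑Q u w := fun u w => by
    rw [hB, QuadraticMap.polarBilin_apply_apply]
  have hvsQ : ∀ v ∈ vs, Q v ≠ 0 := by
    intro v hv h0
    apply hne v hv
    rw [hBpol, polar_self, h0, mul_zero]
  have hpw' : vs.Pairwise (fun u v => QuadraticMap.polar ⇑Q u v = 0 ∧
      QuadraticMap.polar ⇑Q u (M *ᵥ v) = 0) := by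
    refine hpw.imp ?_
    intro a b hab
    rw [hBpol, hBpol, hTdef, Matrix.toLin'_apply] at hab
    exact hab
  have hilQ := spinm_il_ne Q h2 M hiso hpol hMM vs hvsQ
  have hclaim := spinm_prod Q h2 M hiso hpol hMM vs hvsQ hpw'
  have hgg : reflList Q (spinmIl M vs) hilQ = g := by
    apply isometry_ext Q
    rw [coe_reflList, ← hM]
    apply Matrix.toLin'.injective
    refine LinearMap.ext_on hspan ?_
    rintro y ⟨v, hv, hy | hy⟩
    · rw [hy, Matrix.toLin'_apply, Matrix.toLin'_apply]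
      exact (hclaim v hv).1
    · rw [hy, hTdef, Matrix.toLin'_apply, Matrix.toLin'_apply, Matrix.toLin'_apply,
        (hclaim v hv).2, hMM]
  have hspin : spinChar Q 1 g = 1 := spinChar_eq_one_of_mem Q 1 g hg
  rw [← hgg, spinChar_reflList Q h2 1 one_ne_zero _ hilQ,
    spinm_count Q h2 M hiso hpol hMM hns2 vs hvsQ, hlen] at hspin
  have heven : Even d := (neg_one_pow_eq_one_iff_even (by decide)).mp hspin
  exact (Nat.not_even_iff_odd.mpr hd) heven

end Concrete

universe u

variable {F : Type u} [Field F] [Fintype F]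

/-- SPINM -/
theorem cpx_not_mem_omega_minus (h2 : (2 : F) ≠ 0) (k : ℕ) (a b : F)
    (hab : ∀ x y : F, x ^ 2 + a * x * y + b * y ^ 2 = 0 → x = 0 ∧ y = 0) (hk : Even k)
    (h8 : Fintype.card F % 8 = 3) (x : GL ((Fin k ⊕ Fin k) ⊕ Fin 2) F)
    (hx : x ∈ Cfsg.Geo.omegaGL (Cfsg.quadFormMinus k F a b))
    (hx2 : (x : Matrix ((Fin k ⊕ Fin k) ⊕ Fin 2) ((Fin k ⊕ Fin k) ⊕ Fin 2) F)
        * (x : Matrix ((Fin k ⊕ Fin k) ⊕ Fin 2) ((Fin k ⊕ Fin k) ⊕ Fin 2) F)
      = (-1 : F) • (1 : Matrix ((Fin k ⊕ Fin k) ⊕ Fin 2) ((Fin k ⊕ Fin k) ⊕ Fin 2) F)) :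
    False := by
  have hx' : x ∈ Cfsg.Geo.omegaGL ⇑(QMinus k F a b) := by rw [coe_QMinus]; exact hx
  obtain ⟨g, hg, rfl⟩ := Cfsg.Agent.Lib.Helper52.exists_of_mem_omegaGL (QMinus k F a b) hx'
  have hns2 : ¬ IsSquare (2 : F) := by
    rw [FiniteField.isSquare_two_iff]
    omega
  refine spinm_general (QMinus k F a b) h2
    (Cfsg.Agent.Lib.Helper51.OMinus.QMinus_nondeg h2 k a b hab) hns2 (k + 1)
    (Even.add_one hk) ?_ g hg hx2
  simp only [Fintype.card_sum, Fintype.card_fin]
  ring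

end Cfsg.Agent.Lib.Helper98.T73
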