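import Cfsg.Agent.Lib.Helper22.W2Defs
import Cfsg.Agent.Lib.Helper83.Linear

/-!
Project W2 (S4707, architect helper22), piece SYLP: in a primitive group of degree `2p`
(`p > 2`) whose Sylow `p`-normalizer has order `2p`, the Sylow `p`-subgroups have order `p`.
-/

set_option autoImplicit false

namespace Cfsg.Agent.Lib.Helper17.W2

open Cfsg Cfsg.Agent.Lib.Helper83 Cfsg.Agent.Lib.Helper22.W2
open scoped ComplexConjugate

universe u

variable {α : Type*} [Fintype α] [DecidableEq α]

/-- PIECE SYLP -/
theorem sylp {p : ℕ} [Fact p.Prime] (hp : 2 < p) (hα : Fintype.card α = 2 * p)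
    (G : Subgroup (Equiv.Perm α)) (hprim : MulAction.IsPreprimitive G α) (P : Sylow p G)
    (hN : Nat.card (Subgroup.normalizer ((P : Subgroup G) : Set G)) = 2 * p) :
    Nat.card P = p := by
  classical
  have hpp : p.Prime := Fact.out
  have hne : Nonempty α := by
    rw [← Fintype.card_pos_iff, hα]; omega
  obtain ⟨a⟩ := hne
  haveI := hprim.toIsPretransitive
  have h1 : (MulAction.stabilizer G a).index = Nat.card α :=
    MulAction.index_stabilizer_of_transitive G a
  have h2 : 2 * p ∣ Nat.card G := by
    rw [← hα, ← Nat.card_eq_fintype_card, ← h1]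
    exact Subgroup.index_dvd_card _
  have h3 : p ∣ Nat.card G := dvd_trans (dvd_mul_left p 2) h2
  have hcard := P.card_eq_multiplicity
  have hpos : 0 < (Nat.card G).factorization p :=
    hpp.factorization_pos_of_dvd Nat.card_pos.ne' h3
  have h4 : Nat.card P ∣ 2 * p := by
    rw [← hN]
    exact Subgroup.card_dvd_of_le Subgroup.le_normalizer
  rw [hcard] at h4 ⊢
  have hk : (Nat.card G).factorization p = 1 := by
    by_contra hk1
    have hk2 : 2 ≤ (Nat.card G).factorization p := by omega
    have h5 : p ^ 2 ∣ 2 * p := dvd_trans (pow_dvd_pow p hk2) h4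
    rw [pow_two, mul_comm 2 p] at h5
    have h6 : p ∣ 2 := Nat.dvd_of_mul_dvd_mul_left hpp.pos h5
    have h7 := Nat.le_of_dvd (by norm_num) h6
    omega
  rw [hk, pow_one]

end Cfsg.Agent.Lib.Helper17.W2
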