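import Cfsg.Agent.Lib.Helper17.PermMod4

set_option autoImplicit false

namespace Cfsg.Agent.Lib.Helper17

open scoped Matrix

section TwoByTwo

variable {R : Type*} [CommRing R]

/-- A trace-one idempotent `2 × 2` matrix over a commutative ring has "rank one". -/
theorem two_idem_sandwich (e X : Matrix (Fin 2) (Fin 2) R) (he : e * e = e) (ht : e.trace = 1) :
    e * X * e = (X * e).trace • e := by
  have h00 := congrFun (congrFun he 0) 0
  simp only [Matrix.mul_apply, Fin.sum_univ_two] at h00
  simp only [Matrix.trace, Matrix.diag_apply, Fin.sum_univ_two] at ht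
  have hdet : e 0 1 * e 1 0 = e 0 0 * e 1 1 := by linear_combination h00 - e 0 0 * ht
  ext i j
  fin_cases i <;> fin_cases j <;>
    simp only [Matrix.mul_apply, Fin.sum_univ_two, Matrix.trace, Matrix.diag_apply,
      Matrix.smul_apply, smul_eq_mul, Fin.zero_eta, Fin.mk_one]
  · linear_combination (X 1 1) * hdet
  · linear_combination (-(X 0 1)) * hdet
  · linear_combination (-(X 1 0)) * hdet
  · linear_combination (X 0 0) * hdet

theorem two_trace_mul (e X Y : Matrix (Fin 2) (Fin 2) R) (u u' : R) (he : e * e = e)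
    (ht : e.trace = 1) (hXe : X * e = u • e) (hYe : Y * e = u' • e) (hYc : Y * e = e * Y) :
    (X * Y).trace = u * u' + (X.trace - u) * (Y.trace - u') := by
  set e' : Matrix (Fin 2) (Fin 2) R := 1 - e with he'
  have h1 : e' * e' = e' := by
    rw [he', Matrix.sub_mul, Matrix.mul_sub, Matrix.mul_sub, Matrix.one_mul, Matrix.mul_one,
      Matrix.one_mul, he]
    abel
  have h2 : e'.trace = 1 := by
    rw [he', Matrix.trace_sub, Matrix.trace_one, ht]
    simp
    norm_num
  have h3 : Y * e' = e' * Y := by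
    rw [he', Matrix.mul_sub, Matrix.sub_mul, Matrix.mul_one, Matrix.one_mul, hYc]
  have h4 : X * Y = X * Y * e + X * e' * Y * e' := by
    have : X * e' * Y * e' = X * Y * e' := by
      rw [Matrix.mul_assoc X e' Y, ← h3, Matrix.mul_assoc X (Y * e') e', Matrix.mul_assoc Y e' e',
        h1, ← Matrix.mul_assoc]
    rw [this, ← Matrix.mul_add, he']
    simp
  have h5 : (X * Y * e).trace = u * u' := by
    rw [Matrix.mul_assoc, hYe, Matrix.mul_smul, hXe, smul_smul, Matrix.trace_smul, ht]
    simp [mul_comm]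
  have h6 : (X * e' * Y * e').trace = (X * e').trace * (Y * e').trace := by
    rw [Matrix.trace_mul_comm, ← Matrix.mul_assoc, ← Matrix.mul_assoc, two_idem_sandwich e' X h1 h2,
      Matrix.smul_mul, Matrix.trace_smul, smul_eq_mul, Matrix.trace_mul_comm e' Y]
  have h7 : (X * e').trace = X.trace - u := by
    rw [he', Matrix.mul_sub, Matrix.mul_one, Matrix.trace_sub, hXe, Matrix.trace_smul, ht]
    simp
  have h8 : (Y * e').trace = Y.trace - u' := by
    rw [he', Matrix.mul_sub, Matrix.mul_one, Matrix.trace_sub, hYe, Matrix.trace_smul, ht]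
    simp
  rw [h4, Matrix.trace_add, h5, h6, h7, h8]

end TwoByTwo

section Emb

variable {P : Type*} [Group P] [Fintype P] [DecidableEq P]

/-- Functions on a finite group as elements of the group algebra. -/
noncomputable def emb (c : P → ℂ) : MonoidAlgebra ℂ P := ∑ g : P, MonoidAlgebra.single g (c g)

theorem coeff_emb (c : P → ℂ) (h : P) : (emb c).coeff h = c h := by
  simp [emb, MonoidAlgebra.coeff_sum, Finsupp.single_apply]

theorem emb_add (c c' : P → ℂ) : emb (fun g => c g + c' g) = emb c + emb c' := by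
  simp [emb, MonoidAlgebra.single_add, Finset.sum_add_distrib]

theorem emb_sub (c c' : P → ℂ) : emb (fun g => c g - c' g) = emb c - emb c' := by
  simp [emb, MonoidAlgebra.single_sub, Finset.sum_sub_distrib]

theorem emb_mul (c c' : P → ℂ) :
    emb c * emb c' = emb (fun g => ∑ h : P, c h * c' (h⁻¹ * g)) := by
  unfold emb
  rw [Finset.sum_mul_sum]
  simp only [MonoidAlgebra.single_mul_single]
  have h1 : ∀ g : P, MonoidAlgebra.single g (∑ h : P, c h * c' (h⁻¹ * g)) =
      ∑ h : P, MonoidAlgebra.single g (c h * c' (h⁻¹ * g)) :=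
    fun g => map_sum (MonoidAlgebra.singleAddHom g) _ _
  simp only [h1]
  conv_rhs => rw [Finset.sum_comm]
  refine Finset.sum_congr rfl fun h _ => ?_
  conv_rhs => rw [← Equiv.sum_comp (Equiv.mulLeft h)]
  simp

end Emb

section Blk

variable {P : Type*} [CommGroup P] [Fintype P] [DecidableEq P] {Ω : Type*} [Fintype Ω]
  [DecidableEq Ω] [MulAction P Ω]

/-- The block form of a matrix relative to a free action with two orbits. -/
noncomputable def blk (P : Type*) [CommGroup P] [Fintype P] [DecidableEq P] {Ω : Type*}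
    [MulAction P Ω] (a : Fin 2 → Ω) (X : Matrix Ω Ω ℂ) :
    Matrix (Fin 2) (Fin 2) (MonoidAlgebra ℂ P) :=
  Matrix.of fun i j => emb (fun g : P => X (a i) (g • a j))

theorem blk_mul (a : Fin 2 → Ω) (hbij : Function.Bijective (fun q : Fin 2 × P => q.2 • a q.1))
    (X Y : Matrix Ω Ω ℂ) (hY : InvMat P Y) : blk P a (X * Y) = blk P a X * blk P a Y := by
  refine Matrix.ext fun i j => ?_
  rw [Matrix.mul_apply]
  simp only [blk, Matrix.of_apply, emb_mul, Fin.sum_univ_two]
  rw [← emb_add]
  congr 1
  funext g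
  have key : ∀ k : Fin 2, ∑ h : P, X (a i) (h • a k) * Y (h • a k) (g • a j) =
      ∑ h : P, X (a i) (h • a k) * Y (a k) ((h⁻¹ * g) • a j) := by
    intro k
    refine Finset.sum_congr rfl fun h _ => ?_
    rw [← hY h (a k) ((h⁻¹ * g) • a j), ← mul_smul, mul_inv_cancel_left]
  rw [Matrix.mul_apply, ← (Equiv.ofBijective _ hbij).sum_comp, Fintype.sum_prod_type,
    Fin.sum_univ_two]
  simp only [Equiv.ofBijective_apply]
  rw [key 0, key 1]

/-- The block-diagonal coefficient function of a matrix. -/
def dd {P : Type*} {Ω : Type*} [SMul P Ω] (a : Fin 2 → Ω) (A : Matrix Ω Ω ℂ) (g : P) : ℂ :=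
  A (a 0) (g • a 0) + A (a 1) (g • a 1)

theorem trace_blk (a : Fin 2 → Ω) (X : Matrix Ω Ω ℂ) :
    (blk P a X).trace = emb (dd (P := P) a X) := by
  simp only [Matrix.trace, Matrix.diag_apply, Fin.sum_univ_two, blk, Matrix.of_apply]
  rw [← emb_add]
  rfl

theorem blk_main' (a : Fin 2 → Ω) (hbij : Function.Bijective (fun q : Fin 2 × P => q.2 • a q.1))
    (A B E : Matrix Ω Ω ℂ) (hB : InvMat P B) (hE : InvMat P E)
    (hEE : E * E = E) (hBE : B * E = E * B) (u u' : ℂ) (hAu : A * E = u • E)
    (hBu : B * E = u' • E) (hdE : ∀ g : P, dd a E g = if g = 1 then 1 else 0) :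
    dd a (A * B) (1 : P) = 2 * u * u' - u * dd a B (1 : P) - u' * dd a A (1 : P) +
      ∑ g : P, dd a A g * dd a B g⁻¹ := by
  set e := blk P a E with he_def
  have he : e * e = e := by rw [he_def, ← blk_mul a hbij E E hE, hEE]
  have ht : e.trace = 1 := by
    rw [he_def, trace_blk]
    have h1 : dd (P := P) a E = fun g : P => if g = 1 then 1 else 0 := funext hdE
    rw [h1, MonoidAlgebra.one_def]
    unfold emb
    rw [Finset.sum_eq_single (1 : P)]
    · simp
    · intro b _ hb
      simp [hb]
    · intro h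
      exact absurd (Finset.mem_univ _) h
  let δ : ℂ → P → ℂ := fun c g => if g = 1 then c else 0
  have hsm : ∀ (c : ℂ) (X : Matrix Ω Ω ℂ), blk P a (c • X) = emb (δ c) • blk P a X := by
    intro c X
    refine Matrix.ext fun i j => ?_
    simp only [blk, Matrix.of_apply, Matrix.smul_apply, smul_eq_mul, emb_mul]
    congr 1
    funext g
    simp [δ]
  have hXe : blk P a A * e = emb (δ u) • e := by rw [he_def, ← blk_mul a hbij A E hE, hAu, hsm]
  have hYe : blk P a B * e = emb (δ u') • e := by rw [he_def, ← blk_mul a hbij B E hE, hBu, hsm]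
  have hYc : blk P a B * e = e * blk P a B := by
    rw [he_def, ← blk_mul a hbij B E hE, ← blk_mul a hbij E B hB, hBE]
  have key := two_trace_mul e (blk P a A) (blk P a B) (emb (δ u)) (emb (δ u')) he ht hXe hYe hYc
  rw [← blk_mul a hbij A B hB, trace_blk, trace_blk, trace_blk, ← emb_sub, ← emb_sub, emb_mul,
    emb_mul, ← emb_add] at key
  have key2 := congrArg (fun F => F.coeff (1 : P)) key
  simp only [coeff_emb] at key2
  rw [key2]
  simp only [mul_one, δ, sub_mul, mul_sub, Finset.sum_sub_distrib, inv_eq_one, ite_mul, mul_ite,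
    zero_mul, mul_zero, Finset.sum_ite_eq', Finset.mem_univ, if_true, inv_one]
  ring

end Blk

section BlkGroup

variable {P : Type*} [Group P] [Fintype P] [DecidableEq P] {Ω : Type*} [Fintype Ω]
  [DecidableEq Ω] [MulAction P Ω]

/-- The key trace identity for a free abelian action with two orbits. -/
theorem blk_main (hcomm : ∀ g h : P, g * h = h * g) (a : Fin 2 → Ω)
    (hbij : Function.Bijective (fun q : Fin 2 × P => q.2 • a q.1))
    (A B E : Matrix Ω Ω ℂ) (hB : InvMat P B) (hE : InvMat P E)
    (hEE : E * E = E) (hBE : B * E = E * B) (u u' : ℂ) (hAu : A * E = u • E)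
    (hBu : B * E = u' • E) (hdE : ∀ g : P, dd a E g = if g = 1 then 1 else 0) :
    dd a (A * B) (1 : P) = 2 * u * u' - u * dd a B (1 : P) - u' * dd a A (1 : P) +
      ∑ g : P, dd a A g * dd a B g⁻¹ := by
  let _ : CommGroup P := { ‹Group P› with mul_comm := hcomm }
  exact blk_main' a hbij A B E hB hE hEE hBE u u' hAu hBu hdE

end BlkGroup

end Cfsg.Agent.Lib.Helper17
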