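import Cfsg.Agent.Lib.Helper17.W2pB

set_option autoImplicit false

namespace Cfsg.Agent.Lib.Helper17

open Cfsg Cfsg.Agent.Lib.Helper4 Cfsg.Agent.Lib.Helper80
open scoped ComplexConjugate Matrix

section Fourier

variable {p : ℕ} {ζ : ℂ}

theorem root_pow_ne_zero (hp : 0 < p) (hζ : IsPrimitiveRoot ζ p) (j k : ℕ) : (ζ ^ j) ^ k ≠ 0 :=
  pow_ne_zero _ (pow_ne_zero _ (hζ.ne_zero hp.ne'))

/-- Sum of the powers of a `p`-th root of unity. -/
theorem sum_pow_root (hp : 0 < p) (hζ : IsPrimitiveRoot ζ p) (a : ℕ) :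
    ∑ k ∈ Finset.range p, (ζ ^ a) ^ k = if p ∣ a then (p : ℂ) else 0 := by
  by_cases h : p ∣ a
  · rw [if_pos h]
    have h1 : ζ ^ a = 1 := (hζ.pow_eq_one_iff_dvd a).mpr h
    simp [h1]
  · rw [if_neg h]
    have h1 : ζ ^ a ≠ 1 := fun h1 => h ((hζ.pow_eq_one_iff_dvd a).mp h1)
    have h2 : (ζ ^ a) ^ p = 1 := by rw [← pow_mul, mul_comm, pow_mul, hζ.pow_eq_one, one_pow]
    have h3 := mul_geom_sum (ζ ^ a) p
    rw [h2, sub_self] at h3
    rcases mul_eq_zero.mp h3 with h4 | h4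
    · exact absurd (sub_eq_zero.mp h4) h1
    · exact h4

/-- Orthogonality of the characters of a cyclic group of order `p`. -/
theorem sum_root_pow (hp : 0 < p) (hζ : IsPrimitiveRoot ζ p) (j j' : ℕ) (hj : j < p) (hj' : j' < p) :
    ∑ k ∈ Finset.range p, (ζ ^ j') ^ k * ((ζ ^ j) ^ k)⁻¹ = if j' = j then (p : ℂ) else 0 := by
  by_cases h : j' = j
  · subst h
    rw [if_pos rfl]
    have : ∀ k ∈ Finset.range p, (ζ ^ j') ^ k * ((ζ ^ j') ^ k)⁻¹ = 1 :=
      fun k _ => mul_inv_cancel₀ (root_pow_ne_zero hp hζ j' k)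
    rw [Finset.sum_congr rfl this]
    simp
  · rw [if_neg h]
    have hz : ζ ≠ 0 := hζ.ne_zero hp.ne'
    have h1 : ζ ^ j' * (ζ ^ j)⁻¹ ≠ 1 := by
      intro h1
      apply h
      apply hζ.pow_inj hj' hj
      field_simp at h1
      exact h1
    have h2 : (ζ ^ j' * (ζ ^ j)⁻¹) ^ p = 1 := by
      rw [mul_pow, inv_pow, ← pow_mul, ← pow_mul, mul_comm j', mul_comm j, pow_mul, pow_mul,
        hζ.pow_eq_one, one_pow, one_pow, inv_one, mul_one]
    have h3 := mul_geom_sum (ζ ^ j' * (ζ ^ j)⁻¹) p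
    rw [h2, sub_self] at h3
    have h4 : ∑ k ∈ Finset.range p, (ζ ^ j') ^ k * ((ζ ^ j) ^ k)⁻¹ =
        ∑ k ∈ Finset.range p, (ζ ^ j' * (ζ ^ j)⁻¹) ^ k :=
      Finset.sum_congr rfl fun k _ => by rw [mul_pow, inv_pow]
    rw [h4]
    rcases mul_eq_zero.mp h3 with h5 | h5
    · exact absurd (sub_eq_zero.mp h5) h1
    · exact h5

/-- Fourier inversion on a cyclic group of order `p`. -/
theorem fourier_inv (hp : 0 < p) (hζ : IsPrimitiveRoot ζ p) (c : ℕ → ℂ) (j : ℕ) (hj : j < p) :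
    ∑ k ∈ Finset.range p, (∑ j' ∈ Finset.range p, c j' * (ζ ^ j') ^ k) * ((ζ ^ j) ^ k)⁻¹ =
      p * c j := by
  simp only [Finset.sum_mul]
  rw [Finset.sum_comm]
  have h1 : ∀ j' ∈ Finset.range p, ∑ k ∈ Finset.range p, c j' * (ζ ^ j') ^ k * ((ζ ^ j) ^ k)⁻¹ =
      c j' * (if j' = j then (p : ℂ) else 0) := by
    intro j' hj'
    rw [← sum_root_pow hp hζ j j' hj (Finset.mem_range.mp hj'), Finset.mul_sum]
    refine Finset.sum_congr rfl fun k _ => ?_
    ring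
  rw [Finset.sum_congr rfl h1]
  simp only [mul_ite, mul_zero, Finset.sum_ite_eq', Finset.mem_range, hj, if_true]
  ring

end Fourier

section NN

variable {G : Type*} [Group G] [Fintype G] {p : ℕ} {ζ : ℂ} {x : G}

theorem exists_nn (hp : 0 < p) (hx : x ^ p = 1) (hζ : IsPrimitiveRoot ζ p) (χ : IrrCharacter G) :
    ∃ m : ℕ → ℕ, ∀ k : ℕ,
      (χ : G → ℂ) (x ^ k) = ∑ j ∈ Finset.range p, (m j : ℂ) * (ζ ^ j) ^ k := by
  obtain ⟨n, ρ, hρ, hχ⟩ := χ.2
  obtain ⟨m, hm⟩ := character_pow_eq ρ x p hp hx ζ hζ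
  exact ⟨m, fun k => by rw [← hχ]; exact hm k⟩

open Classical in
/-- Fourier multiplicities of an irreducible character on the powers of `x`. -/
noncomputable def nn (p : ℕ) (ζ : ℂ) (x : G) (χ : IrrCharacter G) : ℕ → ℕ :=
  if h : 0 < p ∧ x ^ p = 1 ∧ IsPrimitiveRoot ζ p then
    Classical.choose (exists_nn h.1 h.2.1 h.2.2 χ) else 0

theorem nn_spec (hp : 0 < p) (hx : x ^ p = 1) (hζ : IsPrimitiveRoot ζ p) (χ : IrrCharacter G)
    (k : ℕ) :
    (χ : G → ℂ) (x ^ k) = ∑ j ∈ Finset.range p, (nn p ζ x χ j : ℂ) * (ζ ^ j) ^ k := by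
  have h : 0 < p ∧ x ^ p = 1 ∧ IsPrimitiveRoot ζ p := ⟨hp, hx, hζ⟩
  rw [nn, dif_pos h]
  exact Classical.choose_spec (exists_nn h.1 h.2.1 h.2.2 χ) k

theorem nn_eq (hp : 0 < p) (hx : x ^ p = 1) (hζ : IsPrimitiveRoot ζ p) (χ : IrrCharacter G)
    (j : ℕ) (hj : j < p) :
    (p : ℂ) * (nn p ζ x χ j : ℂ) =
      ∑ k ∈ Finset.range p, (χ : G → ℂ) (x ^ k) * ((ζ ^ j) ^ k)⁻¹ := by
  rw [← fourier_inv hp hζ (fun j => (nn p ζ x χ j : ℂ)) j hj]
  refine Finset.sum_congr rfl fun k _ => ?_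
  rw [nn_spec hp hx hζ χ k]

theorem nn_triv (hp : 0 < p) (hx : x ^ p = 1) (hζ : IsPrimitiveRoot ζ p) (j : ℕ) (hj : j < p) :
    nn p ζ x (trivIrr : IrrCharacter G) j = if j = 0 then 1 else 0 := by
  have h1 := nn_eq hp hx hζ (trivIrr : IrrCharacter G) j hj
  have h2 := sum_root_pow hp hζ j 0 hj hp
  simp only [trivIrr_apply, one_mul] at h1
  simp only [pow_zero, one_pow, one_mul] at h2
  rw [h2] at h1
  have hp0 : (p : ℂ) ≠ 0 := by exact_mod_cast hp.ne'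
  by_cases h0 : j = 0
  · rw [if_pos h0]
    rw [if_pos h0.symm] at h1
    have : (nn p ζ x (trivIrr : IrrCharacter G) j : ℂ) = 1 := by
      apply mul_left_cancel₀ hp0
      rw [h1, mul_one]
    exact_mod_cast this
  · rw [if_neg h0]
    rw [if_neg (Ne.symm h0)] at h1
    have : (nn p ζ x (trivIrr : IrrCharacter G) j : ℂ) = 0 := by
      rcases mul_eq_zero.mp h1 with h | h
      · exact absurd h hp0
      · exact h
    exact_mod_cast this

/-- The degree is the sum of the Fourier multiplicities. -/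
theorem deg_eq_sum_nn (hp : 0 < p) (hx : x ^ p = 1) (hζ : IsPrimitiveRoot ζ p)
    (χ : IrrCharacter G) : deg χ = ∑ j ∈ Finset.range p, nn p ζ x χ j := by
  have h1 := nn_spec hp hx hζ χ 0
  simp only [pow_zero, mul_one] at h1
  rw [deg_spec] at h1
  exact_mod_cast h1

end NN

section CharI

variable {G : Type*} [Group G] [Fintype G] {Ω : Type*} [Fintype Ω] [MulAction G Ω]
  [Fintype (IrrCharacter G)] {p : ℕ} {ζ : ℂ} {x : G}

omit [Fintype G] [Fintype (IrrCharacter G)] in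
theorem permChar_pow_fpf (hΩ : Fintype.card Ω = 2 * p) (hx : x ^ p = 1)
    (hfix : ∀ k : ℕ, ¬ p ∣ k → ∀ ω : Ω, x ^ k • ω ≠ ω) (k : ℕ) :
    permChar G Ω (x ^ k) = if p ∣ k then ((2 * p : ℕ) : ℂ) else 0 := by
  by_cases h : p ∣ k
  · obtain ⟨m, rfl⟩ := h
    rw [if_pos ⟨m, rfl⟩, pow_mul, hx, one_pow, permChar, MulAction.fixedBy_one_eq_univ, ← hΩ,
      Nat.card_coe_set_eq, Set.ncard_univ, Nat.card_eq_fintype_card]
  · rw [if_neg h, permChar]
    have : MulAction.fixedBy Ω (x ^ k) = ∅ := by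
      ext ω
      simp only [MulAction.mem_fixedBy, Set.mem_empty_iff_false, iff_false]
      exact hfix k h ω
    rw [this]
    simp

theorem sum_mult_nn (hp : 0 < p) (hΩ : Fintype.card Ω = 2 * p) (hx : x ^ p = 1)
    (hζ : IsPrimitiveRoot ζ p) (hfix : ∀ k : ℕ, ¬ p ∣ k → ∀ ω : Ω, x ^ k • ω ≠ ω)
    (j : ℕ) (hj : j < p) :
    ∑ χ : IrrCharacter G, mult G Ω χ * nn p ζ x χ j = 2 := by
  have hp0 : (p : ℂ) ≠ 0 := by exact_mod_cast hp.ne'
  have h1 : (p : ℂ) * ∑ χ : IrrCharacter G, (mult G Ω χ : ℂ) * (nn p ζ x χ j : ℂ) = p * 2 := by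
    rw [Finset.mul_sum]
    have h2 : ∀ χ : IrrCharacter G, (p : ℂ) * ((mult G Ω χ : ℂ) * (nn p ζ x χ j : ℂ)) =
        ∑ k ∈ Finset.range p, (mult G Ω χ : ℂ) * (χ : G → ℂ) (x ^ k) * ((ζ ^ j) ^ k)⁻¹ := by
      intro χ
      rw [mul_left_comm, nn_eq hp hx hζ χ j hj, Finset.mul_sum]
      refine Finset.sum_congr rfl fun k _ => ?_
      ring
    rw [Finset.sum_congr rfl fun χ _ => h2 χ, Finset.sum_comm]
    have h3 : ∀ k ∈ Finset.range p,
        ∑ χ : IrrCharacter G, (mult G Ω χ : ℂ) * (χ : G → ℂ) (x ^ k) * ((ζ ^ j) ^ k)⁻¹ =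
        (if k = 0 then ((2 * p : ℕ) : ℂ) else 0) := by
      intro k hk
      rw [← Finset.sum_mul]
      have h4 := congrFun (permChar_expansion (G := G) (Ω := Ω)) (x ^ k)
      rw [Finset.sum_apply] at h4
      simp only [Pi.smul_apply, smul_eq_mul] at h4
      rw [← h4, permChar_pow_fpf hΩ hx hfix k]
      by_cases hk0 : k = 0
      · subst hk0
        simp
      · rw [if_neg hk0, if_neg, zero_mul]
        intro hdvd
        have := Nat.le_of_dvd (Nat.pos_of_ne_zero hk0) hdvd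
        have := Finset.mem_range.mp hk
        omega
    rw [Finset.sum_congr rfl h3, Finset.sum_ite_eq', if_pos (Finset.mem_range.mpr hp)]
    push_cast
    ring
  have h5 : ((∑ χ : IrrCharacter G, mult G Ω χ * nn p ζ x χ j : ℕ) : ℂ) = 2 := by
    push_cast
    exact mul_left_cancel₀ hp0 h1
  exact_mod_cast h5

omit [Fintype Ω] [MulAction G Ω] [Fintype (IrrCharacter G)] in
/-- Values of a Galois-stable character on the powers of `x`. -/
theorem galois_stable_values (hp : p.Prime) (hx : x ^ p = 1) (χ : IrrCharacter G)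
    (hgal : ∀ (k : ℕ) (hk : Nat.Coprime k (Nat.card G)), galConj k hk χ = χ) (s : ℕ)
    (hs : ¬ p ∣ s) : (χ : G → ℂ) (x ^ s) = (χ : G → ℂ) x := by
  obtain ⟨k, hk, hks⟩ := exists_coprime_modEq hp (Nat.card G) s Nat.card_pos.ne' hs
  have h1 : x ^ s = x ^ k := by
    rw [pow_eq_pow_mod s hx, pow_eq_pow_mod k hx, hks]
  rw [h1, ← galConj_apply k hk χ x, hgal k hk]

omit [Fintype Ω] [MulAction G Ω] [Fintype (IrrCharacter G)] in
theorem nn_const_of_stable (hp : p.Prime) (hx : x ^ p = 1) (hζ : IsPrimitiveRoot ζ p)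
    (χ : IrrCharacter G)
    (hgal : ∀ (k : ℕ) (hk : Nat.Coprime k (Nat.card G)), galConj k hk χ = χ) (j : ℕ)
    (hj0 : j ≠ 0) (hj : j < p) :
    (p : ℂ) * (nn p ζ x χ j : ℂ) = (χ : G → ℂ) 1 - (χ : G → ℂ) x := by
  rw [nn_eq hp.pos hx hζ χ j hj]
  have h1 : ∀ k ∈ Finset.range p, (χ : G → ℂ) (x ^ k) * ((ζ ^ j) ^ k)⁻¹ =
      (χ : G → ℂ) x * ((ζ ^ 0) ^ k * ((ζ ^ j) ^ k)⁻¹) +
        (if k = 0 then (χ : G → ℂ) 1 - (χ : G → ℂ) x else 0) := by
    intro k hk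
    by_cases hk0 : k = 0
    · subst hk0
      simp
    · rw [if_neg hk0, add_zero, pow_zero, one_pow, one_mul]
      congr 1
      apply galois_stable_values hp hx χ hgal k
      intro hdvd
      have := Nat.le_of_dvd (Nat.pos_of_ne_zero hk0) hdvd
      have := Finset.mem_range.mp hk
      omega
  rw [Finset.sum_congr rfl h1, Finset.sum_add_distrib, ← Finset.mul_sum,
    sum_root_pow hp.pos hζ j 0 hj hp.pos, if_neg (Ne.symm hj0), mul_zero, zero_add,
    Finset.sum_ite_eq', if_pos (Finset.mem_range.mpr hp.pos)]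

omit [Fintype Ω] [MulAction G Ω] [Fintype (IrrCharacter G)] in
theorem nn_zero_of_stable (hp : p.Prime) (hx : x ^ p = 1) (hζ : IsPrimitiveRoot ζ p)
    (χ : IrrCharacter G)
    (hgal : ∀ (k : ℕ) (hk : Nat.Coprime k (Nat.card G)), galConj k hk χ = χ) :
    (p : ℂ) * (nn p ζ x χ 0 : ℂ) = (χ : G → ℂ) 1 + ((p : ℂ) - 1) * (χ : G → ℂ) x := by
  rw [nn_eq hp.pos hx hζ χ 0 hp.pos]
  have h1 : ∀ k ∈ Finset.range p, (χ : G → ℂ) (x ^ k) * ((ζ ^ 0) ^ k)⁻¹ =
      (χ : G → ℂ) x + (if k = 0 then (χ : G → ℂ) 1 - (χ : G → ℂ) x else 0) := by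
    intro k hk
    by_cases hk0 : k = 0
    · subst hk0
      simp
    · rw [if_neg hk0, add_zero, pow_zero, one_pow, inv_one, mul_one]
      apply galois_stable_values hp hx χ hgal k
      intro hdvd
      have := Nat.le_of_dvd (Nat.pos_of_ne_zero hk0) hdvd
      have := Finset.mem_range.mp hk
      omega
  rw [Finset.sum_congr rfl h1, Finset.sum_add_distrib, Finset.sum_const, Finset.card_range,
    Finset.sum_ite_eq', if_pos (Finset.mem_range.mpr hp.pos), nsmul_eq_mul]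
  ring

omit [Fintype Ω] [MulAction G Ω] [Fintype (IrrCharacter G)] in
theorem nn_galConj_zero (hp : p.Prime) (hx : x ^ p = 1) (hζ : IsPrimitiveRoot ζ p)
    (χ : IrrCharacter G) (k : ℕ) (hk : Nat.Coprime k (Nat.card G)) (hkp : Nat.Coprime k p) :
    nn p ζ x (galConj k hk χ) 0 = nn p ζ x χ 0 := by
  have hp0 : (p : ℂ) ≠ 0 := by exact_mod_cast hp.pos.ne'
  have h1 := nn_eq hp.pos hx hζ (galConj k hk χ) 0 hp.pos
  have h2 : ∀ s ∈ Finset.range p, (galConj k hk χ : G → ℂ) (x ^ s) * ((ζ ^ 0) ^ s)⁻¹ =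
      ∑ j ∈ Finset.range p, (nn p ζ x χ j : ℂ) * (ζ ^ (j * k)) ^ s := by
    intro s _
    rw [pow_zero, one_pow, inv_one, mul_one, galConj_apply, ← pow_mul, nn_spec hp.pos hx hζ χ]
    refine Finset.sum_congr rfl fun j _ => ?_
    rw [← pow_mul, ← pow_mul]
    congr 2
    ring
  rw [Finset.sum_congr rfl h2, Finset.sum_comm] at h1
  have h3 : ∀ j ∈ Finset.range p, ∑ s ∈ Finset.range p, (nn p ζ x χ j : ℂ) * (ζ ^ (j * k)) ^ s =
      if j = 0 then (p : ℂ) * (nn p ζ x χ 0 : ℂ) else 0 := by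
    intro j hj
    rw [← Finset.mul_sum, sum_pow_root hp.pos hζ]
    by_cases hj0 : j = 0
    · subst hj0
      simp [mul_comm]
    · rw [if_neg hj0, if_neg, mul_zero]
      intro hdvd
      have h4 : p ∣ j := (Nat.Coprime.dvd_mul_right hkp.symm).mp hdvd
      have := Nat.le_of_dvd (Nat.pos_of_ne_zero hj0) h4
      have := Finset.mem_range.mp hj
      omega
  rw [Finset.sum_congr rfl h3, Finset.sum_ite_eq', if_pos (Finset.mem_range.mpr hp.pos)] at h1
  have h5 := mul_left_cancel₀ hp0 h1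
  exact_mod_cast h5

omit [Fintype G] [Fintype Ω] [Fintype (IrrCharacter G)] in
theorem orderOf_eq_of_fpf (hp : p.Prime) (hx : x ^ p = 1)
    (hfix : ∀ k : ℕ, ¬ p ∣ k → ∀ ω : Ω, x ^ k • ω ≠ ω) (a : Ω) : orderOf x = p := by
  haveI : Fact p.Prime := ⟨hp⟩
  apply orderOf_eq_prime hx
  intro h1
  apply hfix 1 (fun h => hp.one_lt.ne' (Nat.dvd_one.mp h)) a
  rw [h1, one_pow, one_smul]

/-- The distinguished constituent of the permutation character of a transitive group of degree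
`2p` containing a fixed-point-free element of order `p`. -/
theorem charI [MulAction.IsPretransitive G Ω] (hp : p.Prime) (hΩ : Fintype.card Ω = 2 * p)
    (hx : x ^ p = 1) (hζ : IsPrimitiveRoot ζ p)
    (hfix : ∀ k : ℕ, ¬ p ∣ k → ∀ ω : Ω, x ^ k • ω ≠ ω) :
    ∃ χ₀ : IrrCharacter G, χ₀ ≠ trivIrr ∧ mult G Ω χ₀ = 1 ∧ nn p ζ x χ₀ 0 = 1 ∧
      (∀ χ : IrrCharacter G, χ ≠ trivIrr → χ ≠ χ₀ → mult G Ω χ * nn p ζ x χ 0 = 0) ∧
      (∀ (k : ℕ) (hk : Nat.Coprime k (Nat.card G)), galConj k hk χ₀ = χ₀) ∧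
      ∃ b : ℕ, (∀ j, j ≠ 0 → j < p → nn p ζ x χ₀ j = b) ∧ deg χ₀ = 1 + (p - 1) * b ∧
        ∀ s : ℕ, ¬ p ∣ s → (χ₀ : G → ℂ) (x ^ s) = 1 - b := by
  classical
  have hpos := hp.pos
  have hΩne : Nonempty Ω := by
    apply Fintype.card_pos_iff.mp
    omega
  obtain ⟨a⟩ := hΩne
  have hord := orderOf_eq_of_fpf hp hx hfix a
  have hpdvd : p ∣ Nat.card G := by
    rw [← hord]
    exact orderOf_dvd_natCard x
  have hS := sum_mult_nn (G := G) (Ω := Ω) hpos hΩ hx hζ hfix 0 hpos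
  have ht : mult G Ω (trivIrr : IrrCharacter G) * nn p ζ x (trivIrr : IrrCharacter G) 0 = 1 := by
    rw [mult_triv a, nn_triv hpos hx hζ 0 hpos, if_pos rfl]
  rw [← Finset.add_sum_erase Finset.univ _ (Finset.mem_univ (trivIrr : IrrCharacter G)), ht] at hS
  have hS' : ∑ χ ∈ (Finset.univ : Finset (IrrCharacter G)).erase trivIrr,
      mult G Ω χ * nn p ζ x χ 0 = 1 := by omega
  obtain ⟨χ₀, hχ₀mem, hχ₀ne⟩ : ∃ χ₀ ∈ (Finset.univ : Finset (IrrCharacter G)).erase trivIrr,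
      mult G Ω χ₀ * nn p ζ x χ₀ 0 ≠ 0 := by
    by_contra hcon
    push Not at hcon
    rw [Finset.sum_eq_zero hcon] at hS'
    omega
  rw [← Finset.add_sum_erase _ _ hχ₀mem] at hS'
  have h1 : mult G Ω χ₀ * nn p ζ x χ₀ 0 = 1 := by omega
  have hrest : ∑ χ ∈ ((Finset.univ : Finset (IrrCharacter G)).erase trivIrr).erase χ₀,
      mult G Ω χ * nn p ζ x χ 0 = 0 := by omega
  have hχ₀t : χ₀ ≠ trivIrr := (Finset.mem_erase.mp hχ₀mem).1
  have hothers : ∀ χ : IrrCharacter G, χ ≠ trivIrr → χ ≠ χ₀ → mult G Ω χ * nn p ζ x χ 0 = 0 := by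
    intro χ h2 h3
    exact Finset.sum_eq_zero_iff.mp hrest χ
      (Finset.mem_erase.mpr ⟨h3, Finset.mem_erase.mpr ⟨h2, Finset.mem_univ _⟩⟩)
  have hmult : mult G Ω χ₀ = 1 := Nat.eq_one_of_mul_eq_one_right h1
  have hnn0 : nn p ζ x χ₀ 0 = 1 := Nat.eq_one_of_mul_eq_one_left h1
  have hgal : ∀ (k : ℕ) (hk : Nat.Coprime k (Nat.card G)), galConj k hk χ₀ = χ₀ := by
    intro k hk
    by_contra hne
    have hne_t : galConj k hk χ₀ ≠ trivIrr := by
      intro h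
      apply hχ₀t
      apply Subtype.ext
      funext g
      obtain ⟨g', rfl⟩ := (powCoprime hk.symm).surjective g
      have h2 := congrFun (congrArg Subtype.val h) g'
      rw [galConj_apply] at h2
      rw [powCoprime_apply]
      exact h2
    have h0 := hothers _ hne_t hne
    rw [mult_galConj, hmult, one_mul,
      nn_galConj_zero hp hx hζ χ₀ k hk (Nat.Coprime.coprime_dvd_right hpdvd hk), hnn0] at h0
    exact one_ne_zero h0
  refine ⟨χ₀, hχ₀t, hmult, hnn0, hothers, hgal, ?_⟩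
  have hp0 : (p : ℂ) ≠ 0 := by exact_mod_cast hpos.ne'
  have hA := nn_zero_of_stable hp hx hζ χ₀ hgal
  rw [hnn0, Nat.cast_one, mul_one] at hA
  have hB := fun j hj0 hj => nn_const_of_stable hp hx hζ χ₀ hgal j hj0 hj
  have h1p : 1 < p := hp.one_lt
  refine ⟨nn p ζ x χ₀ 1, ?_, ?_, ?_⟩
  · intro j hj0 hj
    have h2 := hB j hj0 hj
    have h3 := hB 1 one_ne_zero h1p
    have h4 : (nn p ζ x χ₀ j : ℂ) = (nn p ζ x χ₀ 1 : ℂ) := by
      apply mul_left_cancel₀ hp0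
      rw [h2, h3]
    exact_mod_cast h4
  · have h3 := hB 1 one_ne_zero h1p
    have h4 : ((deg χ₀ : ℕ) : ℂ) = ((1 + (p - 1) * nn p ζ x χ₀ 1 : ℕ) : ℂ) := by
      rw [← deg_spec]
      push_cast [Nat.cast_sub hpos]
      have h5 : (χ₀ : G → ℂ) x = 1 - (nn p ζ x χ₀ 1 : ℂ) := by
        apply mul_left_cancel₀ hp0
        linear_combination h3 - hA
      linear_combination h5 - h3
    exact_mod_cast h4
  · intro s hs
    rw [galois_stable_values hp hx χ₀ hgal s hs]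
    have h3 := hB 1 one_ne_zero h1p
    apply mul_left_cancel₀ hp0
    linear_combination h3 - hA

end CharI

end Cfsg.Agent.Lib.Helper17
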