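import Cfsg.Agent.Lib.Helper17.W2pC

set_option autoImplicit false

namespace Cfsg.Agent.Lib.Helper17

open Cfsg Cfsg.Agent.Lib.Helper4 Cfsg.Agent.Lib.Helper80
open scoped ComplexConjugate Matrix

section GroupN

variable {G : Type*} [Group G] {x : G} {p : ℕ}

theorem exists_pow_pow_eq (hp : p.Prime) (hx : x ^ p = 1) (s : ℕ) (hs : ¬ p ∣ s) :
    ∃ l : ℕ, (x ^ s) ^ l = x := by
  have hcop : Nat.Coprime s p := (Nat.coprime_comm.mp ((Nat.Prime.coprime_iff_not_dvd hp).mpr hs))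
  obtain ⟨l, -, hl⟩ := Nat.exists_mul_mod_eq_one_of_coprime hcop hp.one_lt
  refine ⟨l, ?_⟩
  rw [← pow_mul, pow_eq_pow_mod (s * l) hx, hl, pow_one]

/-- Membership in the normalizer of a finite cyclic subgroup. -/
theorem mem_normalizer_zpowers [Finite G] (n : G) (h : n * x * n⁻¹ ∈ Subgroup.zpowers x) :
    n ∈ Subgroup.normalizer ((Subgroup.zpowers x : Subgroup G) : Set G) := by
  apply Subgroup.mem_normalizer_fintype
  intro g hg
  obtain ⟨m, rfl⟩ := Subgroup.mem_zpowers_iff.mp hg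
  have h1 : n * x ^ m * n⁻¹ = (n * x * n⁻¹) ^ m := by
    rw [conj_zpow]
  show n * x ^ m * n⁻¹ ∈ Subgroup.zpowers x
  rw [h1]
  exact Subgroup.zpow_mem _ h m

theorem conj_mem_of_mem_normalizer (n : G)
    (hn : n ∈ Subgroup.normalizer ((Subgroup.zpowers x : Subgroup G) : Set G)) (g : G)
    (hg : g ∈ Subgroup.zpowers x) : n * g * n⁻¹ ∈ Subgroup.zpowers x :=
  (hn g).mp hg

/-- A class function summed over the conjugates of the non-trivial powers of an element of
prime order is controlled by the normalizer. -/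
theorem class_sum_le [Fintype G] (hp : p.Prime) (hord : orderOf x = p)
    (F : G → ℝ) (hF0 : ∀ g, 0 ≤ F g) (hFc : ∀ g c : G, F (c * g * c⁻¹) = F g) :
    (Nat.card G : ℝ) * ∑ s ∈ Finset.Ico 1 p, F (x ^ s) ≤
      (Nat.card (Subgroup.normalizer ((Subgroup.zpowers x : Subgroup G) : Set G)) : ℝ) *
        ∑ g : G, F g := by
  classical
  have hx : x ^ p = 1 := by rw [← hord]; exact pow_orderOf_eq_one x
  set N := Subgroup.normalizer ((Subgroup.zpowers x : Subgroup G) : Set G) with hN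
  let T : Finset (G × ℕ) := Finset.univ ×ˢ Finset.Ico 1 p
  let ι : G × ℕ → G := fun q => q.1 * x ^ q.2 * q.1⁻¹
  have h1 : (Nat.card G : ℝ) * ∑ s ∈ Finset.Ico 1 p, F (x ^ s) = ∑ q ∈ T, F (ι q) := by
    rw [Finset.sum_product]
    simp only [ι, hFc]
    rw [Finset.sum_const, Finset.card_univ, nsmul_eq_mul, Nat.card_eq_fintype_card]
  have h2 : ∑ q ∈ T, F (ι q) = ∑ g : G, ∑ q ∈ T with ι q = g, F (ι q) :=
    (Finset.sum_fiberwise_of_maps_to (fun q _ => Finset.mem_univ (ι q)) _).symm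
  have h3 : ∀ g : G, ∑ q ∈ T with ι q = g, F (ι q) ≤ (Nat.card N : ℝ) * F g := by
    intro g
    have h4 : ∑ q ∈ T with ι q = g, F (ι q) = ((T.filter (fun q => ι q = g)).card : ℝ) * F g := by
      rw [Finset.sum_congr rfl (fun q hq => by rw [(Finset.mem_filter.mp hq).2]), Finset.sum_const,
        nsmul_eq_mul]
    rw [h4]
    apply mul_le_mul_of_nonneg_right _ (hF0 g)
    have h5 : (T.filter (fun q => ι q = g)).card ≤ Nat.card N := by
      by_cases hne : (T.filter (fun q => ι q = g)).Nonempty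
      · obtain ⟨q₀, hq₀⟩ := hne
        have hcard : Nat.card N = (Finset.univ.filter (fun n : G => n ∈ N)).card := by
          rw [Nat.card_eq_fintype_card, Fintype.card_subtype]
        rw [hcard]
        have hq₀' := (Finset.mem_filter.mp hq₀)
        have hs₀ := Finset.mem_Ico.mp (Finset.mem_product.mp hq₀'.1).2
        apply Finset.card_le_card_of_injOn (fun q => q₀.1⁻¹ * q.1)
        · intro q hq
          have hq' := Finset.mem_filter.mp hq
          have hs := Finset.mem_Ico.mp (Finset.mem_product.mp hq'.1).2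
          simp only [Finset.coe_filter, Finset.mem_univ, true_and, Set.mem_ofPred_eq]
          have hndvd : ¬ p ∣ q.2 := fun hd => by
            have := Nat.le_of_dvd (by omega) hd
            omega
          obtain ⟨l, hl⟩ := exists_pow_pow_eq hp hx q.2 hndvd
          apply mem_normalizer_zpowers
          have h6 : q₀.1⁻¹ * q.1 * x ^ q.2 * (q₀.1⁻¹ * q.1)⁻¹ = x ^ q₀.2 := by
            have h7 : q.1 * x ^ q.2 * q.1⁻¹ = q₀.1 * x ^ q₀.2 * q₀.1⁻¹ := hq'.2.trans hq₀'.2.symm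
            calc q₀.1⁻¹ * q.1 * x ^ q.2 * (q₀.1⁻¹ * q.1)⁻¹
                = q₀.1⁻¹ * (q.1 * x ^ q.2 * q.1⁻¹) * q₀.1 := by group
              _ = x ^ q₀.2 := by rw [h7]; group
          have h8 : q₀.1⁻¹ * q.1 * x * (q₀.1⁻¹ * q.1)⁻¹ = (x ^ q₀.2) ^ l := by
            calc q₀.1⁻¹ * q.1 * x * (q₀.1⁻¹ * q.1)⁻¹
                = q₀.1⁻¹ * q.1 * (x ^ q.2) ^ l * (q₀.1⁻¹ * q.1)⁻¹ := by rw [hl]
              _ = (q₀.1⁻¹ * q.1 * x ^ q.2 * (q₀.1⁻¹ * q.1)⁻¹) ^ l := conj_pow.symm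
              _ = (x ^ q₀.2) ^ l := by rw [h6]
          rw [h8]
          exact Subgroup.pow_mem _ (Subgroup.pow_mem _ (Subgroup.mem_zpowers x) _) _
        · intro q hq q' hq' hqq'
          have hq1 := Finset.mem_filter.mp hq
          have hq1' := Finset.mem_filter.mp hq'
          have hs := Finset.mem_Ico.mp (Finset.mem_product.mp hq1.1).2
          have hs' := Finset.mem_Ico.mp (Finset.mem_product.mp hq1'.1).2
          have h9 : q.1 = q'.1 := mul_left_cancel hqq'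
          have h10 : x ^ q.2 = x ^ q'.2 := by
            have h11 : q.1 * x ^ q.2 * q.1⁻¹ = q'.1 * x ^ q'.2 * q'.1⁻¹ := hq1.2.trans hq1'.2.symm
            rw [← h9] at h11
            exact mul_left_cancel (mul_right_cancel h11)
          have h12 : q.2 = q'.2 := by
            apply pow_injOn_Iio_orderOf (x := x)
            · rw [hord]; exact hs.2
            · rw [hord]; exact hs'.2
            · exact h10
          exact Prod.ext h9 h12
      · rw [Finset.not_nonempty_iff_eq_empty.mp hne]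
        simp
    exact_mod_cast h5
  rw [h1, h2, Finset.mul_sum]
  exact Finset.sum_le_sum fun g _ => h3 g

end GroupN

section CharII

variable {G : Type*} [Group G] [Fintype G] {Ω : Type*} [Fintype Ω] [MulAction G Ω]
  [Fintype (IrrCharacter G)] {p : ℕ} {ζ : ℂ} {x : G}

/-- A fixed-point-free element of prime order `p` on `2p` points. -/
structure Fpf (G : Type*) [Group G] (Ω : Type*) [Fintype Ω] [MulAction G Ω] (p : ℕ) (ζ : ℂ)
    (x : G) : Prop where
  prime : p.Prime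
  card : Fintype.card Ω = 2 * p
  pow : x ^ p = 1
  root : IsPrimitiveRoot ζ p
  fix : ∀ k : ℕ, ¬ p ∣ k → ∀ ω : Ω, x ^ k • ω ≠ ω

/-- The distinguished constituent, in the case where it restricts to the regular character. -/
structure Chi0 (Ω : Type*) [Fintype Ω] [MulAction G Ω] (p : ℕ) (ζ : ℂ) (x : G)
    (χ₀ : IrrCharacter G) : Prop where
  ne_triv : χ₀ ≠ trivIrr
  mult_one : mult G Ω χ₀ = 1
  nn_zero : nn p ζ x χ₀ 0 = 1
  others : ∀ χ : IrrCharacter G, χ ≠ trivIrr → χ ≠ χ₀ → mult G Ω χ * nn p ζ x χ 0 = 0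
  gal : ∀ (k : ℕ) (hk : Nat.Coprime k (Nat.card G)), galConj k hk χ₀ = χ₀
  nn_one : ∀ j, j ≠ 0 → j < p → nn p ζ x χ₀ j = 1

open Classical in
theorem sum_rest [MulAction.IsPretransitive G Ω] (hF : Fpf G Ω p ζ x) {χ₀ : IrrCharacter G}
    (h0 : Chi0 Ω p ζ x χ₀) (j : ℕ) (hj0 : j ≠ 0) (hj : j < p) :
    ∑ χ ∈ ((Finset.univ : Finset (IrrCharacter G)).erase trivIrr).erase χ₀,
      mult G Ω χ * nn p ζ x χ j = 1 := by
  have hpos := hF.prime.pos
  have hΩne : Nonempty Ω := by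
    apply Fintype.card_pos_iff.mp
    have := hF.card
    omega
  obtain ⟨a⟩ := hΩne
  have hS := sum_mult_nn (G := G) (Ω := Ω) hpos hF.card hF.pow hF.root hF.fix j hj
  rw [← Finset.add_sum_erase Finset.univ _ (Finset.mem_univ (trivIrr : IrrCharacter G)),
    nn_triv hpos hF.pow hF.root j hj, if_neg hj0, mul_zero, zero_add,
    ← Finset.add_sum_erase _ _ (Finset.mem_erase.mpr ⟨h0.ne_triv, Finset.mem_univ χ₀⟩),
    h0.mult_one, h0.nn_one j hj0 hj] at hS
  omega

theorem psi_basic [MulAction.IsPretransitive G Ω] (hF : Fpf G Ω p ζ x) {χ₀ : IrrCharacter G}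
    (h0 : Chi0 Ω p ζ x χ₀) (χ : IrrCharacter G) (h1 : χ ≠ trivIrr) (h2 : χ ≠ χ₀)
    (h3 : mult G Ω χ ≠ 0) :
    nn p ζ x χ 0 = 0 ∧ mult G Ω χ = 1 ∧ ∀ j, j ≠ 0 → j < p → nn p ζ x χ j ≤ 1 := by
  classical
  have hpos := hF.prime.pos
  have hn0 : nn p ζ x χ 0 = 0 := by
    rcases Nat.mul_eq_zero.mp (h0.others χ h1 h2) with h | h
    · exact absurd h h3
    · exact h
  have hmem : χ ∈ ((Finset.univ : Finset (IrrCharacter G)).erase trivIrr).erase χ₀ :=
    Finset.mem_erase.mpr ⟨h2, Finset.mem_erase.mpr ⟨h1, Finset.mem_univ _⟩⟩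
  have hle : ∀ j, j ≠ 0 → j < p → mult G Ω χ * nn p ζ x χ j ≤ 1 := by
    intro j hj0 hj
    rw [← sum_rest hF h0 j hj0 hj]
    exact Finset.single_le_sum (f := fun χ => mult G Ω χ * nn p ζ x χ j)
      (fun _ _ => Nat.zero_le _) hmem
  have hm1 : mult G Ω χ = 1 := by
    have hdeg := deg_eq_sum_nn hpos hF.pow hF.root χ
    have hdpos := deg_pos χ
    obtain ⟨j, hjmem, hjne⟩ : ∃ j ∈ Finset.range p, nn p ζ x χ j ≠ 0 := by
      by_contra hcon
      push Not at hcon
      rw [Finset.sum_eq_zero hcon] at hdeg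
      omega
    have hj := Finset.mem_range.mp hjmem
    have hj0 : j ≠ 0 := by
      rintro rfl
      exact hjne hn0
    have h4 := hle j hj0 hj
    have h5 : 0 < mult G Ω χ := Nat.pos_of_ne_zero h3
    have h6 : 0 < nn p ζ x χ j := Nat.pos_of_ne_zero hjne
    nlinarith
  refine ⟨hn0, hm1, ?_⟩
  intro j hj0 hj
  have := hle j hj0 hj
  rwa [hm1, one_mul] at this

theorem psi_disj [MulAction.IsPretransitive G Ω] (hF : Fpf G Ω p ζ x) {χ₀ : IrrCharacter G}
    (h0 : Chi0 Ω p ζ x χ₀) (χ χ' : IrrCharacter G) (h1 : χ ≠ trivIrr) (h2 : χ ≠ χ₀)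
    (h3 : mult G Ω χ ≠ 0) (h1' : χ' ≠ trivIrr) (h2' : χ' ≠ χ₀) (h3' : mult G Ω χ' ≠ 0)
    (hne : χ ≠ χ') (j : ℕ) (hj0 : j ≠ 0) (hj : j < p) :
    nn p ζ x χ j = 0 ∨ nn p ζ x χ' j = 0 := by
  classical
  have hmem : χ ∈ ((Finset.univ : Finset (IrrCharacter G)).erase trivIrr).erase χ₀ :=
    Finset.mem_erase.mpr ⟨h2, Finset.mem_erase.mpr ⟨h1, Finset.mem_univ _⟩⟩
  have hmem' : χ' ∈ (((Finset.univ : Finset (IrrCharacter G)).erase trivIrr).erase χ₀).erase χ :=
    Finset.mem_erase.mpr ⟨Ne.symm hne,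
      Finset.mem_erase.mpr ⟨h2', Finset.mem_erase.mpr ⟨h1', Finset.mem_univ _⟩⟩⟩
  have hS := sum_rest hF h0 j hj0 hj
  rw [← Finset.add_sum_erase _ _ hmem, ← Finset.add_sum_erase _ _ hmem',
    (psi_basic hF h0 χ h1 h2 h3).2.1, (psi_basic hF h0 χ' h1' h2' h3').2.1] at hS
  omega

open Classical in
/-- The constituents of the permutation character other than the two distinguished ones. -/
noncomputable def psiSet (Ω : Type*) [Fintype Ω] [MulAction G Ω] (χ₀ : IrrCharacter G) :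
    Finset (IrrCharacter G) :=
  Finset.univ.filter (fun χ => χ ≠ trivIrr ∧ χ ≠ χ₀ ∧ mult G Ω χ ≠ 0)

omit [Fintype Ω] in
theorem mem_psiSet [Fintype Ω] (χ₀ χ : IrrCharacter G) :
    χ ∈ psiSet Ω χ₀ ↔ χ ≠ trivIrr ∧ χ ≠ χ₀ ∧ mult G Ω χ ≠ 0 := by
  classical
  rw [psiSet, Finset.mem_filter]
  simp

open Classical in
theorem psiSet_eq (χ₀ : IrrCharacter G) :
    psiSet Ω χ₀ = (((Finset.univ : Finset (IrrCharacter G)).erase trivIrr).erase χ₀).filter
      (fun χ => mult G Ω χ ≠ 0) := by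
  ext χ
  rw [mem_psiSet, Finset.mem_filter, Finset.mem_erase, Finset.mem_erase]
  simp only [Finset.mem_univ, and_true]
  tauto

theorem rank_eq_psi [MulAction.IsPretransitive G Ω] (hF : Fpf G Ω p ζ x) {χ₀ : IrrCharacter G}
    (h0 : Chi0 Ω p ζ x χ₀) (a₀ : Ω) :
    Nat.card (MulAction.orbitRel.Quotient (MulAction.stabilizer G a₀) Ω) =
      (psiSet Ω χ₀).card + 2 := by
  classical
  rw [rank_eq_sum_sq a₀,
    ← Finset.add_sum_erase Finset.univ _ (Finset.mem_univ (trivIrr : IrrCharacter G)),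
    ← Finset.add_sum_erase _ _ (Finset.mem_erase.mpr ⟨h0.ne_triv, Finset.mem_univ χ₀⟩),
    mult_triv a₀, h0.mult_one, psiSet_eq, Finset.card_filter]
  have h1 : ∀ χ ∈ ((Finset.univ : Finset (IrrCharacter G)).erase trivIrr).erase χ₀,
      mult G Ω χ ^ 2 = if mult G Ω χ ≠ 0 then 1 else 0 := by
    intro χ hχ
    have h2 := Finset.mem_erase.mp hχ
    have h3 := Finset.mem_erase.mp h2.2
    by_cases hm : mult G Ω χ = 0
    · rw [hm]
      simp
    · rw [if_pos hm, (psi_basic hF h0 χ h3.1 h2.1 hm).2.1]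
      norm_num
  rw [Finset.sum_congr rfl h1]
  omega

theorem sum_deg_psi [MulAction.IsPretransitive G Ω] (hF : Fpf G Ω p ζ x) {χ₀ : IrrCharacter G}
    (h0 : Chi0 Ω p ζ x χ₀) : ∑ χ ∈ psiSet Ω χ₀, deg χ = p - 1 := by
  classical
  have hpos := hF.prime.pos
  have h1 := card_eq_sum_mult_deg (G := G) (Ω := Ω)
  have hΩne : Nonempty Ω := by
    apply Fintype.card_pos_iff.mp
    have := hF.card
    omega
  obtain ⟨a⟩ := hΩne
  have hdt : deg (trivIrr : IrrCharacter G) = 1 := by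
    have h2 := deg_spec (trivIrr : IrrCharacter G)
    rw [trivIrr_apply] at h2
    exact_mod_cast h2.symm
  have hd0 : deg χ₀ = p := by
    rw [deg_eq_sum_nn hpos hF.pow hF.root χ₀, Finset.range_eq_Ico,
      Finset.sum_eq_sum_Ico_succ_bot hpos, h0.nn_zero]
    have h2 : ∀ j ∈ Finset.Ico (0 + 1) p, nn p ζ x χ₀ j = 1 := by
      intro j hj
      have := Finset.mem_Ico.mp hj
      exact h0.nn_one j (by omega) this.2
    rw [Finset.sum_congr rfl h2]
    simp
    omega
  rw [← Finset.add_sum_erase Finset.univ _ (Finset.mem_univ (trivIrr : IrrCharacter G)),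
    ← Finset.add_sum_erase _ _ (Finset.mem_erase.mpr ⟨h0.ne_triv, Finset.mem_univ χ₀⟩),
    mult_triv a, h0.mult_one, hdt, hd0, hF.card] at h1
  have h3 : ∀ χ ∈ ((Finset.univ : Finset (IrrCharacter G)).erase trivIrr).erase χ₀,
      mult G Ω χ * deg χ = if mult G Ω χ ≠ 0 then deg χ else 0 := by
    intro χ hχ
    have h2 := Finset.mem_erase.mp hχ
    have h3 := Finset.mem_erase.mp h2.2
    by_cases hm : mult G Ω χ = 0
    · rw [hm]
      simp
    · rw [if_pos hm, (psi_basic hF h0 χ h3.1 h2.1 hm).2.1, one_mul]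
  rw [Finset.sum_congr rfl h3, ← Finset.sum_filter, ← psiSet_eq] at h1
  omega

omit [Fintype Ω] [MulAction G Ω] [Fintype (IrrCharacter G)] in
/-- Parseval for the difference of two characters on the powers of `x`. -/
theorem sum_normSq_diff (hp : 0 < p) (hx : x ^ p = 1) (hζ : IsPrimitiveRoot ζ p)
    (ψ ψ' : IrrCharacter G) :
    ∑ s ∈ Finset.range p, ((ψ : G → ℂ) (x ^ s) - (ψ' : G → ℂ) (x ^ s)) *
        conj ((ψ : G → ℂ) (x ^ s) - (ψ' : G → ℂ) (x ^ s)) =
      p * ∑ j ∈ Finset.range p, ((nn p ζ x ψ j : ℂ) - (nn p ζ x ψ' j : ℂ)) *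
        ((nn p ζ x ψ j : ℂ) - (nn p ζ x ψ' j : ℂ)) := by
  set c : ℕ → ℂ := fun j => (nn p ζ x ψ j : ℂ) - (nn p ζ x ψ' j : ℂ) with hc
  have h1 : ∀ s : ℕ, (ψ : G → ℂ) (x ^ s) - (ψ' : G → ℂ) (x ^ s) =
      ∑ j ∈ Finset.range p, c j * (ζ ^ j) ^ s := by
    intro s
    rw [nn_spec hp hx hζ ψ s, nn_spec hp hx hζ ψ' s, ← Finset.sum_sub_distrib]
    refine Finset.sum_congr rfl fun j _ => ?_
    rw [hc]
    ring
  have h2 : ∀ s : ℕ, conj ((ψ : G → ℂ) (x ^ s) - (ψ' : G → ℂ) (x ^ s)) =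
      ∑ j ∈ Finset.range p, c j * ((ζ ^ j) ^ s)⁻¹ := by
    intro s
    rw [h1 s, map_sum]
    refine Finset.sum_congr rfl fun j _ => ?_
    have h3 : ‖(ζ ^ j) ^ s‖ = 1 := by
      rw [norm_pow, norm_pow, hζ.norm'_eq_one hp.ne', one_pow, one_pow]
    rw [map_mul, Complex.inv_eq_conj h3, hc]
    simp
  have h4 : ∀ s ∈ Finset.range p, ((ψ : G → ℂ) (x ^ s) - (ψ' : G → ℂ) (x ^ s)) *
        conj ((ψ : G → ℂ) (x ^ s) - (ψ' : G → ℂ) (x ^ s)) =
      ∑ j ∈ Finset.range p, c j * ((∑ j' ∈ Finset.range p, c j' * (ζ ^ j') ^ s) *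
        ((ζ ^ j) ^ s)⁻¹) := by
    intro s _
    rw [h2 s, h1 s, Finset.mul_sum]
    refine Finset.sum_congr rfl fun j _ => ?_
    ring
  rw [Finset.sum_congr rfl h4, Finset.sum_comm, Finset.mul_sum]
  refine Finset.sum_congr rfl fun j hj => ?_
  rw [← Finset.mul_sum, fourier_inv hp hζ c j (Finset.mem_range.mp hj)]
  ring

/-- The normalizer of `⟨x⟩` is large. -/
theorem normalizer_ge [MulAction.IsPretransitive G Ω] (hF : Fpf G Ω p ζ x)
    {χ₀ : IrrCharacter G} (h0 : Chi0 Ω p ζ x χ₀) (ψ ψ' : IrrCharacter G)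
    (hψ : ψ ∈ psiSet Ω χ₀) (hψ' : ψ' ∈ psiSet Ω χ₀) (hne : ψ ≠ ψ') (hdeg : deg ψ = deg ψ') :
    p * deg ψ ≤ Nat.card (Subgroup.normalizer ((Subgroup.zpowers x : Subgroup G) : Set G)) := by
  classical
  have hpos := hF.prime.pos
  have hΩne : Nonempty Ω := by
    apply Fintype.card_pos_iff.mp
    have := hF.card
    omega
  obtain ⟨a⟩ := hΩne
  have hord := orderOf_eq_of_fpf hF.prime hF.pow hF.fix a
  rw [mem_psiSet] at hψ hψ'
  have hb := psi_basic hF h0 ψ hψ.1 hψ.2.1 hψ.2.2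
  have hb' := psi_basic hF h0 ψ' hψ'.1 hψ'.2.1 hψ'.2.2
  set φ : G → ℂ := fun g => (ψ : G → ℂ) g - (ψ' : G → ℂ) g with hφ
  set F : G → ℝ := fun g => Complex.normSq (φ g) with hFdef
  have hF0 : ∀ g, 0 ≤ F g := fun g => Complex.normSq_nonneg _
  have hFc : ∀ g c : G, F (c * g * c⁻¹) = F g := by
    intro g c
    simp only [hFdef, hφ]
    rw [isClassFunction_irr ψ g c, isClassFunction_irr ψ' g c]
  have key := class_sum_le hF.prime hord F hF0 hFc
  have hsumG : ∑ g : G, F g = 2 * (Nat.card G : ℝ) := by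
    have h1 : ((∑ g : G, F g : ℝ) : ℂ) = 2 * (Nat.card G : ℂ) := by
      push_cast
      simp only [hFdef, ← Complex.mul_conj, hφ, map_sub, sub_mul, mul_sub]
      rw [Finset.sum_sub_distrib, Finset.sum_sub_distrib, Finset.sum_sub_distrib]
      have e : ∀ α β : IrrCharacter G, ∑ g : G, (α : G → ℂ) g * conj ((β : G → ℂ) g) =
          (Nat.card G : ℂ) * (if α = β then 1 else 0) := by
        intro α β
        rw [← classInner_irr α β, classInner, ← mul_assoc, mul_inv_cancel₀ card_ne_zero_complex,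
          one_mul]
      rw [e ψ ψ, e ψ ψ', e ψ' ψ, e ψ' ψ', if_pos rfl, if_pos rfl, if_neg hne,
        if_neg (Ne.symm hne)]
      ring
    exact_mod_cast h1
  have hsumP : ∑ s ∈ Finset.Ico 1 p, F (x ^ s) = 2 * (p : ℝ) * (deg ψ : ℝ) := by
    have h1 : ∑ s ∈ Finset.range p, F (x ^ s) = 2 * (p : ℝ) * (deg ψ : ℝ) := by
      have h2 : ((∑ s ∈ Finset.range p, F (x ^ s) : ℝ) : ℂ) = 2 * (p : ℂ) * (deg ψ : ℂ) := by
        push_cast
        simp only [hFdef, ← Complex.mul_conj, hφ]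
        rw [sum_normSq_diff hpos hF.pow hF.root ψ ψ']
        have h3 : ∀ j ∈ Finset.range p,
            ((nn p ζ x ψ j : ℂ) - (nn p ζ x ψ' j : ℂ)) *
              ((nn p ζ x ψ j : ℂ) - (nn p ζ x ψ' j : ℂ)) =
            ((nn p ζ x ψ j + nn p ζ x ψ' j : ℕ) : ℂ) := by
          intro j hj
          have hj' := Finset.mem_range.mp hj
          have hfacts : nn p ζ x ψ j ≤ 1 ∧ nn p ζ x ψ' j ≤ 1 ∧
              (nn p ζ x ψ j = 0 ∨ nn p ζ x ψ' j = 0) := by
            by_cases hj0 : j = 0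
            · subst hj0
              rw [hb.1, hb'.1]
              simp
            · exact ⟨hb.2.2 j hj0 hj', hb'.2.2 j hj0 hj',
                psi_disj hF h0 ψ ψ' hψ.1 hψ.2.1 hψ.2.2 hψ'.1 hψ'.2.1 hψ'.2.2 hne j hj0 hj'⟩
          obtain ⟨ha, hb2, hab⟩ := hfacts
          generalize nn p ζ x ψ j = A at ha hab ⊢
          generalize nn p ζ x ψ' j = B at hb2 hab ⊢
          interval_cases A <;> interval_cases B <;> simp at hab ⊢
        rw [Finset.sum_congr rfl h3, ← Nat.cast_sum, Finset.sum_add_distrib,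
          ← deg_eq_sum_nn hpos hF.pow hF.root ψ, ← deg_eq_sum_nn hpos hF.pow hF.root ψ', ← hdeg]
        push_cast
        ring
      exact_mod_cast h2
    rw [Finset.range_eq_Ico, Finset.sum_eq_sum_Ico_succ_bot hpos] at h1
    have h0' : F (x ^ 0) = 0 := by
      simp only [hFdef, hφ, pow_zero, deg_spec, hdeg, sub_self, map_zero]
    rw [h0', zero_add] at h1
    exact h1
  rw [hsumG, hsumP] at key
  have hGpos : (0 : ℝ) < Nat.card G := by exact_mod_cast Nat.card_pos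
  have h5 : (p : ℝ) * deg ψ ≤
      Nat.card (Subgroup.normalizer ((Subgroup.zpowers x : Subgroup G) : Set G)) := by
    by_contra hcon
    push Not at hcon
    nlinarith
  exact_mod_cast h5

omit [Fintype Ω] [MulAction G Ω] [Fintype (IrrCharacter G)] in
theorem galConj_injective (k : ℕ) (hk : Nat.Coprime k (Nat.card G)) :
    Function.Injective (galConj k hk : IrrCharacter G → IrrCharacter G) := by
  intro χ χ' h
  apply Subtype.ext
  funext g
  obtain ⟨g', rfl⟩ := (powCoprime hk.symm).surjective g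
  have h2 := congrFun (congrArg Subtype.val h) g'
  rw [galConj_apply, galConj_apply] at h2
  rw [powCoprime_apply]
  exact h2

omit [Fintype Ω] [MulAction G Ω] [Fintype (IrrCharacter G)] in
theorem galConj_triv (k : ℕ) (hk : Nat.Coprime k (Nat.card G)) :
    galConj k hk (trivIrr : IrrCharacter G) = trivIrr := by
  apply Subtype.ext
  funext g
  rw [galConj_apply, trivIrr_apply, trivIrr_apply]

omit [Fintype Ω] [MulAction G Ω] [Fintype (IrrCharacter G)] in
theorem deg_galConj (k : ℕ) (hk : Nat.Coprime k (Nat.card G)) (χ : IrrCharacter G) :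
    deg (galConj k hk χ) = deg χ := by
  have h1 := deg_spec (galConj k hk χ)
  rw [galConj_apply, one_pow, deg_spec] at h1
  exact_mod_cast h1.symm

/-- The normalizer bound in terms of the rank. -/
theorem charII [MulAction.IsPretransitive G Ω] (hF : Fpf G Ω p ζ x) {χ₀ : IrrCharacter G}
    (h0 : Chi0 Ω p ζ x χ₀) (a₀ : Ω)
    (hrank : 4 ≤ Nat.card (MulAction.orbitRel.Quotient (MulAction.stabilizer G a₀) Ω)) :
    p * (p - 1) ≤ (Nat.card (MulAction.orbitRel.Quotient (MulAction.stabilizer G a₀) Ω) - 2) *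
      Nat.card (Subgroup.normalizer ((Subgroup.zpowers x : Subgroup G) : Set G)) := by
  classical
  have hpos := hF.prime.pos
  have hp0 : (p : ℂ) ≠ 0 := by exact_mod_cast hpos.ne'
  have hr := rank_eq_psi hF h0 a₀
  have hcard2 : 1 < (psiSet Ω χ₀).card := by omega
  have hne : (psiSet Ω χ₀).Nonempty := Finset.card_pos.mp (by omega)
  obtain ⟨ψ, hψ, hmax⟩ := Finset.exists_max_image (psiSet Ω χ₀) deg hne
  have hsum := sum_deg_psi hF h0
  have h1 : p - 1 ≤ (psiSet Ω χ₀).card * deg ψ := by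
    rw [← hsum]
    calc ∑ χ ∈ psiSet Ω χ₀, deg χ ≤ ∑ χ ∈ psiSet Ω χ₀, deg ψ := Finset.sum_le_sum hmax
      _ = (psiSet Ω χ₀).card * deg ψ := by rw [Finset.sum_const, smul_eq_mul]
  have hψm := (mem_psiSet χ₀ ψ).mp hψ
  have hnot : ¬ ∀ (k : ℕ) (hk : Nat.Coprime k (Nat.card G)), galConj k hk ψ = ψ := by
    intro hgal
    obtain ⟨ψ', hψ', hne'⟩ : ∃ ψ' ∈ psiSet Ω χ₀, ψ' ≠ ψ := Finset.exists_mem_ne hcard2 ψ
    have hψm' := (mem_psiSet χ₀ ψ').mp hψ'
    have hb := psi_basic hF h0 ψ hψm.1 hψm.2.1 hψm.2.2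
    have hb' := psi_basic hF h0 ψ' hψm'.1 hψm'.2.1 hψm'.2.2
    have hconst : ∀ j, j ≠ 0 → j < p → nn p ζ x ψ j = nn p ζ x ψ 1 := by
      intro j hj0 hj
      have h2 := nn_const_of_stable hF.prime hF.pow hF.root ψ hgal j hj0 hj
      have h3 := nn_const_of_stable hF.prime hF.pow hF.root ψ hgal 1 one_ne_zero hF.prime.one_lt
      have : (nn p ζ x ψ j : ℂ) = nn p ζ x ψ 1 := mul_left_cancel₀ hp0 (h2.trans h3.symm)
      exact_mod_cast this
    have hdeg := deg_eq_sum_nn hpos hF.pow hF.root ψ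
    have hdpos := deg_pos ψ
    have h1ne : nn p ζ x ψ 1 ≠ 0 := by
      intro h10
      have : ∀ j ∈ Finset.range p, nn p ζ x ψ j = 0 := by
        intro j hj
        by_cases hj0 : j = 0
        · subst hj0
          exact hb.1
        · rw [hconst j hj0 (Finset.mem_range.mp hj), h10]
      rw [Finset.sum_eq_zero this] at hdeg
      omega
    have hdeg' := deg_eq_sum_nn hpos hF.pow hF.root ψ'
    have hdpos' := deg_pos ψ'
    have : ∀ j ∈ Finset.range p, nn p ζ x ψ' j = 0 := by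
      intro j hj
      by_cases hj0 : j = 0
      · subst hj0
        exact hb'.1
      · rcases psi_disj hF h0 ψ ψ' hψm.1 hψm.2.1 hψm.2.2 hψm'.1 hψm'.2.1 hψm'.2.2
          (Ne.symm hne') j hj0 (Finset.mem_range.mp hj) with h | h
        · rw [hconst j hj0 (Finset.mem_range.mp hj)] at h
          exact absurd h h1ne
        · exact h
    rw [Finset.sum_eq_zero this] at hdeg'
    omega
  push Not at hnot
  obtain ⟨k, hk, hkne⟩ := hnot
  have hψ' : galConj k hk ψ ∈ psiSet Ω χ₀ := by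
    rw [mem_psiSet]
    refine ⟨?_, ?_, ?_⟩
    · intro h
      apply hψm.1
      apply galConj_injective k hk
      rw [h, galConj_triv]
    · intro h
      apply hψm.2.1
      apply galConj_injective k hk
      rw [h, h0.gal k hk]
    · rw [mult_galConj]
      exact hψm.2.2
  have h2 := normalizer_ge hF h0 ψ (galConj k hk ψ) hψ hψ' (Ne.symm hkne)
    (deg_galConj k hk ψ).symm
  rw [hr]
  calc p * (p - 1) ≤ p * ((psiSet Ω χ₀).card * deg ψ) := Nat.mul_le_mul_left _ h1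
    _ = (psiSet Ω χ₀).card * (p * deg ψ) := by ring
    _ ≤ (psiSet Ω χ₀).card *
        Nat.card (Subgroup.normalizer ((Subgroup.zpowers x : Subgroup G) : Set G)) :=
      Nat.mul_le_mul_left _ h2
    _ = ((psiSet Ω χ₀).card + 2 - 2) *
        Nat.card (Subgroup.normalizer ((Subgroup.zpowers x : Subgroup G) : Set G)) := by simp

end CharII

end Cfsg.Agent.Lib.Helper17
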