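import Cfsg.Agent.Lib.Helper17.W2pA
import Cfsg.Agent.Lib.Helper17.W2pD

set_option autoImplicit false

namespace Cfsg.Agent.Lib.Helper17

open Cfsg Cfsg.Agent.Lib.Helper4 Cfsg.Agent.Lib.Helper80
open scoped ComplexConjugate Matrix

section OrbRel

variable {G : Type*} [Group G] {Ω : Type*} [MulAction G Ω]

/-- The orbital relation on pairs of points. -/
def OrbR (G : Type*) [Group G] {Ω : Type*} [MulAction G Ω] (w w' : Ω × Ω) : Prop :=
  ∃ g : G, g • w.1 = w'.1 ∧ g • w.2 = w'.2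

theorem OrbR.refl (w : Ω × Ω) : OrbR G w w := ⟨1, one_smul _ _, one_smul _ _⟩

theorem OrbR.symm {w w' : Ω × Ω} (h : OrbR G w w') : OrbR G w' w := by
  obtain ⟨g, h1, h2⟩ := h
  exact ⟨g⁻¹, by rw [← h1, inv_smul_smul], by rw [← h2, inv_smul_smul]⟩

theorem OrbR.trans {w w' w'' : Ω × Ω} (h : OrbR G w w') (h' : OrbR G w' w'') : OrbR G w w'' := by
  obtain ⟨g, h1, h2⟩ := h
  obtain ⟨g', h1', h2'⟩ := h'
  exact ⟨g' * g, by rw [mul_smul, h1, h1'], by rw [mul_smul, h2, h2']⟩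

theorem OrbR.swap {w w' : Ω × Ω} (h : OrbR G w w') : OrbR G w.swap w'.swap := by
  obtain ⟨g, h1, h2⟩ := h
  exact ⟨g, h2, h1⟩

theorem OrbR.diag_iff {w w' : Ω × Ω} (h : OrbR G w w') : w.1 = w.2 ↔ w'.1 = w'.2 := by
  obtain ⟨g, h1, h2⟩ := h
  constructor
  · intro h
    rw [← h1, ← h2, h]
  · intro h
    exact smul_left_cancel g (by rw [h1, h2, h])

theorem OrbR.smul (g : G) (α β : Ω) : OrbR G (α, β) (g • α, g • β) := ⟨g, rfl, rfl⟩

theorem orbR_swap_iff (w : Ω × Ω) (α β : Ω) : OrbR G w.swap (β, α) ↔ OrbR G w (α, β) :=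
  ⟨fun h => h.swap, fun h => h.swap⟩

theorem orbR_swap_inv (w : Ω × Ω) (α : Ω) (g : G) :
    OrbR G w.swap (α, g⁻¹ • α) ↔ OrbR G w (α, g • α) := by
  constructor
  · intro h
    have h1 : OrbR G w (g⁻¹ • α, α) := h.swap
    exact h1.trans ⟨g, smul_inv_smul g α, rfl⟩
  · intro h
    have h1 : OrbR G w (g⁻¹ • α, α) := h.trans ⟨g⁻¹, rfl, inv_smul_smul g α⟩
    exact h1.swap

end OrbRel

section Data

variable {G : Type*} [Group G] {Ω : Type*} [MulAction G Ω]

open Classical in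
/-- Number of elements of `P` carrying a given orbital between two base points. -/
noncomputable def cnt (P : Subgroup G) [Fintype P] (a : Fin 2 → Ω) (w : Ω × Ω) (i j : Fin 2) : ℕ :=
  (Finset.univ.filter fun g : P => OrbR G w (a i, (g : G) • a j)).card

open Classical in
/-- The diagonal count of an orbital. -/
noncomputable def dcnt (P : Subgroup G) (a : Fin 2 → Ω) (w : Ω × Ω) (g : P) : ℕ :=
  (if OrbR G w (a 0, (g : G) • a 0) then 1 else 0) +
    (if OrbR G w (a 1, (g : G) • a 1) then 1 else 0)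

open Classical in
/-- The combinatorial data extracted from the distinguished idempotent. -/
structure WData (P : Subgroup G) [Fintype P] (a : Fin 2 → Ω) (K : Ω × Ω → ℕ) (U : Ω × Ω → ℤ) :
    Prop where
  comm : ∀ g h : P, g * h = h * g
  bij : Function.Bijective (fun q : Fin 2 × P => (q.2 : G) • a q.1)
  K_pos : ∀ w, 0 < K w
  K_orb : ∀ w w', OrbR G w w' → K w = K w'
  U_orb : ∀ w w', OrbR G w w' → U w = U w'
  K_swap : ∀ w : Ω × Ω, K w.swap = K w
  U_swap : ∀ w : Ω × Ω, U w.swap = U w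
  cnt00 : ∀ w, 2 * (cnt P a w 0 0 : ℤ) = K w + U w
  cnt11 : ∀ w, 2 * (cnt P a w 1 1 : ℤ) = K w + U w
  cnt01 : ∀ w, 2 * (cnt P a w 0 1 : ℤ) = K w - U w
  cnt10 : ∀ w, 2 * (cnt P a w 1 0 : ℤ) = K w - U w
  I2 : ∀ w w' : Ω × Ω, w.1 ≠ w.2 → w'.1 ≠ w'.2 →
    (if OrbR G w w' then 2 * (K w : ℤ) else 0) =
      2 * U w * U w' + ∑ g : P, (dcnt P a w g : ℤ) * (dcnt P a w' g : ℤ)
  I3 : ∀ g : P, g ≠ 1 →
    U (a 0, (g : G) • a 0) * (K (a 1, (g : G) • a 1) : ℤ) +
      U (a 1, (g : G) • a 1) * (K (a 0, (g : G) • a 0) : ℤ) = 0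
  neg : ∃ g : P, U (a 0, (g : G) • a 1) < 0
  K_one : ∀ w : Ω × Ω, K w = 1 → w.1 = w.2

end Data

section Mat

variable {G : Type*} [Group G] [Fintype G] [DecidableEq G] {Ω : Type*} [Fintype Ω] [DecidableEq Ω]
  [MulAction G Ω] [Fintype (IrrCharacter G)]
variable {P : Subgroup G} [Fintype P] {a : Fin 2 → Ω} {χ₀ : IrrCharacter G} {p : ℕ}

/-- The setup: an abelian subgroup acting freely with two orbits, on which the distinguished
constituent restricts to the regular character. -/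
structure PSet (P : Subgroup G) [Fintype P] (a : Fin 2 → Ω) (χ₀ : IrrCharacter G) (p : ℕ) :
    Prop where
  comm : ∀ g h : P, g * h = h * g
  bij : Function.Bijective (fun q : Fin 2 × P => (q.2 : G) • a q.1)
  ppos : 0 < p
  card : Fintype.card P = p
  chi : ∀ g : P, (χ₀ : G → ℂ) (g : G) = if g = 1 then (p : ℂ) else 0
  mult : mult G Ω χ₀ = 1
  ne_triv : χ₀ ≠ trivIrr

local notation "𝔼" => (idem (χ₀ : G → ℂ) : Matrix Ω Ω ℂ)

theorem PSet.cardΩ (hS : PSet (Ω := Ω) P a χ₀ p) : Fintype.card Ω = 2 * p := by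
  rw [← Fintype.card_congr (Equiv.ofBijective _ hS.bij), Fintype.card_prod, Fintype.card_fin,
    hS.card]

theorem PSet.deg (hS : PSet (Ω := Ω) P a χ₀ p) : (χ₀ : G → ℂ) 1 = p := by
  have := hS.chi 1
  simpa using this

theorem E_sq (hS : PSet (Ω := Ω) P a χ₀ p) : 𝔼 * 𝔼 = 𝔼 := idem_sq χ₀ hS.mult

theorem E_inv : InvMat G 𝔼 := idem_invMat (isClassFunction_irr χ₀)

theorem E_diag [MulAction.IsPretransitive G Ω] (hS : PSet (Ω := Ω) P a χ₀ p) (α : Ω) :
    𝔼 α α = 1 / 2 := by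
  have h := idem_diag (Ω := Ω) χ₀ α
  rw [hS.cardΩ, hS.deg, hS.mult] at h
  have hp : (p : ℂ) ≠ 0 := by exact_mod_cast hS.ppos.ne'
  push_cast at h
  apply mul_left_cancel₀ hp
  linear_combination (1 / 2 : ℂ) * h

theorem idem_comm {χ : G → ℂ} {A : Matrix Ω Ω ℂ} (hA : InvMat G A) :
    (idem χ : Matrix Ω Ω ℂ) * A = A * idem χ := by
  rw [idem_def, Matrix.smul_mul, Matrix.mul_smul, Matrix.sum_mul, Matrix.mul_sum]
  congr 1
  refine Finset.sum_congr rfl fun g _ => ?_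
  rw [Matrix.smul_mul, Matrix.mul_smul, hA.comm g]

theorem E_theta (hS : PSet (Ω := Ω) P a χ₀ p) {A : Matrix Ω Ω ℂ} (hA : InvMat G A) :
    A * 𝔼 = theta (χ₀ : G → ℂ) A • 𝔼 :=
  mul_idem_eq_theta χ₀.2 (by rw [mult_spec, hS.mult, Nat.cast_one]) hA

theorem sum_blocks (hS : PSet (Ω := Ω) P a χ₀ p) (f : Ω → ℂ) :
    ∑ β, f β = ∑ g : P, f ((g : G) • a 0) + ∑ g : P, f ((g : G) • a 1) := by
  rw [← (Equiv.ofBijective _ hS.bij).sum_comp, Fintype.sum_prod_type, Fin.sum_univ_two]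
  rfl


theorem E_dd (hS : PSet (Ω := Ω) P a χ₀ p) (g : P) :
    dd a 𝔼 g = if g = 1 then 1 else 0 := by
  have h1 := trace_idem_mul_pm (Ω := Ω) χ₀ (g : G)
  rw [hS.mult, Nat.cast_one, one_mul, hS.chi g] at h1
  have h2 : Matrix.trace (𝔼 * (pm (g : G) : Matrix Ω Ω ℂ)) = (p : ℂ) * dd a 𝔼 g := by
    rw [Matrix.trace]
    simp only [Matrix.diag_apply, mul_pm_apply]
    rw [sum_blocks hS]
    have key : ∀ i : Fin 2, ∑ h : P, 𝔼 ((h : G) • a i) ((g : G) • (h : G) • a i) =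
        (p : ℂ) * 𝔼 (a i) ((g : G) • a i) := by
      intro i
      have h3 : ∀ h : P, 𝔼 ((h : G) • a i) ((g : G) • (h : G) • a i) = 𝔼 (a i) ((g : G) • a i) := by
        intro h
        rw [← mul_smul, ← Subgroup.coe_mul, hS.comm g h, Subgroup.coe_mul, mul_smul]
        exact E_inv (h : G) (a i) ((g : G) • a i)
      rw [Finset.sum_congr rfl fun h _ => h3 h, Finset.sum_const, Finset.card_univ, hS.card,
        nsmul_eq_mul]
    rw [key 0, key 1]
    show _ = (p : ℂ) * (𝔼 (a 0) ((g : G) • a 0) + 𝔼 (a 1) ((g : G) • a 1))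
    ring
  rw [h2] at h1
  have hp : (p : ℂ) ≠ 0 := by exact_mod_cast hS.ppos.ne'
  apply mul_left_cancel₀ hp
  rw [h1]
  split_ifs <;> simp

/-- Block sums of a matrix. -/
noncomputable def TT (P : Subgroup G) [Fintype P] (a : Fin 2 → Ω) (A : Matrix Ω Ω ℂ)
    (i j : Fin 2) : ℂ :=
  ∑ g : P, A (a i) ((g : G) • a j)

theorem rowSum_TT (hS : PSet (Ω := Ω) P a χ₀ p) (A : Matrix Ω Ω ℂ) (i : Fin 2) :
    ∑ β, A (a i) β = TT P a A i 0 + TT P a A i 1 := sum_blocks hS _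

theorem colSum_TT (hS : PSet (Ω := Ω) P a χ₀ p) {A : Matrix Ω Ω ℂ} (hA : InvMat G A) (j : Fin 2) :
    ∑ α, A α (a j) = TT P a A 0 j + TT P a A 1 j := by
  rw [sum_blocks hS]
  have key : ∀ i : Fin 2, ∑ g : P, A ((g : G) • a i) (a j) = TT P a A i j := by
    intro i
    rw [TT, ← Equiv.sum_comp (Equiv.inv P)]
    refine Finset.sum_congr rfl fun g _ => ?_
    rw [Equiv.inv_apply]
    have h1 := hA (g : G) (((g⁻¹ : P) : G) • a i) (a j)
    rw [Subgroup.coe_inv, smul_inv_smul] at h1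
    rw [Subgroup.coe_inv]
    exact h1.symm
  rw [key 0, key 1]

theorem E_S [MulAction.IsPretransitive G Ω] (hS : PSet (Ω := Ω) P a χ₀ p) :
    TT P a 𝔼 0 0 = 1 / 2 ∧ TT P a 𝔼 1 0 = -1 / 2 ∧ TT P a 𝔼 0 1 = -1 / 2 := by
  have r0 := rowSum_TT hS 𝔼 0
  rw [idem_rowSum χ₀ hS.ne_triv] at r0
  have r1 := rowSum_TT hS 𝔼 1
  rw [idem_rowSum χ₀ hS.ne_triv] at r1
  have c0 := colSum_TT hS (E_inv (χ₀ := χ₀) (Ω := Ω)) 0
  rw [idem_colSum χ₀ hS.ne_triv] at c0
  have d : TT P a 𝔼 0 0 + TT P a 𝔼 1 1 = 1 := by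
    rw [TT, TT, ← Finset.sum_add_distrib]
    have h1 : ∀ g : P, 𝔼 (a 0) ((g : G) • a 0) + 𝔼 (a 1) ((g : G) • a 1) =
        if g = 1 then 1 else 0 := E_dd hS
    rw [Finset.sum_congr rfl fun g _ => h1 g]
    simp
  refine ⟨?_, ?_, ?_⟩
  · linear_combination (1 / 2 : ℂ) * d + (1 / 2 : ℂ) * r1 - (1 / 2 : ℂ) * c0
  · linear_combination (-1 / 2 : ℂ) * d - (1 / 2 : ℂ) * r1 - (1 / 2 : ℂ) * c0
  · linear_combination (-1 / 2 : ℂ) * d - (1 / 2 : ℂ) * r1 + (1 / 2 : ℂ) * c0 - r0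

theorem E_wv [MulAction.IsPretransitive G Ω] (hS : PSet (Ω := Ω) P a χ₀ p) {A : Matrix Ω Ω ℂ}
    (hA : InvMat G A) :
    TT P a A 0 0 - TT P a A 0 1 = theta (χ₀ : G → ℂ) A ∧
      TT P a A 1 1 - TT P a A 1 0 = theta (χ₀ : G → ℂ) A := by
  set wv : Ω → ℂ := fun β => ∑ g : P, 𝔼 β ((g : G) • a 0) with hwv
  have hw0 : wv (a 0) = 1 / 2 := (E_S hS).1
  have hw1 : wv (a 1) = -1 / 2 := (E_S hS).2.1
  have hwP : ∀ (h : P) (β : Ω), wv ((h : G) • β) = wv β := by
    intro h β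
    simp only [hwv]
    rw [← Equiv.sum_comp (Equiv.mulLeft h)]
    refine Finset.sum_congr rfl fun g _ => ?_
    rw [Equiv.coe_mulLeft, Subgroup.coe_mul, mul_smul]
    exact E_inv (h : G) β ((g : G) • a 0)
  have hAw : ∀ α, ∑ β, A α β * wv β = theta (χ₀ : G → ℂ) A * wv α := by
    intro α
    simp only [hwv, Finset.mul_sum]
    rw [Finset.sum_comm]
    refine Finset.sum_congr rfl fun g _ => ?_
    have h1 := congrFun (congrFun (E_theta hS hA) α) ((g : G) • a 0)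
    rw [Matrix.mul_apply, Matrix.smul_apply, smul_eq_mul] at h1
    exact h1
  have hrow : ∀ i, ∑ β, A (a i) β * wv β =
      TT P a A i 0 * (1 / 2) + TT P a A i 1 * (-1 / 2) := by
    intro i
    rw [sum_blocks hS, TT, TT, Finset.sum_mul, Finset.sum_mul]
    congr 1
    · exact Finset.sum_congr rfl fun g _ => by rw [hwP, hw0]
    · exact Finset.sum_congr rfl fun g _ => by rw [hwP, hw1]
  have e0 := hAw (a 0)
  rw [hrow 0, hw0] at e0
  have e1 := hAw (a 1)
  rw [hrow 1, hw1] at e1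
  constructor
  · linear_combination 2 * e0
  · linear_combination (-2 : ℂ) * e1

end Mat

section OM

variable {G : Type*} [Group G] {Ω : Type*} [MulAction G Ω]

/-- The orbital matrix of a pair, over `ℂ`. -/
noncomputable def oM (G : Type*) [Group G] {Ω : Type*} [MulAction G Ω] (w : Ω × Ω) :
    Matrix Ω Ω ℂ :=
  (orbMat G w.1 w.2).map (Int.castRingHom ℂ)

open Classical in
theorem oM_apply (w : Ω × Ω) (α β : Ω) :
    oM G w α β = if OrbR G w (α, β) then 1 else 0 := orbMat_map_apply w.1 w.2 α β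

theorem oM_inv (w : Ω × Ω) : InvMat G (oM G w) := orbMat_inv w.1 w.2

theorem oM_congr {w w' : Ω × Ω} (h : OrbR G w w') : oM G w = oM G w' := by
  classical
  ext α β
  have hiff : OrbR G w (α, β) ↔ OrbR G w' (α, β) :=
    ⟨fun h1 => h.symm.trans h1, fun h1 => h.trans h1⟩
  rw [oM_apply, oM_apply]
  simp only [hiff]

theorem oM_swap (w : Ω × Ω) (α β : Ω) : oM G w.swap β α = oM G w α β := by
  classical
  rw [oM_apply, oM_apply]
  simp only [orbR_swap_iff]

theorem oM_sq (w : Ω × Ω) (α β : Ω) : oM G w α β * oM G w α β = oM G w α β := by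
  classical
  rw [oM_apply]
  split_ifs <;> simp

/-- The size of the suborbit attached to a pair. -/
noncomputable def KK (G : Type*) [Group G] {Ω : Type*} [MulAction G Ω] (w : Ω × Ω) : ℕ :=
  Nat.card (MulAction.orbit (MulAction.stabilizer G w.1) w.2)

theorem KK_pos [Finite Ω] (w : Ω × Ω) : 0 < KK G w := by
  have : Nonempty (MulAction.orbit (MulAction.stabilizer G w.1) w.2) :=
    ⟨⟨w.2, MulAction.mem_orbit_self _⟩⟩
  exact Nat.card_pos

theorem oM_rowSum [Fintype Ω] [MulAction.IsPretransitive G Ω] (w : Ω × Ω) (α : Ω) :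
    ∑ β, oM G w α β = (KK G w : ℂ) := by
  obtain ⟨g, rfl⟩ := MulAction.exists_smul_eq G w.1 α
  have h1 : ∑ β, oM G w (g • w.1) β = ∑ β, oM G w (g • w.1) (g • β) :=
    (Equiv.sum_comp (MulAction.toPerm g) (fun β => oM G w (g • w.1) β)).symm
  rw [h1, Finset.sum_congr rfl fun β _ => oM_inv w g w.1 β]
  exact orbMat_rowSum w.1 w.2

end OM

section Mat2

variable {G : Type*} [Group G] [Fintype G] [DecidableEq G] {Ω : Type*} [Fintype Ω] [DecidableEq Ω]
  [MulAction G Ω] [Fintype (IrrCharacter G)]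
variable {P : Subgroup G} [Fintype P] {a : Fin 2 → Ω} {χ₀ : IrrCharacter G} {p : ℕ}

local notation "𝔼" => (idem (χ₀ : G → ℂ) : Matrix Ω Ω ℂ)

theorem TT_oM (w : Ω × Ω) (i j : Fin 2) : TT P a (oM G w) i j = (cnt P a w i j : ℂ) := by
  classical
  simp only [TT, oM_apply]
  rw [Finset.sum_boole]
  rfl

theorem cnt_row [MulAction.IsPretransitive G Ω] (hS : PSet (Ω := Ω) P a χ₀ p) (w : Ω × Ω)
    (i : Fin 2) : cnt P a w i 0 + cnt P a w i 1 = KK G w := by
  have h := rowSum_TT hS (oM G w) i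
  rw [oM_rowSum, TT_oM, TT_oM] at h
  exact_mod_cast h.symm

/-- The eigenvalue of an orbital matrix on the distinguished constituent, as an integer. -/
noncomputable def UU (P : Subgroup G) [Fintype P] (a : Fin 2 → Ω) (w : Ω × Ω) : ℤ :=
  (cnt P a w 0 0 : ℤ) - cnt P a w 0 1

theorem theta_oM [MulAction.IsPretransitive G Ω] (hS : PSet (Ω := Ω) P a χ₀ p) (w : Ω × Ω) :
    theta (χ₀ : G → ℂ) (oM G w) = (UU P a w : ℂ) := by
  have h := (E_wv hS (oM_inv w)).1
  rw [TT_oM, TT_oM] at h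
  rw [← h, UU]
  push_cast
  ring

theorem cnt_diag' [MulAction.IsPretransitive G Ω] (hS : PSet (Ω := Ω) P a χ₀ p) (w : Ω × Ω) :
    (cnt P a w 1 1 : ℤ) - cnt P a w 1 0 = UU P a w := by
  have h := (E_wv hS (oM_inv w)).2
  rw [TT_oM, TT_oM, theta_oM hS] at h
  exact_mod_cast h

theorem cnt_all [MulAction.IsPretransitive G Ω] (hS : PSet (Ω := Ω) P a χ₀ p) (w : Ω × Ω) :
    2 * (cnt P a w 0 0 : ℤ) = KK G w + UU P a w ∧ 2 * (cnt P a w 1 1 : ℤ) = KK G w + UU P a w ∧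
      2 * (cnt P a w 0 1 : ℤ) = KK G w - UU P a w ∧
      2 * (cnt P a w 1 0 : ℤ) = KK G w - UU P a w := by
  have h0 : (cnt P a w 0 0 : ℤ) + cnt P a w 0 1 = KK G w := by exact_mod_cast cnt_row hS w 0
  have h1 : (cnt P a w 1 0 : ℤ) + cnt P a w 1 1 = KK G w := by exact_mod_cast cnt_row hS w 1
  have h2 := cnt_diag' hS w
  have h3 : UU P a w = (cnt P a w 0 0 : ℤ) - cnt P a w 0 1 := rfl
  refine ⟨?_, ?_, ?_, ?_⟩ <;> omega

omit [Fintype G] [DecidableEq G] [DecidableEq Ω] [Fintype (IrrCharacter G)] in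
theorem KK_orb [MulAction.IsPretransitive G Ω] {w w' : Ω × Ω} (h : OrbR G w w') :
    KK G w = KK G w' := by
  have h1 := oM_rowSum (G := G) w w.1
  rw [oM_congr h, oM_rowSum] at h1
  exact_mod_cast h1.symm

omit [Fintype G] [DecidableEq G] [Fintype Ω] [DecidableEq Ω] [Fintype (IrrCharacter G)] in
theorem cnt_orb {w w' : Ω × Ω} (h : OrbR G w w') (i j : Fin 2) :
    cnt P a w i j = cnt P a w' i j := by
  classical
  unfold cnt
  congr 1
  ext g
  simp only [Finset.mem_filter, Finset.mem_univ, true_and]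
  exact ⟨fun h1 => h.symm.trans h1, fun h1 => h.trans h1⟩

omit [Fintype G] [DecidableEq G] [Fintype Ω] [DecidableEq Ω] [Fintype (IrrCharacter G)] in
theorem cnt_swap (w : Ω × Ω) (i j : Fin 2) : cnt P a w.swap i j = cnt P a w j i := by
  classical
  unfold cnt
  apply Finset.card_bij (fun g _ => g⁻¹)
  · intro g hg
    simp only [Finset.mem_filter, Finset.mem_univ, true_and] at hg ⊢
    have h1 : OrbR G w ((g : G) • a j, a i) := hg.swap
    refine h1.trans ⟨((g⁻¹ : P) : G), ?_, rfl⟩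
    rw [Subgroup.coe_inv]
    exact inv_smul_smul _ _
  · intro g _ g' _ h
    exact inv_injective h
  · intro g hg
    refine ⟨g⁻¹, ?_, inv_inv g⟩
    simp only [Finset.mem_filter, Finset.mem_univ, true_and] at hg ⊢
    have h2 : OrbR G w (((g⁻¹ : P) : G) • a j, a i) := by
      refine hg.trans ⟨((g⁻¹ : P) : G), rfl, ?_⟩
      rw [Subgroup.coe_inv]
      exact inv_smul_smul _ _
    exact h2.swap

theorem KK_UU_swap [MulAction.IsPretransitive G Ω] (hS : PSet (Ω := Ω) P a χ₀ p) (w : Ω × Ω) :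
    KK G w.swap = KK G w ∧ UU P a w.swap = UU P a w := by
  obtain ⟨h1, -, h3, -⟩ := cnt_all hS w.swap
  obtain ⟨h1', -, -, h4'⟩ := cnt_all hS w
  rw [cnt_swap] at h1 h3
  constructor <;> omega

theorem E_eval [MulAction.IsPretransitive G Ω] (hS : PSet (Ω := Ω) P a χ₀ p) (w : Ω × Ω) :
    2 * (KK G w : ℂ) * 𝔼 w.1 w.2 = (UU P a w : ℂ) := by
  classical
  have h1 := congrFun (congrFun (E_theta hS (oM_inv (G := G) w.swap)) w.2) w.2
  rw [theta_oM hS, (KK_UU_swap hS w).2, Matrix.smul_apply, E_diag hS, smul_eq_mul,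
    Matrix.mul_apply] at h1
  have h2 : ∀ α, oM G w.swap w.2 α * 𝔼 α w.2 = oM G w.swap w.2 α * 𝔼 w.1 w.2 := by
    intro α
    rw [oM_apply]
    split_ifs with h
    · obtain ⟨g, hg1, hg2⟩ := h
      have h3 := E_inv (χ₀ := χ₀) (Ω := Ω) g w.1 w.2
      rw [show g • w.1 = α from hg2, show g • w.2 = w.2 from hg1] at h3
      rw [h3]
    · simp
  rw [Finset.sum_congr rfl fun α _ => h2 α, ← Finset.sum_mul, oM_rowSum, (KK_UU_swap hS w).1] at h1
  linear_combination 2 * h1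

theorem I3_of [MulAction.IsPretransitive G Ω] (hS : PSet (Ω := Ω) P a χ₀ p) (g : P) (hg : g ≠ 1) :
    UU P a (a 0, (g : G) • a 0) * (KK G (a 1, (g : G) • a 1) : ℤ) +
      UU P a (a 1, (g : G) • a 1) * (KK G (a 0, (g : G) • a 0) : ℤ) = 0 := by
  have h := E_dd hS g
  rw [if_neg hg] at h
  have h' : 𝔼 (a 0) ((g : G) • a 0) + 𝔼 (a 1) ((g : G) • a 1) = 0 := h
  have e0 := E_eval hS (a 0, (g : G) • a 0)
  have e1 := E_eval hS (a 1, (g : G) • a 1)
  have key : ((UU P a (a 0, (g : G) • a 0) * (KK G (a 1, (g : G) • a 1) : ℤ) +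
      UU P a (a 1, (g : G) • a 1) * (KK G (a 0, (g : G) • a 0) : ℤ) : ℤ) : ℂ) = 0 := by
    push_cast
    rw [← e0, ← e1]
    linear_combination 2 * (KK G (a 0, (g : G) • a 0) : ℂ) * (KK G (a 1, (g : G) • a 1) : ℂ) * h'
  exact_mod_cast key

theorem U_neg_of [MulAction.IsPretransitive G Ω] (hS : PSet (Ω := Ω) P a χ₀ p) :
    ∃ g : P, UU P a (a 0, (g : G) • a 1) < 0 := by
  by_contra hcon
  push Not at hcon
  have h := (E_S hS).2.2
  have h2 : ∀ g : P, 𝔼 (a 0) ((g : G) • a 1) =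
      (((UU P a (a 0, (g : G) • a 1) : ℝ) / (2 * (KK G (a 0, (g : G) • a 1) : ℝ)) : ℝ) : ℂ) := by
    intro g
    have e := E_eval hS (a 0, (g : G) • a 1)
    have hK : (KK G (a 0, (g : G) • a 1) : ℂ) ≠ 0 := by
      exact_mod_cast (KK_pos (G := G) (a 0, (g : G) • a 1)).ne'
    push_cast
    field_simp
    linear_combination e
  rw [TT, Finset.sum_congr rfl fun g _ => h2 g, ← Complex.ofReal_sum] at h
  have h3 : ∑ g : P, ((UU P a (a 0, (g : G) • a 1) : ℝ) /
      (2 * (KK G (a 0, (g : G) • a 1) : ℝ))) = -1 / 2 := by exact_mod_cast h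
  have h4 : 0 ≤ ∑ g : P, ((UU P a (a 0, (g : G) • a 1) : ℝ) /
      (2 * (KK G (a 0, (g : G) • a 1) : ℝ))) :=
    Finset.sum_nonneg fun g _ => div_nonneg (by exact_mod_cast hcon g) (by positivity)
  linarith

open Classical in
theorem oM_mul_diag [MulAction.IsPretransitive G Ω] (w w' : Ω × Ω) (α : Ω) :
    (oM G w * oM G w'.swap) α α = if OrbR G w w' then (KK G w : ℂ) else 0 := by
  classical
  rw [Matrix.mul_apply]
  simp only [oM_swap]
  split_ifs with h
  · rw [← oM_congr h]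
    simp only [oM_sq]
    exact oM_rowSum w α
  · apply Finset.sum_eq_zero
    intro β _
    rw [oM_apply, oM_apply]
    by_cases h1 : OrbR G w (α, β)
    · by_cases h2 : OrbR G w' (α, β)
      · exact absurd (h1.trans h2.symm) h
      · rw [if_neg h2, mul_zero]
    · rw [if_neg h1, zero_mul]

open Classical in
theorem I2_of [MulAction.IsPretransitive G Ω] (hS : PSet (Ω := Ω) P a χ₀ p) (w w' : Ω × Ω)
    (hw : w.1 ≠ w.2) (hw' : w'.1 ≠ w'.2) :
    (if OrbR G w w' then 2 * (KK G w : ℤ) else 0) =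
      2 * UU P a w * UU P a w' + ∑ g : P, (dcnt P a w g : ℤ) * (dcnt P a w' g : ℤ) := by
  classical
  have hInvP : ∀ {A : Matrix Ω Ω ℂ}, InvMat G A → InvMat P A := fun hA g α β => hA (g : G) α β
  have key := blk_main (P := P) hS.comm a hS.bij (oM G w) (oM G w'.swap) 𝔼
    (hInvP (oM_inv _)) (hInvP E_inv) (E_sq hS)
    (idem_comm (oM_inv _)).symm (UU P a w) (UU P a w')
    (by rw [E_theta hS (oM_inv w), theta_oM hS])
    (by rw [E_theta hS (oM_inv w'.swap), theta_oM hS, (KK_UU_swap hS w').2]) (E_dd hS)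
  have hdiag : ∀ (v : Ω × Ω), v.1 ≠ v.2 → ∀ α : Ω, oM G v α α = 0 := by
    intro v hv α
    rw [oM_apply, if_neg]
    intro h
    exact hv (h.diag_iff.mpr rfl)
  have hA1 : dd a (oM G w) (1 : P) = 0 := by
    unfold dd
    rw [one_smul, one_smul, hdiag w hw, hdiag w hw, add_zero]
  have hB1 : dd a (oM G w'.swap) (1 : P) = 0 := by
    unfold dd
    rw [one_smul, one_smul, hdiag w'.swap (fun h => hw' h.symm),
      hdiag w'.swap (fun h => hw' h.symm), add_zero]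
  have hAg : ∀ g : P, dd a (oM G w) g = (dcnt P a w g : ℂ) := by
    intro g
    unfold dd dcnt
    rw [oM_apply, oM_apply]
    push_cast
    rfl
  have hBg : ∀ g : P, dd a (oM G w'.swap) g⁻¹ = (dcnt P a w' g : ℂ) := by
    intro g
    unfold dd dcnt
    rw [oM_apply, oM_apply]
    have e : ∀ i : Fin 2, OrbR G w'.swap (a i, (g⁻¹ : P) • a i) ↔ OrbR G w' (a i, (g : G) • a i) := by
      intro i
      have := orbR_swap_inv (G := G) w' (a i) (g : G)
      rw [← this]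
      rfl
    simp only [e]
    push_cast
    rfl
  have hAB : dd a (oM G w * oM G w'.swap) (1 : P) =
      if OrbR G w w' then 2 * (KK G w : ℂ) else 0 := by
    unfold dd
    rw [one_smul, one_smul, oM_mul_diag, oM_mul_diag]
    split_ifs <;> ring
  rw [hAB, hA1, hB1, Finset.sum_congr rfl fun g _ => by rw [hAg g, hBg g]] at key
  have key2 : (((if OrbR G w w' then 2 * (KK G w : ℤ) else 0 : ℤ)) : ℂ) =
      ((2 * UU P a w * UU P a w' + ∑ g : P, (dcnt P a w g : ℤ) * (dcnt P a w' g : ℤ) : ℤ) : ℂ) := by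
    push_cast
    rw [key]
    ring
  exact_mod_cast key2

/-- The combinatorial data of the distinguished idempotent. -/
theorem wdata_of [MulAction.IsPretransitive G Ω] (hS : PSet (Ω := Ω) P a χ₀ p)
    (hK1 : ∀ w : Ω × Ω, KK G w = 1 → w.1 = w.2) : WData P a (KK G) (UU P a) where
  comm := hS.comm
  bij := hS.bij
  K_pos := fun w => KK_pos w
  K_orb := fun _ _ h => KK_orb h
  U_orb := fun w w' h => by
    unfold UU
    rw [cnt_orb h, cnt_orb h]
  K_swap := fun w => (KK_UU_swap hS w).1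
  U_swap := fun w => (KK_UU_swap hS w).2
  cnt00 := fun w => (cnt_all hS w).1
  cnt11 := fun w => (cnt_all hS w).2.1
  cnt01 := fun w => (cnt_all hS w).2.2.1
  cnt10 := fun w => (cnt_all hS w).2.2.2
  I2 := I2_of hS
  I3 := I3_of hS
  neg := U_neg_of hS
  K_one := hK1

end Mat2

end Cfsg.Agent.Lib.Helper17
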