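import Cfsg.Agent.Lib.Helper17.W2pE

set_option autoImplicit false

namespace Cfsg.Agent.Lib.Helper17

section Arith

theorem sign_aux (u0 u1 k0 k1 : ℤ) (hk0 : 0 < k0) (hk1 : 0 < k1) (h : u0 * k1 + u1 * k0 = 0) :
    (0 < u0 ↔ u1 < 0) ∧ (u0 < 0 ↔ 0 < u1) ∧ (u0 = 0 ↔ u1 = 0) := by
  refine ⟨⟨fun h0 => ?_, fun h0 => ?_⟩, ⟨fun h0 => ?_, fun h0 => ?_⟩, ⟨fun h0 => ?_, fun h0 => ?_⟩⟩
  · by_contra hn
    push Not at hn
    have h1 := mul_pos h0 hk1
    have h2 := mul_nonneg hn hk0.le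
    linarith
  · by_contra hn
    push Not at hn
    have h1 := mul_neg_of_neg_of_pos h0 hk0
    have h2 := mul_nonpos_of_nonpos_of_nonneg hn hk1.le
    linarith
  · by_contra hn
    push Not at hn
    have h1 := mul_neg_of_neg_of_pos h0 hk1
    have h2 := mul_nonpos_of_nonpos_of_nonneg hn hk0.le
    linarith
  · by_contra hn
    push Not at hn
    have h1 := mul_pos h0 hk0
    have h2 := mul_nonneg hn hk1.le
    linarith
  · rw [h0, zero_mul, zero_add] at h
    rcases mul_eq_zero.mp h with h1 | h1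
    · exact h1
    · omega
  · rw [h0, zero_mul, add_zero] at h
    rcases mul_eq_zero.mp h with h1 | h1
    · exact h1
    · omega

theorem pos_mul_count (s u0 u1 : ℤ) (hs : s ≠ 0) (h1 : 0 < u0 ↔ u1 < 0) (h2 : u0 < 0 ↔ 0 < u1) :
    ((if 0 < s * u0 then 1 else 0) + (if 0 < s * u1 then 1 else 0) : ℕ) =
      if u0 ≠ 0 then 1 else 0 := by
  simp only [mul_pos_iff]
  split_ifs <;> omega

end Arith

section Struct

variable {G : Type*} [Group G] {Ω : Type*} [MulAction G Ω] {P : Subgroup G} [Fintype P]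
  {a : Fin 2 → Ω} {K : Ω × Ω → ℕ} {U : Ω × Ω → ℤ}

theorem WData.inj (hD : WData P a K U) {g h : P} {i j : Fin 2}
    (e : (g : G) • a i = (h : G) • a j) : i = j ∧ g = h := by
  have h1 := hD.bij.1 (a₁ := (i, g)) (a₂ := (j, h)) e
  exact ⟨congrArg Prod.fst h1, congrArg Prod.snd h1⟩

theorem WData.surj (hD : WData P a K U) (ω : Ω) : ∃ (i : Fin 2) (g : P), (g : G) • a i = ω := by
  obtain ⟨⟨i, g⟩, h⟩ := hD.bij.2 ω
  exact ⟨i, g, h⟩

theorem WData.pi_nd (hD : WData P a K U) {g : P} (hg : g ≠ 1) (i : Fin 2) :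
    a i ≠ (g : G) • a i := by
  intro h
  have h1 : ((1 : P) : G) • a i = (g : G) • a i := by
    rw [Subgroup.coe_one, one_smul]
    exact h
  exact hg (hD.inj h1).2.symm

theorem WData.cross_nd (hD : WData P a K U) (g : P) : a 0 ≠ (g : G) • a 1 := by
  intro h
  have h1 : ((1 : P) : G) • a 0 = (g : G) • a 1 := by
    rw [Subgroup.coe_one, one_smul]
    exact h
  exact absurd (hD.inj h1).1 (by decide)

omit [Fintype P] in
theorem dcnt_le (w : Ω × Ω) (g : P) : dcnt P a w g ≤ 2 := by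
  classical
  unfold dcnt
  split_ifs <;> omega

theorem sum_dcnt (w : Ω × Ω) : ∑ g : P, dcnt P a w g = cnt P a w 0 0 + cnt P a w 1 1 := by
  classical
  unfold dcnt cnt
  rw [Finset.sum_add_distrib, Finset.card_filter, Finset.card_filter]

theorem WData.neg_mul (hD : WData P a K U) {w w' : Ω × Ω} (hw : w.1 ≠ w.2) (hw' : w'.1 ≠ w'.2)
    (h : ¬ OrbR G w w') : U w * U w' ≤ 0 := by
  classical
  have h1 := hD.I2 w w' hw hw'
  rw [if_neg h] at h1
  have h2 : 0 ≤ ∑ g : P, (dcnt P a w g : ℤ) * (dcnt P a w' g : ℤ) :=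
    Finset.sum_nonneg fun g _ => mul_nonneg (Nat.cast_nonneg _) (Nat.cast_nonneg _)
  nlinarith

theorem WData.signs (hD : WData P a K U) {g : P} (hg : g ≠ 1) :
    (0 < U (a 0, (g : G) • a 0) ↔ U (a 1, (g : G) • a 1) < 0) ∧
      (U (a 0, (g : G) • a 0) < 0 ↔ 0 < U (a 1, (g : G) • a 1)) ∧
      (U (a 0, (g : G) • a 0) = 0 ↔ U (a 1, (g : G) • a 1) = 0) :=
  sign_aux _ _ _ _ (by exact_mod_cast hD.K_pos _) (by exact_mod_cast hD.K_pos _) (hD.I3 g hg)

open Classical in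
theorem dcnt_eq (hD : WData P a K U) (w : Ω × Ω) (hw : w.1 ≠ w.2) (hU : U w ≠ 0)
    (huniq : ∀ w' : Ω × Ω, w'.1 ≠ w'.2 → 0 < U w * U w' → OrbR G w w') (g : P) :
    dcnt P a w g = if (g ≠ 1 ∧ U (a 0, (g : G) • a 0) ≠ 0) then 1 else 0 := by
  by_cases hg : g = 1
  · subst hg
    have h1 : ∀ i, ¬ OrbR G w (a i, ((1 : P) : G) • a i) := by
      intro i h
      apply hw
      apply h.diag_iff.mpr
      show a i = ((1 : P) : G) • a i
      rw [Subgroup.coe_one, one_smul]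
    unfold dcnt
    rw [if_neg (h1 0), if_neg (h1 1), if_neg (by simp)]
  · have hiff : ∀ i, OrbR G w (a i, (g : G) • a i) ↔ 0 < U w * U (a i, (g : G) • a i) := by
      intro i
      constructor
      · intro h
        rw [← hD.U_orb _ _ h]
        exact mul_self_pos.mpr hU
      · exact huniq _ (hD.pi_nd hg i)
    obtain ⟨s1, s2, -⟩ := hD.signs hg
    unfold dcnt
    simp only [hiff]
    rw [pos_mul_count _ _ _ hU s1 s2]
    simp [hg]

theorem WData.dcnt_02 (hD : WData P a K U) (w : Ω × Ω) (hnd : w.1 ≠ w.2) (h0 : U w = 0) (g : P) :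
    dcnt P a w g = 0 ∨ dcnt P a w g = 2 := by
  classical
  have e1 := hD.I2 w w hnd hnd
  rw [if_pos (OrbR.refl _), h0] at e1
  have e2 := hD.cnt00 w
  have e3 := hD.cnt11 w
  rw [h0] at e2 e3
  have e4 : (∑ h : P, (dcnt P a w h : ℤ)) = (cnt P a w 0 0 : ℤ) + cnt P a w 1 1 := by
    exact_mod_cast sum_dcnt (P := P) (a := a) w
  have e5 : ∑ h : P, (dcnt P a w h : ℤ) * (2 - (dcnt P a w h : ℤ)) = 0 := by
    have h1 : ∑ h : P, (dcnt P a w h : ℤ) * (2 - (dcnt P a w h : ℤ)) =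
        2 * ∑ h : P, (dcnt P a w h : ℤ) - ∑ h : P, (dcnt P a w h : ℤ) * (dcnt P a w h : ℤ) := by
      rw [Finset.mul_sum, ← Finset.sum_sub_distrib]
      exact Finset.sum_congr rfl fun h _ => by ring
    rw [h1, e4]
    linarith
  have e6 := (Finset.sum_eq_zero_iff_of_nonneg (fun h _ => mul_nonneg (Nat.cast_nonneg _)
    (by have := dcnt_le (P := P) (a := a) w h; omega))).mp e5 g (Finset.mem_univ g)
  have hle := dcnt_le (P := P) (a := a) w g
  rcases mul_eq_zero.mp e6 with h1 | h1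
  · left
    exact_mod_cast h1
  · right
    omega

theorem WData.zero_same (hD : WData P a K U) {g : P} (hg : g ≠ 1)
    (h0 : U (a 0, (g : G) • a 0) = 0) :
    OrbR G (a 0, (g : G) • a 0) (a 1, (g : G) • a 1) := by
  classical
  have h1 := hD.dcnt_02 (a 0, (g : G) • a 0) (hD.pi_nd hg 0) h0 g
  by_contra hno
  have h2 : dcnt P a (a 0, (g : G) • a 0) g = 1 := by
    unfold dcnt
    rw [if_pos (OrbR.refl _), if_neg hno]
  omega

theorem WData.zero_rep (hD : WData P a K U) (w : Ω × Ω) (hnd : w.1 ≠ w.2) (h0 : U w = 0) :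
    ∃ g : P, g ≠ 1 ∧ OrbR G w (a 0, (g : G) • a 0) := by
  classical
  have e2 := hD.cnt00 w
  rw [h0] at e2
  have hK := hD.K_pos w
  have hpos : 0 < cnt P a w 0 0 := by omega
  unfold cnt at hpos
  obtain ⟨g, hg⟩ := Finset.card_pos.mp hpos
  rw [Finset.mem_filter] at hg
  refine ⟨g, ?_, hg.2⟩
  rintro rfl
  apply hnd
  apply hg.2.diag_iff.mpr
  show a 0 = ((1 : P) : G) • a 0
  rw [Subgroup.coe_one, one_smul]

open Classical in
/-- The structure of the orbitals: exactly one orbital with positive eigenvalue and one with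
negative eigenvalue. -/
theorem structure_thm (hD : WData P a K U) :
    ∃ (n : ℕ) (wp wm : Ω × Ω), 0 < n ∧ wp.1 ≠ wp.2 ∧ wm.1 ≠ wm.2 ∧ U wp = n ∧
      U wm = -((n : ℤ) + 1) ∧ K wp = n * (2 * n + 1) ∧ K wm = (n + 1) * (2 * n + 1) ∧
      (∀ w : Ω × Ω, w.1 ≠ w.2 → 0 < U w → OrbR G wp w) ∧
      (∀ w : Ω × Ω, w.1 ≠ w.2 → U w < 0 → OrbR G wm w) ∧
      (Finset.univ.filter (fun g : P => g ≠ 1 ∧ U (a 0, (g : G) • a 0) ≠ 0)).card =
        2 * n * (n + 1) := by
  obtain ⟨g0, hg0⟩ := hD.neg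
  obtain ⟨wm, hwm⟩ : ∃ wm : Ω × Ω, wm = (a 0, (g0 : G) • a 1) := ⟨_, rfl⟩
  rw [← hwm] at hg0
  have hwm_nd : wm.1 ≠ wm.2 := by
    rw [hwm]
    exact hD.cross_nd g0
  have hKpos : ∀ w, (0 : ℤ) < K w := fun w => by exact_mod_cast hD.K_pos w
  have hex : ∃ wp : Ω × Ω, wp.1 ≠ wp.2 ∧ 0 < U wp := by
    by_contra hcon
    push Not at hcon
    have hz : ∀ g : P, g ≠ 1 → ∀ i : Fin 2, U (a i, (g : G) • a i) = 0 := by
      intro g hg
      have h0 := hcon (a 0, (g : G) • a 0) (hD.pi_nd hg 0)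
      have h1 := hcon (a 1, (g : G) • a 1) (hD.pi_nd hg 1)
      obtain ⟨s1, s2, s3⟩ := hD.signs hg
      have h2 : ¬ U (a 0, (g : G) • a 0) < 0 := fun h => by
        have := s2.mp h
        omega
      have h00 : U (a 0, (g : G) • a 0) = 0 := by omega
      exact Fin.forall_fin_two.mpr ⟨h00, s3.mp h00⟩
    have hno : ∀ (g : P) (i : Fin 2), ¬ OrbR G wm (a i, (g : G) • a i) := by
      intro g i h
      by_cases hg : g = 1
      · subst hg
        apply hwm_nd
        apply h.diag_iff.mpr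
        show a i = ((1 : P) : G) • a i
        rw [Subgroup.coe_one, one_smul]
      · have h1 := hD.U_orb _ _ h
        rw [hz g hg i] at h1
        omega
    have hd : ∀ g : P, dcnt P a wm g = 0 := by
      intro g
      unfold dcnt
      rw [if_neg (hno g 0), if_neg (hno g 1)]
    have h1 := hD.I2 wm wm hwm_nd hwm_nd
    rw [if_pos (OrbR.refl _)] at h1
    simp only [hd, Nat.cast_zero, mul_zero, Finset.sum_const_zero, add_zero] at h1
    have h2 : cnt P a wm 0 0 = 0 := by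
      have h3 := sum_dcnt (P := P) (a := a) wm
      simp only [hd, Finset.sum_const_zero] at h3
      omega
    have h3 := hD.cnt00 wm
    rw [h2] at h3
    have hK : K wm = 1 := by
      have hKp := hKpos wm
      have h4 : (K wm : ℤ) = - U wm := by
        push_cast at h3
        linarith
      have h5 : 2 * ((K wm : ℤ) * ((K wm : ℤ) - 1)) = 0 := by
        rw [h4] at h1 ⊢
        linear_combination (-1 : ℤ) * h1
      rcases mul_eq_zero.mp h5 with h6 | h6
      · omega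
      · rcases mul_eq_zero.mp h6 with h7 | h7
        · omega
        · exact_mod_cast (by omega : (K wm : ℤ) = 1)
    exact hwm_nd (hD.K_one wm hK)
  obtain ⟨wp, hwp_nd, hwp⟩ := hex
  have huniq_p : ∀ w : Ω × Ω, w.1 ≠ w.2 → 0 < U w → OrbR G wp w := by
    intro w hw hU
    by_contra h
    have h1 := hD.neg_mul hwp_nd hw h
    have h2 := mul_pos hwp hU
    omega
  have huniq_m : ∀ w : Ω × Ω, w.1 ≠ w.2 → U w < 0 → OrbR G wm w := by
    intro w hw hU
    by_contra h
    have h1 := hD.neg_mul hwm_nd hw h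
    have h2 := mul_pos_of_neg_of_neg hg0 hU
    omega
  have hnot : ¬ OrbR G wp wm := fun h => by
    have := hD.U_orb _ _ h
    omega
  have hdp := dcnt_eq hD wp hwp_nd hwp.ne' (fun w' hw' h => huniq_p w' hw' (by
    by_contra hn
    push Not at hn
    have := mul_nonpos_of_nonneg_of_nonpos hwp.le hn
    omega))
  have hdm := dcnt_eq hD wm hwm_nd hg0.ne (fun w' hw' h => huniq_m w' hw' (by
    by_contra hn
    push Not at hn
    have := mul_nonpos_of_nonpos_of_nonneg hg0.le hn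
    omega))
  obtain ⟨Z, hZ⟩ : ∃ Z : Finset P,
      Z = Finset.univ.filter (fun g : P => g ≠ 1 ∧ U (a 0, (g : G) • a 0) ≠ 0) := ⟨_, rfl⟩
  rw [← hZ]
  have hsum : ∀ w w' : Ω × Ω,
      (∀ g, dcnt P a w g = if (g ≠ 1 ∧ U (a 0, (g : G) • a 0) ≠ 0) then 1 else 0) →
      (∀ g, dcnt P a w' g = if (g ≠ 1 ∧ U (a 0, (g : G) • a 0) ≠ 0) then 1 else 0) →
      ∑ g : P, (dcnt P a w g : ℤ) * (dcnt P a w' g : ℤ) = Z.card := by
    intro w w' h h'
    have h1 : ∀ g : P, (dcnt P a w g : ℤ) * (dcnt P a w' g : ℤ) =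
        if (g ≠ 1 ∧ U (a 0, (g : G) • a 0) ≠ 0) then 1 else 0 := by
      intro g
      rw [h, h']
      split_ifs <;> simp
    rw [Finset.sum_congr rfl fun g _ => h1 g, Finset.sum_boole, hZ]
  have e1 := hD.I2 wp wp hwp_nd hwp_nd
  rw [if_pos (OrbR.refl _), hsum wp wp hdp hdp] at e1
  have e2 := hD.I2 wm wm hwm_nd hwm_nd
  rw [if_pos (OrbR.refl _), hsum wm wm hdm hdm] at e2
  have e3 := hD.I2 wp wm hwp_nd hwm_nd
  rw [if_neg hnot, hsum wp wm hdp hdm] at e3
  have e4 : (Z.card : ℤ) = K wp + U wp := by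
    have h1 := sum_dcnt (P := P) (a := a) wp
    have h2 : ∑ g : P, dcnt P a wp g = Z.card := by
      rw [Finset.sum_congr rfl fun g _ => hdp g, Finset.sum_boole, hZ]
      simp
    have h3 := hD.cnt00 wp
    have h4 := hD.cnt11 wp
    have h5 : (Z.card : ℤ) = (cnt P a wp 0 0 : ℤ) + cnt P a wp 1 1 := by
      exact_mod_cast (h2.symm.trans h1)
    linarith
  obtain ⟨n, hn⟩ := Int.eq_ofNat_of_zero_le hwp.le
  have hz' : (Z.card : ℤ) = 2 * U wp * U wp + 2 * U wp := by linarith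
  have hv : U wm = -(U wp + 1) := by
    have h1 : 2 * (U wp * (U wm + U wp + 1)) = 0 := by
      linear_combination (-1 : ℤ) * e3 - hz'
    rcases mul_eq_zero.mp h1 with h2 | h2
    · omega
    · rcases mul_eq_zero.mp h2 with h3 | h3
      · omega
      · omega
  refine ⟨n, wp, wm, by omega, hwp_nd, hwm_nd, hn, by rw [hv, hn], ?_, ?_, huniq_p, huniq_m, ?_⟩
  · have h1 : (K wp : ℤ) = ((n * (2 * n + 1) : ℕ) : ℤ) := by
      push_cast
      rw [← hn]
      linarith
    exact_mod_cast h1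
  · have h1 : (K wm : ℤ) = (((n + 1) * (2 * n + 1) : ℕ) : ℤ) := by
      push_cast
      rw [← hn]
      rw [hv] at e2
      linarith
    exact_mod_cast h1
  · have h1 : (Z.card : ℤ) = ((2 * n * (n + 1) : ℕ) : ℤ) := by
      push_cast
      rw [← hn]
      linarith
    exact_mod_cast h1

end Struct

end Cfsg.Agent.Lib.Helper17
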