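import Cfsg.Agent.Lib.Helper17.W2pF

set_option autoImplicit false

namespace Cfsg.Agent.Lib.Helper17

theorem fin2_cases (i : Fin 2) : i = 0 ∨ i = 1 := by
  fin_cases i <;> simp

theorem pow3_eq {H : Type*} [Group H] (y : H) : y ^ 3 = y * y * y := by
  rw [pow_succ, pow_two]

theorem pow3_eq' {H : Type*} [Group H] (y : H) : y ^ 3 = y⁻¹ * ((y * y) * (y * y)) := by
  rw [pow_succ, pow_two]
  simp only [mul_assoc, inv_mul_cancel_left]

theorem pow5_eq {H : Type*} [Group H] (y : H) : y ^ 5 = y * ((y * y) * (y * y)) := by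
  simp only [pow_succ, pow_zero, one_mul, mul_assoc]

section Endgame

variable {G : Type*} [Group G] [Fintype G] {Ω : Type*} [Fintype Ω] [MulAction G Ω]
  [FaithfulSMul G Ω] [MulAction.IsPretransitive G Ω]
  {P : Subgroup G} [Fintype P] {a : Fin 2 → Ω} {K : Ω × Ω → ℕ} {U : Ω × Ω → ℤ}
  {x : G} {p n : ℕ} {wp wm : Ω × Ω}

open Classical in
/-- The hypotheses of the final part of the argument. -/
structure EndSetup (P : Subgroup G) [Fintype P] (a : Fin 2 → Ω) (K : Ω × Ω → ℕ) (U : Ω × Ω → ℤ)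
    (x : G) (p n : ℕ) (wp wm : Ω × Ω) : Prop where
  data : WData P a K U
  prime : p.Prime
  card : Fintype.card P = p
  cardΩ : Fintype.card Ω = 2 * p
  xmem : x ∈ P
  cyc : ∀ h : P, ∃ k : ℕ, (h : G) = x ^ k
  nofix : ∀ y : G, y ≠ 1 → y ^ p = 1 → ∀ ω : Ω, y • ω ≠ ω
  npos : 0 < n
  wp_nd : wp.1 ≠ wp.2
  wm_nd : wm.1 ≠ wm.2
  U_wp : U wp = n
  K_wp : K wp = n * (2 * n + 1)
  uniq : ∀ w : Ω × Ω, w.1 ≠ w.2 → 0 < U w → OrbR G wp w
  uniq_m : ∀ w : Ω × Ω, w.1 ≠ w.2 → U w < 0 → OrbR G wm w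
  Zcard : (Finset.univ.filter (fun g : P => g ≠ 1 ∧ U (a 0, (g : G) • a 0) ≠ 0)).card =
    2 * n * (n + 1)

theorem EndSetup.xpow (hE : EndSetup P a K U x p n wp wm) : x ^ p = 1 := by
  have h1 : (⟨x, hE.xmem⟩ : P) ^ Fintype.card P = 1 := pow_card_eq_one
  rw [hE.card] at h1
  exact congrArg Subtype.val h1

theorem EndSetup.pow_p (hE : EndSetup P a K U x p n wp wm) (h : P) : (h : G) ^ p = 1 := by
  have h1 : h ^ Fintype.card P = 1 := pow_card_eq_one
  rw [hE.card] at h1
  exact congrArg Subtype.val h1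

theorem EndSetup.gen (hE : EndSetup P a K U x p n wp wm) (g : P) (hg : g ≠ 1) :
    ∃ l : ℕ, (g : G) ^ l = x := by
  obtain ⟨k, hk⟩ := hE.cyc g
  have hpk : ¬ p ∣ k := by
    rintro ⟨m, rfl⟩
    apply hg
    apply Subtype.ext
    rw [hk, pow_mul, hE.xpow, one_pow]
    rfl
  rw [hk]
  exact exists_pow_pow_eq hE.prime hE.xpow k hpk

theorem EndSetup.comm_of_x (hE : EndSetup P a K U x p n wp wm) {c : G} (hc : Commute c x)
    (h : P) : Commute c (h : G) := by
  obtain ⟨k, hk⟩ := hE.cyc h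
  rw [hk]
  exact hc.pow_right k

theorem EndSetup.comm_x_of (hE : EndSetup P a K U x p n wp wm) {c : G} (g : P) (hg : g ≠ 1)
    (hc : Commute c (g : G)) : Commute c x := by
  obtain ⟨l, hl⟩ := hE.gen g hg
  rw [← hl]
  exact hc.pow_right l

theorem EndSetup.free (hE : EndSetup P a K U x p n wp wm) (g : P) (ω : Ω)
    (h : (g : G) • ω = ω) : g = 1 := by
  obtain ⟨i, h', rfl⟩ := hE.data.surj ω
  have h1 : ((g * h' : P) : G) • a i = (h' : G) • a i := by
    rw [Subgroup.coe_mul, mul_smul]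
    exact h
  have h2 := (hE.data.inj h1).2
  exact mul_eq_right.mp h2

/-- An element centralizing `x` and fixing the base point is trivial. -/
theorem cent_fix (hE : EndSetup P a K U x p n wp wm) (c : G) (hc : Commute c x)
    (hfix : c • a 0 = a 0) : c = 1 := by
  by_contra hc1
  have hcP : ∀ h : P, Commute c (h : G) := hE.comm_of_x hc
  have h0 : ∀ h : P, c • (h : G) • a 0 = (h : G) • a 0 := by
    intro h
    rw [← mul_smul, (hcP h).eq, mul_smul, hfix]
  obtain ⟨j, h1, hj⟩ := hE.data.surj (c • a 1)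
  have hj1 : j = 1 := by
    rcases fin2_cases j with rfl | rfl
    · exfalso
      have h2 : (h1 : G) • a 0 = ((1 : P) : G) • a 1 := by
        rw [Subgroup.coe_one, one_smul]
        exact smul_left_cancel c ((h0 h1).trans hj)
      exact absurd (hE.data.inj h2).1 (by decide)
    · rfl
  subst hj1
  have h1' : ∀ h : P, c • (h : G) • a 1 = (h1 : G) • (h : G) • a 1 := by
    intro h
    rw [← mul_smul, (hcP h).eq, mul_smul, ← hj, ← mul_smul, ← mul_smul, ← Subgroup.coe_mul,
      ← Subgroup.coe_mul, hE.data.comm]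
  have hpow : ∀ (k : ℕ) (h : P), c ^ k • (h : G) • a 1 = (h1 : G) ^ k • (h : G) • a 1 := by
    intro k
    induction k with
    | zero =>
      intro h
      simp
    | succ k ih =>
      intro h
      have e1 : (h1 : G) • (h : G) • a 1 = ((h1 * h : P) : G) • a 1 := by
        rw [Subgroup.coe_mul, mul_smul]
      rw [pow_succ, mul_smul, h1' h, e1, ih (h1 * h), ← e1, pow_succ, mul_smul]
  have hcp : c ^ p = 1 := by
    apply FaithfulSMul.eq_of_smul_eq_smul (α := Ω)
    intro ω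
    rw [one_smul]
    obtain ⟨i, h, rfl⟩ := hE.data.surj ω
    rcases fin2_cases i with rfl | rfl
    · have h2 : ∀ k : ℕ, c ^ k • (h : G) • a 0 = (h : G) • a 0 := by
        intro k
        induction k with
        | zero => simp
        | succ k ih => rw [pow_succ, mul_smul, h0 h, ih]
      exact h2 p
    · rw [hpow p h, hE.pow_p h1, one_smul]
  exact hE.nofix c hc1 hcp (a 0) hfix

theorem EndSetup.Zne (hE : EndSetup P a K U x p n wp wm) :
    ∃ g1 : P, g1 ≠ 1 ∧ U (a 0, (g1 : G) • a 0) ≠ 0 := by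
  classical
  have h := hE.Zcard
  have hpos : 0 < (Finset.univ.filter
      (fun g : P => g ≠ 1 ∧ U (a 0, (g : G) • a 0) ≠ 0)).card := by
    rw [h]
    exact Nat.mul_pos (Nat.mul_pos two_pos hE.npos) (Nat.succ_pos n)
  obtain ⟨g1, hg1⟩ := Finset.card_pos.mp hpos
  exact ⟨g1, (Finset.mem_filter.mp hg1).2⟩

/-- The centralizer of `x` is `P`. -/
theorem cent_sub (hE : EndSetup P a K U x p n wp wm) (z : G) (hz : Commute z x) : z ∈ P := by
  obtain ⟨g1, hg1, hU1⟩ := hE.Zne
  obtain ⟨j, h, hj⟩ := hE.data.surj (z • a 0)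
  have hxh : Commute (h : G) x := by
    obtain ⟨k, hk⟩ := hE.cyc h
    rw [hk]
    exact (Commute.refl x).pow_left k
  have hz'c : Commute ((h : G)⁻¹ * z) x := (hxh.inv_left).mul_left hz
  have hz'0 : ((h : G)⁻¹ * z) • a 0 = a j := by
    rw [mul_smul, ← hj, inv_smul_smul]
  rcases fin2_cases j with rfl | rfl
  · have h1 := cent_fix hE _ hz'c hz'0
    have h2 : z = h := (inv_mul_eq_one.mp h1).symm
    rw [h2]
    exact h.2
  · exfalso
    have horb : OrbR G (a 0, (g1 : G) • a 0) (a 1, (g1 : G) • a 1) := by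
      refine ⟨(h : G)⁻¹ * z, hz'0, ?_⟩
      have hc' : Commute ((h : G)⁻¹ * z) (g1 : G) := hE.comm_of_x hz'c g1
      show ((h : G)⁻¹ * z) • (g1 : G) • a 0 = (g1 : G) • a 1
      rw [← mul_smul, hc'.eq, mul_smul, hz'0]
    have hUeq := hE.data.U_orb _ _ horb
    obtain ⟨s1, s2, s3⟩ := hE.data.signs hg1
    omega

/-- A subset of `P` containing a non-trivial element and all its conjugates under the normalizer
is large. -/
theorem orbit_bound (hE : EndSetup P a K U x p n wp wm) (g0 : P) (hg0 : g0 ≠ 1) (S : Finset P)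
    (hS : ∀ m : G, m ∈ Subgroup.normalizer (P : Set G) →
      ∃ g' : P, g' ∈ S ∧ (g' : G) = m * (g0 : G) * m⁻¹) :
    Nat.card (Subgroup.normalizer (P : Set G)) ≤ p * S.card := by
  classical
  obtain ⟨Nf, hNf⟩ : ∃ Nf : Finset G,
      Nf = Finset.univ.filter (· ∈ Subgroup.normalizer (P : Set G)) := ⟨_, rfl⟩
  have hmemN : ∀ m : G, m ∈ Nf ↔ m ∈ Subgroup.normalizer (P : Set G) := by
    intro m
    rw [hNf, Finset.mem_filter]
    simp
  have hcardN : Nat.card (Subgroup.normalizer (P : Set G)) = Nf.card := by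
    rw [Nat.card_eq_fintype_card]
    exact Fintype.card_of_subtype Nf hmemN
  have key := Finset.card_le_mul_card_image_of_maps_to (s := Nf)
    (t := S.map ⟨Subtype.val, Subtype.val_injective⟩) (f := fun m => m * (g0 : G) * m⁻¹) ?_ p ?_
  · rw [hcardN]
    rw [Finset.card_map] at key
    exact key
  · intro m hm
    obtain ⟨g', hg', he⟩ := hS m ((hmemN m).mp hm)
    exact Finset.mem_map.mpr ⟨g', hg', he⟩
  · intro b _
    by_cases hne : (Nf.filter fun m => m * (g0 : G) * m⁻¹ = b).Nonempty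
    · obtain ⟨n1, hn1⟩ := hne
      have hn1' := (Finset.mem_filter.mp hn1).2
      have hmem : ∀ m ∈ Nf.filter (fun m => m * (g0 : G) * m⁻¹ = b), n1⁻¹ * m ∈ P := by
        intro m hm
        have hm' := (Finset.mem_filter.mp hm).2
        apply cent_sub hE
        have hc : Commute (n1⁻¹ * m) (g0 : G) := by
          have h1 : m * (g0 : G) * m⁻¹ = n1 * (g0 : G) * n1⁻¹ := hm'.trans hn1'.symm
          show n1⁻¹ * m * (g0 : G) = (g0 : G) * (n1⁻¹ * m)
          calc n1⁻¹ * m * (g0 : G) = n1⁻¹ * (m * (g0 : G) * m⁻¹) * m := by group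
            _ = n1⁻¹ * (n1 * (g0 : G) * n1⁻¹) * m := by rw [h1]
            _ = (g0 : G) * (n1⁻¹ * m) := by group
        exact hE.comm_x_of g0 hg0 hc
      calc (Nf.filter fun m => m * (g0 : G) * m⁻¹ = b).card
          ≤ (Finset.univ : Finset P).card := by
            apply Finset.card_le_card_of_injOn
              (fun m => if h : n1⁻¹ * m ∈ P then (⟨n1⁻¹ * m, h⟩ : P) else 1)
            · intro m _
              exact Finset.mem_univ _
            · intro m hm m' hm' he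
              simp only [] at he
              rw [dif_pos (hmem m hm), dif_pos (hmem m' hm')] at he
              exact mul_left_cancel (congrArg Subtype.val he)
        _ = p := by rw [Finset.card_univ, hE.card]
    · rw [Finset.not_nonempty_iff_eq_empty.mp hne]
      simp

/-- Conjugation by an element of the normalizer moves the orbital of `(a₀, g a₀)` to that of a
pair with the conjugate of `g`. -/
theorem conj_class (hE : EndSetup P a K U x p n wp wm) (m : G)
    (hm : m ∈ Subgroup.normalizer (P : Set G)) (g : P) :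
    ∃ (g' : P) (i : Fin 2), (g' : G) = m * (g : G) * m⁻¹ ∧
      OrbR G (a 0, (g : G) • a 0) (a i, (g' : G) • a i) := by
  have hg' : m * (g : G) * m⁻¹ ∈ P := (hm (g : G)).mp g.2
  obtain ⟨i, h, hi⟩ := hE.data.surj (m • a 0)
  refine ⟨⟨_, hg'⟩, i, rfl, (h : G)⁻¹ * m, ?_, ?_⟩
  · show ((h : G)⁻¹ * m) • a 0 = a i
    rw [mul_smul, ← hi, inv_smul_smul]
  · show ((h : G)⁻¹ * m) • (g : G) • a 0 = (m * (g : G) * m⁻¹) • a i
    have hc := hE.data.comm ⟨_, hg'⟩ h
    have hc' : (m * (g : G) * m⁻¹) * (h : G) = (h : G) * (m * (g : G) * m⁻¹) :=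
      congrArg Subtype.val hc
    calc ((h : G)⁻¹ * m) • (g : G) • a 0
        = ((h : G)⁻¹ * (m * (g : G) * m⁻¹)) • m • a 0 := by
          rw [← mul_smul, ← mul_smul]
          congr 1
          group
      _ = ((h : G)⁻¹ * (m * (g : G) * m⁻¹)) • (h : G) • a i := by rw [hi]
      _ = ((h : G)⁻¹ * ((m * (g : G) * m⁻¹) * (h : G))) • a i := by
          rw [← mul_smul, mul_assoc]
      _ = (m * (g : G) * m⁻¹) • a i := by rw [hc', inv_mul_cancel_left]

theorem conj_ne_one {m : G} {g g' : P} (he : (g' : G) = m * (g : G) * m⁻¹) (hg : g ≠ 1) :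
    g' ≠ 1 := by
  rintro rfl
  apply hg
  have h1 : m * (g : G) * m⁻¹ = 1 := by
    rw [← he]
    rfl
  exact Subtype.ext (conj_eq_one_iff.mp h1)

theorem conj_Z (hE : EndSetup P a K U x p n wp wm) (m : G)
    (hm : m ∈ Subgroup.normalizer (P : Set G)) (g : P) (hg : g ≠ 1)
    (hU : U (a 0, (g : G) • a 0) ≠ 0) :
    ∃ g' : P, (g' ≠ 1 ∧ U (a 0, (g' : G) • a 0) ≠ 0) ∧ (g' : G) = m * (g : G) * m⁻¹ := by
  obtain ⟨g', i, he, horb⟩ := conj_class hE m hm g
  have hg'1 : g' ≠ 1 := conj_ne_one he hg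
  have hUeq := hE.data.U_orb _ _ horb
  obtain ⟨s1, s2, s3⟩ := hE.data.signs hg'1
  refine ⟨g', ⟨hg'1, ?_⟩, he⟩
  rcases fin2_cases i with rfl | rfl
  · rw [← hUeq]
    exact hU
  · intro h0
    apply hU
    rw [hUeq]
    exact s3.mp h0

theorem conj_S (hE : EndSetup P a K U x p n wp wm) (m : G)
    (hm : m ∈ Subgroup.normalizer (P : Set G)) (g : P) (hg : g ≠ 1)
    (hU : U (a 0, (g : G) • a 0) = 0) :
    ∃ g' : P, (g' ≠ 1 ∧ U (a 0, (g' : G) • a 0) = 0) ∧
      OrbR G (a 0, (g : G) • a 0) (a 0, (g' : G) • a 0) ∧ (g' : G) = m * (g : G) * m⁻¹ := by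
  obtain ⟨g', i, he, horb⟩ := conj_class hE m hm g
  have hg'1 : g' ≠ 1 := conj_ne_one he hg
  have hUeq := hE.data.U_orb _ _ horb
  obtain ⟨s1, s2, s3⟩ := hE.data.signs hg'1
  rcases fin2_cases i with rfl | rfl
  · exact ⟨g', ⟨hg'1, by rw [← hUeq]; exact hU⟩, horb, he⟩
  · have h0 : U (a 0, (g' : G) • a 0) = 0 := s3.mpr (by rw [← hUeq]; exact hU)
    exact ⟨g', ⟨hg'1, h0⟩, horb.trans (hE.data.zero_same hg'1 h0).symm, he⟩

omit [Fintype G] [Fintype Ω] [FaithfulSMul G Ω] [MulAction.IsPretransitive G Ω] in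
theorem cl_eq_iff (w w' : Ω × Ω) :
    (Quotient.mk'' w : MulAction.orbitRel.Quotient G (Ω × Ω)) = Quotient.mk'' w' ↔
      OrbR G w w' := by
  rw [Quotient.eq'', MulAction.orbitRel_apply, MulAction.mem_orbit_iff]
  constructor
  · rintro ⟨g, hg⟩
    exact OrbR.symm ⟨g, congrArg Prod.fst hg, congrArg Prod.snd hg⟩
  · intro h
    obtain ⟨g, h1, h2⟩ := h.symm
    exact ⟨g, Prod.ext h1 h2⟩

open Classical in
theorem SZ_card (hE : EndSetup P a K U x p n wp wm) :
    (Finset.univ.filter (fun g : P => g ≠ 1 ∧ U (a 0, (g : G) • a 0) = 0)).card +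
      2 * n * (n + 1) = p - 1 := by
  rw [← hE.Zcard]
  have h1 : (Finset.univ.filter (fun g : P => g ≠ 1 ∧ U (a 0, (g : G) • a 0) = 0)) =
      ((Finset.univ : Finset P).erase 1).filter (fun g : P => U (a 0, (g : G) • a 0) = 0) := by
    ext g
    simp [Finset.mem_filter, Finset.mem_erase]
  have h2 : (Finset.univ.filter (fun g : P => g ≠ 1 ∧ U (a 0, (g : G) • a 0) ≠ 0)) =
      ((Finset.univ : Finset P).erase 1).filter (fun g : P => ¬ U (a 0, (g : G) • a 0) = 0) := by
    ext g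
    simp [Finset.mem_filter, Finset.mem_erase]
  rw [h1, h2, Finset.card_filter_add_card_filter_not,
    Finset.card_erase_of_mem (Finset.mem_univ _), Finset.card_univ, hE.card]

open Classical in
/-- Each orbital with zero eigenvalue uses up a full orbit of the normalizer on `P`. -/
theorem rank_bound (hE : EndSetup P a K U x p n wp wm) :
    (Nat.card (MulAction.orbitRel.Quotient G (Ω × Ω)) - 3) *
        Nat.card (Subgroup.normalizer (P : Set G)) ≤
      p * (Finset.univ.filter (fun g : P => g ≠ 1 ∧ U (a 0, (g : G) • a 0) = 0)).card := by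
  haveI : Fintype (MulAction.orbitRel.Quotient G (Ω × Ω)) := Fintype.ofFinite _
  obtain ⟨S, hS⟩ : ∃ S : Finset P,
      S = Finset.univ.filter (fun g : P => g ≠ 1 ∧ U (a 0, (g : G) • a 0) = 0) := ⟨_, rfl⟩
  rw [← hS]
  have hmemS : ∀ g : P, g ∈ S ↔ g ≠ 1 ∧ U (a 0, (g : G) • a 0) = 0 := by
    intro g
    rw [hS, Finset.mem_filter]
    simp
  obtain ⟨c, hc⟩ : ∃ c : P → MulAction.orbitRel.Quotient G (Ω × Ω),
      c = fun g : P => Quotient.mk'' (a 0, (g : G) • a 0) := ⟨_, rfl⟩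
  have hcover : (Finset.univ : Finset (MulAction.orbitRel.Quotient G (Ω × Ω))) ⊆
      insert (Quotient.mk'' (a 0, a 0)) (insert (Quotient.mk'' wp)
        (insert (Quotient.mk'' wm) (S.image c))) := by
    intro q _
    induction q using Quotient.inductionOn' with | _ w => ?_
    by_cases hd : w.1 = w.2
    · apply Finset.mem_insert.mpr
      left
      rw [cl_eq_iff]
      obtain ⟨g, hg⟩ := MulAction.exists_smul_eq G w.1 (a 0)
      exact ⟨g, hg, by rw [← hd]; exact hg⟩
    · rcases lt_trichotomy (U w) 0 with h | h | h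
      · apply Finset.mem_insert_of_mem
        apply Finset.mem_insert_of_mem
        apply Finset.mem_insert.mpr
        left
        rw [cl_eq_iff]
        exact (hE.uniq_m w hd h).symm
      · apply Finset.mem_insert_of_mem
        apply Finset.mem_insert_of_mem
        apply Finset.mem_insert_of_mem
        obtain ⟨g, hg1, hg⟩ := hE.data.zero_rep w hd h
        apply Finset.mem_image.mpr
        refine ⟨g, (hmemS g).mpr ⟨hg1, ?_⟩, ?_⟩
        · rw [← hE.data.U_orb _ _ hg]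
          exact h
        · rw [hc]
          exact ((cl_eq_iff _ _).mpr hg).symm
      · apply Finset.mem_insert_of_mem
        apply Finset.mem_insert.mpr
        left
        rw [cl_eq_iff]
        exact (hE.uniq w hd h).symm
  have hr : Fintype.card (MulAction.orbitRel.Quotient G (Ω × Ω)) ≤ 3 + (S.image c).card := by
    have h0 := Finset.card_le_card hcover
    rw [Finset.card_univ] at h0
    have h1 := Finset.card_insert_le (Quotient.mk'' (a 0, a 0) : MulAction.orbitRel.Quotient G (Ω × Ω))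
      (insert (Quotient.mk'' wp) (insert (Quotient.mk'' wm) (S.image c)))
    have h2 := Finset.card_insert_le (Quotient.mk'' wp : MulAction.orbitRel.Quotient G (Ω × Ω))
      (insert (Quotient.mk'' wm) (S.image c))
    have h3 := Finset.card_insert_le (Quotient.mk'' wm : MulAction.orbitRel.Quotient G (Ω × Ω))
      (S.image c)
    omega
  have hfib : ∀ q ∈ S.image c, Nat.card (Subgroup.normalizer (P : Set G)) ≤
      p * (S.filter (fun g => c g = q)).card := by
    intro q hq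
    obtain ⟨g0, hg0S, rfl⟩ := Finset.mem_image.mp hq
    have hg0 := (hmemS g0).mp hg0S
    apply orbit_bound hE g0 hg0.1
    intro m hm
    obtain ⟨g', ⟨hg'1, hg'U⟩, horb, he⟩ := conj_S hE m hm g0 hg0.1 hg0.2
    refine ⟨g', ?_, he⟩
    rw [Finset.mem_filter]
    refine ⟨(hmemS g').mpr ⟨hg'1, hg'U⟩, ?_⟩
    rw [hc]
    exact (cl_eq_iff _ _).mpr horb.symm
  have hsum : (S.image c).card * Nat.card (Subgroup.normalizer (P : Set G)) ≤ p * S.card := by
    rw [Finset.card_eq_sum_card_image c S, Finset.mul_sum]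
    calc (S.image c).card * Nat.card (Subgroup.normalizer (P : Set G))
        = ∑ _q ∈ S.image c, Nat.card (Subgroup.normalizer (P : Set G)) := by
          rw [Finset.sum_const, smul_eq_mul]
      _ ≤ ∑ q ∈ S.image c, p * (S.filter (fun g => c g = q)).card := Finset.sum_le_sum hfib
  rw [Nat.card_eq_fintype_card]
  calc (Fintype.card (MulAction.orbitRel.Quotient G (Ω × Ω)) - 3) *
        Nat.card (Subgroup.normalizer (P : Set G))
      ≤ (S.image c).card * Nat.card (Subgroup.normalizer (P : Set G)) :=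
        Nat.mul_le_mul_right _ (by omega)
    _ ≤ p * S.card := hsum

open Classical in
/-- The order of the normalizer. -/
theorem N_card (hE : EndSetup P a K U x p n wp wm)
    (hr : 4 ≤ Nat.card (MulAction.orbitRel.Quotient G (Ω × Ω)))
    (hN : p * (p - 1) ≤ (Nat.card (MulAction.orbitRel.Quotient G (Ω × Ω)) - 2) *
      Nat.card (Subgroup.normalizer (P : Set G))) :
    Nat.card (Subgroup.normalizer (P : Set G)) = p * (2 * n * (n + 1)) ∧
      2 * (2 * n * (n + 1)) + 1 ≤ p := by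
  have h1 := rank_bound hE
  have h2 := SZ_card hE
  have hp := hE.prime.pos
  obtain ⟨g1, hg1, hU1⟩ := hE.Zne
  have h3 : Nat.card (Subgroup.normalizer (P : Set G)) ≤ p * (2 * n * (n + 1)) := by
    rw [← hE.Zcard]
    apply orbit_bound hE g1 hg1
    intro m hm
    obtain ⟨g', hg', he⟩ := conj_Z hE m hm g1 hg1 hU1
    exact ⟨g', Finset.mem_filter.mpr ⟨Finset.mem_univ _, hg'⟩, he⟩
  obtain ⟨s, hs⟩ : ∃ s : ℕ, s = (Finset.univ.filter
      (fun g : P => g ≠ 1 ∧ U (a 0, (g : G) • a 0) = 0)).card := ⟨_, rfl⟩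
  rw [← hs] at h1 h2
  obtain ⟨M, hM⟩ : ∃ M : ℕ, M = Nat.card (Subgroup.normalizer (P : Set G)) := ⟨_, rfl⟩
  obtain ⟨r, hr'⟩ : ∃ r : ℕ, r = Nat.card (MulAction.orbitRel.Quotient G (Ω × Ω)) := ⟨_, rfl⟩
  rw [← hM, ← hr'] at h1 hN
  rw [← hM] at h3 ⊢
  rw [← hr'] at hr
  obtain ⟨z, hz⟩ : ∃ z : ℕ, z = 2 * n * (n + 1) := ⟨_, rfl⟩
  rw [← hz] at h2 h3 ⊢
  have hp1 : p - 1 = s + z := h2.symm
  rw [hp1] at hN
  obtain ⟨r', rfl⟩ : ∃ r' : ℕ, r = r' + 4 := ⟨r - 4, by omega⟩
  have e1 : r' + 4 - 3 = r' + 1 := by omega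
  have e2 : r' + 4 - 2 = r' + 2 := by omega
  rw [e1] at h1
  rw [e2] at hN
  have h4 : p * z ≤ M := by nlinarith
  have h5 : M = p * z := le_antisymm h3 h4
  refine ⟨h5, ?_⟩
  have h6 : p * z ≤ p * s := by nlinarith
  have h7 : z ≤ s := Nat.le_of_mul_le_mul_left h6 hp
  omega

/-- Membership in the stabilizer of the base point in the normalizer of `P`. -/
def inH (P : Subgroup G) (a : Fin 2 → Ω) (m : G) : Prop :=
  m ∈ Subgroup.normalizer (P : Set G) ∧ m • a 0 = a 0

theorem H_comm (hE : EndSetup P a K U x p n wp wm) {m m' : G} (hm : inH P a m)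
    (hm' : inH P a m') : m * m' = m' * m := by
  have hx1 : m * x * m⁻¹ ∈ P := (hm.1 x).mp hE.xmem
  have hx2 : m' * x * m'⁻¹ ∈ P := (hm'.1 x).mp hE.xmem
  obtain ⟨s, hs⟩ := hE.cyc ⟨_, hx1⟩
  obtain ⟨t, ht⟩ := hE.cyc ⟨_, hx2⟩
  have hs' : m * x * m⁻¹ = x ^ s := hs
  have ht' : m' * x * m'⁻¹ = x ^ t := ht
  have e1 : (m * m') * x * (m * m')⁻¹ = (x ^ s) ^ t := by
    calc (m * m') * x * (m * m')⁻¹ = m * (m' * x * m'⁻¹) * m⁻¹ := by group
      _ = m * x ^ t * m⁻¹ := by rw [ht']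
      _ = (m * x * m⁻¹) ^ t := conj_pow.symm
      _ = (x ^ s) ^ t := by rw [hs']
  have e2 : (m' * m) * x * (m' * m)⁻¹ = (x ^ s) ^ t := by
    calc (m' * m) * x * (m' * m)⁻¹ = m' * (m * x * m⁻¹) * m'⁻¹ := by group
      _ = m' * x ^ s * m'⁻¹ := by rw [hs']
      _ = (m' * x * m'⁻¹) ^ s := conj_pow.symm
      _ = (x ^ t) ^ s := by rw [ht']
      _ = (x ^ s) ^ t := by rw [← pow_mul, ← pow_mul, mul_comm]
  have hc : Commute ((m' * m)⁻¹ * (m * m')) x := by
    show (m' * m)⁻¹ * (m * m') * x = x * ((m' * m)⁻¹ * (m * m'))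
    have e3 : (m * m') * x * (m * m')⁻¹ = (m' * m) * x * (m' * m)⁻¹ := e1.trans e2.symm
    calc (m' * m)⁻¹ * (m * m') * x
        = (m' * m)⁻¹ * ((m * m') * x * (m * m')⁻¹) * (m * m') := by group
      _ = (m' * m)⁻¹ * ((m' * m) * x * (m' * m)⁻¹) * (m * m') := by rw [e3]
      _ = x * ((m' * m)⁻¹ * (m * m')) := by group
  have hf : ((m' * m)⁻¹ * (m * m')) • a 0 = a 0 := by
    rw [mul_smul, mul_smul, hm'.2, hm.2, inv_smul_eq_iff, mul_smul, hm.2, hm'.2]
  have h1 := cent_fix hE _ hc hf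
  exact (inv_mul_eq_one.mp h1).symm

theorem H_delta1 (hE : EndSetup P a K U x p n wp wm) {m : G} (hm : inH P a m) (h : P) :
    ∃ h' : P, m • (h : G) • a 1 = (h' : G) • a 1 := by
  obtain ⟨j, h', hj⟩ := hE.data.surj (m • (h : G) • a 1)
  rcases fin2_cases j with rfl | rfl
  · exfalso
    have hinv : m⁻¹ ∈ Subgroup.normalizer (P : Set G) := inv_mem hm.1
    have hk : m⁻¹ * (h' : G) * m⁻¹⁻¹ ∈ P := (hinv (h' : G)).mp h'.2
    have e : ((⟨_, hk⟩ : P) : G) • a 0 = (h : G) • a 1 := by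
      show (m⁻¹ * (h' : G) * m⁻¹⁻¹) • a 0 = (h : G) • a 1
      rw [inv_inv, mul_smul, mul_smul, hm.2, hj, inv_smul_smul]
    exact absurd (hE.data.inj e).1 (by decide)
  · exact ⟨h', hj.symm⟩

theorem H_fix_unique (hE : EndSetup P a K U x p n wp wm) {m : G} (hm : inH P a m) (hm1 : m ≠ 1)
    {h h' : P} (e : m • (h : G) • a 1 = (h : G) • a 1)
    (e' : m • (h' : G) • a 1 = (h' : G) • a 1) : h = h' := by
  by_contra hne
  have hk1 : h' * h⁻¹ ≠ 1 := fun hk => hne (mul_inv_eq_one.mp hk).symm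
  have hkP : m * ((h' * h⁻¹ : P) : G) * m⁻¹ ∈ P := (hm.1 _).mp (h' * h⁻¹).2
  have e1 : (((⟨_, hkP⟩ : P) * h : P) : G) • a 1 = ((h' * h⁻¹ * h : P) : G) • a 1 := by
    calc (((⟨_, hkP⟩ : P) * h : P) : G) • a 1
        = (m * ((h' * h⁻¹ : P) : G) * m⁻¹) • (h : G) • a 1 := by
          rw [Subgroup.coe_mul, mul_smul]
      _ = (m * ((h' * h⁻¹ : P) : G) * m⁻¹) • m • (h : G) • a 1 := by rw [e]
      _ = m • (h' : G) • a 1 := by
          rw [← mul_smul, ← mul_smul, ← mul_smul]
          congr 1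
          rw [Subgroup.coe_mul, Subgroup.coe_inv]
          group
      _ = (h' : G) • a 1 := e'
      _ = ((h' * h⁻¹ * h : P) : G) • a 1 := by rw [inv_mul_cancel_right]
  have e2 := (hE.data.inj e1).2
  have e3 : (⟨_, hkP⟩ : P) = h' * h⁻¹ := mul_right_cancel e2
  have e4 : m * ((h' * h⁻¹ : P) : G) * m⁻¹ = ((h' * h⁻¹ : P) : G) := congrArg Subtype.val e3
  have hc : Commute m ((h' * h⁻¹ : P) : G) := by
    show m * _ = _ * m
    calc m * ((h' * h⁻¹ : P) : G) = (m * ((h' * h⁻¹ : P) : G) * m⁻¹) * m := by group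
      _ = ((h' * h⁻¹ : P) : G) * m := by rw [e4]
  exact hm1 (cent_fix hE m (hE.comm_x_of _ hk1 hc) hm.2)

open Classical in
theorem H_card (hE : EndSetup P a K U x p n wp wm)
    (hNc : Nat.card (Subgroup.normalizer (P : Set G)) = p * (2 * n * (n + 1))) :
    n * (n + 1) ≤ (Finset.univ.filter (fun m : G => inH P a m)).card := by
  obtain ⟨Nf, hNf⟩ : ∃ Nf : Finset G,
      Nf = Finset.univ.filter (· ∈ Subgroup.normalizer (P : Set G)) := ⟨_, rfl⟩
  have hmemN : ∀ m : G, m ∈ Nf ↔ m ∈ Subgroup.normalizer (P : Set G) := by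
    intro m
    rw [hNf, Finset.mem_filter]
    simp
  have hcardN : Nat.card (Subgroup.normalizer (P : Set G)) = Nf.card := by
    rw [Nat.card_eq_fintype_card]
    exact Fintype.card_of_subtype Nf hmemN
  have key := Finset.card_le_mul_card_image_of_maps_to (s := Nf) (t := (Finset.univ : Finset Ω))
    (f := fun m => m • a 0) (fun m _ => Finset.mem_univ _)
    (Finset.univ.filter (fun m : G => inH P a m)).card ?_
  · rw [Finset.card_univ, hE.cardΩ, ← hcardN, hNc] at key
    have hp := hE.prime.pos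
    have h1 : p * (2 * (n * (n + 1))) ≤
        p * (2 * (Finset.univ.filter (fun m : G => inH P a m)).card) := by
      calc p * (2 * (n * (n + 1))) = p * (2 * n * (n + 1)) := by ring
        _ ≤ (Finset.univ.filter (fun m : G => inH P a m)).card * (2 * p) := key
        _ = p * (2 * (Finset.univ.filter (fun m : G => inH P a m)).card) := by ring
    exact Nat.le_of_mul_le_mul_left (Nat.le_of_mul_le_mul_left h1 hp) two_pos
  · intro ω _
    by_cases hne : (Nf.filter fun m => m • a 0 = ω).Nonempty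
    · obtain ⟨n1, hn1⟩ := hne
      obtain ⟨hn1N, hn1'⟩ := Finset.mem_filter.mp hn1
      apply Finset.card_le_card_of_injOn (fun m => n1⁻¹ * m)
      · intro m hm
        obtain ⟨hmN, hm'⟩ := Finset.mem_filter.mp (Finset.mem_coe.mp hm)
        apply Finset.mem_coe.mpr
        apply Finset.mem_filter.mpr
        refine ⟨Finset.mem_univ _, mul_mem (inv_mem ((hmemN n1).mp hn1N)) ((hmemN m).mp hmN), ?_⟩
        show (n1⁻¹ * m) • a 0 = a 0
        rw [mul_smul, hm', ← hn1', inv_smul_smul]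
      · intro m _ m' _ he
        exact mul_left_cancel he
    · rw [Finset.not_nonempty_iff_eq_empty.mp hne]
      simp

open Classical in
theorem n_eq_one (hE : EndSetup P a K U x p n wp wm)
    (hNc : Nat.card (Subgroup.normalizer (P : Set G)) = p * (2 * n * (n + 1))) : n = 1 := by
  by_contra hn1
  have hnpos := hE.npos
  have hn2 : 2 ≤ n := by omega
  have hH := H_card hE hNc
  obtain ⟨T, hT⟩ : ∃ T : Finset P,
      T = Finset.univ.filter (fun h : P => OrbR G wp (a 0, (h : G) • a 1)) := ⟨_, rfl⟩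
  have hTcard : T.card = n * n := by
    have h1 := hE.data.cnt01 wp
    rw [hE.U_wp, hE.K_wp] at h1
    have h2 : cnt P a wp 0 1 = T.card := by
      rw [hT]
      rfl
    rw [h2] at h1
    push_cast at h1
    have h3 : 2 * (T.card : ℤ) = 2 * ((n : ℤ) * n) := by
      rw [h1]
      ring
    have h4 : (T.card : ℤ) = ((n * n : ℕ) : ℤ) := by
      push_cast
      linarith
    exact_mod_cast h4
  have hmemT : ∀ h : P, h ∈ T ↔ OrbR G wp (a 0, (h : G) • a 1) := by
    intro h
    rw [hT, Finset.mem_filter]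
    simp
  have hfixel : ∀ h ∈ T, ∃ m : G, inH P a m ∧ m ≠ 1 ∧ m • (h : G) • a 1 = (h : G) • a 1 := by
    intro h hh
    have hlt : (T.image (fun h' : P => (h' : G) • a 1)).card <
        (Finset.univ.filter (fun m : G => inH P a m)).card := by
      calc (T.image (fun h' : P => (h' : G) • a 1)).card ≤ T.card := Finset.card_image_le
        _ = n * n := hTcard
        _ < n * (n + 1) := by nlinarith
        _ ≤ _ := hH
    have hmaps : Set.MapsTo (fun m : G => m • (h : G) • a 1)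
        (Finset.univ.filter (fun m : G => inH P a m) : Finset G)
        (T.image (fun h' : P => (h' : G) • a 1) : Finset Ω) := by
      intro m hm
      have hm' := (Finset.mem_filter.mp (Finset.mem_coe.mp hm)).2
      obtain ⟨h', hh'⟩ := H_delta1 hE hm' h
      apply Finset.mem_coe.mpr
      apply Finset.mem_image.mpr
      refine ⟨h', (hmemT h').mpr ?_, hh'.symm⟩
      have h1 := ((hmemT h).mp hh).trans (OrbR.smul m (a 0) ((h : G) • a 1))
      rw [hm'.2, hh'] at h1
      exact h1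
    obtain ⟨m1, hm1, m2, hm2, hne, he⟩ :=
      Finset.exists_ne_map_eq_of_card_lt_of_maps_to hlt hmaps
    have hm1' := (Finset.mem_filter.mp hm1).2
    have hm2' := (Finset.mem_filter.mp hm2).2
    refine ⟨m2⁻¹ * m1, ⟨mul_mem (inv_mem hm2'.1) hm1'.1, ?_⟩, ?_, ?_⟩
    · rw [mul_smul, hm1'.2, inv_smul_eq_iff, hm2'.2]
    · intro h1
      exact hne (inv_mul_eq_one.mp h1).symm
    · rw [mul_smul, inv_smul_eq_iff]
      exact he
  obtain ⟨h, hh, h', hh', hne⟩ := Finset.one_lt_card.mp (by rw [hTcard]; nlinarith : 1 < T.card)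
  obtain ⟨m, hm, hm1, hmf⟩ := hfixel h hh
  obtain ⟨m', hm', hm'1, hm'f⟩ := hfixel h' hh'
  obtain ⟨h'', hh''⟩ := H_delta1 hE hm' h
  have e1 : m • (h'' : G) • a 1 = (h'' : G) • a 1 := by
    rw [← hh'', ← mul_smul, H_comm hE hm hm', mul_smul, hmf]
  have e2 : h = h'' := H_fix_unique hE hm hm1 hmf e1
  rw [← e2] at hh''
  exact hne (H_fix_unique hE hm' hm'1 hh'' hm'f)

omit [Fintype G] [Fintype Ω] [FaithfulSMul G Ω] [MulAction.IsPretransitive G Ω] in
/-- The common-neighbour argument in the graph of the positive orbital. -/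
theorem common_nb (hD : WData P a K U) (Op : Ω × Ω → Prop)
    (hop : ∀ (g : G) (α β : Ω), Op (α, β) → Op (g • α, g • β))
    (i j : Fin 2) (hij : i ≠ j) (yi yj s : P)
    (hyi : Op (a i, (yi : G) • a i)) (hyi' : Op (a i, ((yi⁻¹ : P) : G) • a i))
    (hNj : ∀ β : Ω, Op (a j, β) →
      β = (yj : G) • a j ∨ β = ((yj⁻¹ : P) : G) • a j ∨ β = (s : G) • a i)
    (hne1 : yi ≠ yj) (hne2 : yi ≠ yj⁻¹) (hsq : yi * yi ≠ 1) (hodd : ∀ k : P, k * k = 1 → k = 1)
    (c : G) (hc1 : c • a i = a j)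
    (hc2 : c • ((yi * yi : P) : G) • a i = ((yi * yi : P) : G) • a j) : False := by
  obtain ⟨γ, hγ⟩ : ∃ γ : Ω, γ = c • (yi : G) • a i := ⟨_, rfl⟩
  have h1 : Op (a j, γ) := by
    have e := hop c _ _ hyi
    rwa [hc1, ← hγ] at e
  have h2 : Op (((yi * yi : P) : G) • a j, γ) := by
    have e := hop ((yi * yi : P) : G) _ _ hyi'
    have e' : ((yi * yi : P) : G) • ((yi⁻¹ : P) : G) • a i = (yi : G) • a i := by
      rw [← mul_smul, ← Subgroup.coe_mul, mul_inv_cancel_right]
    rw [e'] at e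
    have e2 := hop c _ _ e
    rwa [hc2, ← hγ] at e2
  have h3 : Op (a j, ((yi * yi : P) : G)⁻¹ • γ) := by
    have e := hop (((yi * yi : P) : G)⁻¹) _ _ h2
    rwa [inv_smul_smul] at e
  have hN1 : ∃ (k : P) (l : Fin 2), γ = (k : G) • a l ∧
      ((k = yj ∧ l = j) ∨ (k = yj⁻¹ ∧ l = j) ∨ (k = s ∧ l = i)) := by
    rcases hNj γ h1 with h | h | h
    · exact ⟨yj, j, h, Or.inl ⟨rfl, rfl⟩⟩
    · exact ⟨yj⁻¹, j, h, Or.inr (Or.inl ⟨rfl, rfl⟩)⟩
    · exact ⟨s, i, h, Or.inr (Or.inr ⟨rfl, rfl⟩)⟩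
  have hN2 : ∃ (k : P) (l : Fin 2), γ = ((yi * yi * k : P) : G) • a l ∧
      ((k = yj ∧ l = j) ∨ (k = yj⁻¹ ∧ l = j) ∨ (k = s ∧ l = i)) := by
    have conv : ∀ (k : P) (l : Fin 2), ((yi * yi : P) : G)⁻¹ • γ = (k : G) • a l →
        γ = ((yi * yi * k : P) : G) • a l := by
      intro k l h
      show γ = (((yi * yi : P) : G) * (k : G)) • a l
      rw [mul_smul, ← h, smul_inv_smul]
    rcases hNj _ h3 with h | h | h
    · exact ⟨yj, j, conv _ _ h, Or.inl ⟨rfl, rfl⟩⟩
    · exact ⟨yj⁻¹, j, conv _ _ h, Or.inr (Or.inl ⟨rfl, rfl⟩)⟩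
    · exact ⟨s, i, conv _ _ h, Or.inr (Or.inr ⟨rfl, rfl⟩)⟩
  obtain ⟨k1, l1, e1, c1⟩ := hN1
  obtain ⟨k2, l2, e2, c2⟩ := hN2
  obtain ⟨hl, hk⟩ := hD.inj (e1.symm.trans e2)
  have hself : ∀ k : P, k = yi * yi * k → False := fun k h => hsq (right_eq_mul.mp h)
  rcases c1 with ⟨hk1, hl1⟩ | ⟨hk1, hl1⟩ | ⟨hk1, hl1⟩ <;>
    rcases c2 with ⟨hk2, hl2⟩ | ⟨hk2, hl2⟩ | ⟨hk2, hl2⟩ <;>
    rw [hk1, hk2] at hk <;> rw [hl1, hl2] at hl
  · exact hself _ hk
  · apply hne1
    have h4 : (yi * yj⁻¹) * (yi * yj⁻¹) = 1 := by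
      calc (yi * yj⁻¹) * (yi * yj⁻¹) = yi * (yj⁻¹ * (yi * yj⁻¹)) := by group
        _ = yi * ((yi * yj⁻¹) * yj⁻¹) := by rw [hD.comm yj⁻¹ (yi * yj⁻¹)]
        _ = (yi * yi * yj⁻¹) * yj⁻¹ := by group
        _ = yj * yj⁻¹ := by rw [← hk]
        _ = 1 := mul_inv_cancel yj
    exact mul_inv_eq_one.mp (hodd _ h4)
  · exact hij hl.symm
  · apply hne2
    have h4 : (yi * yj) * (yi * yj) = 1 := by
      calc (yi * yj) * (yi * yj) = yi * (yj * (yi * yj)) := by group
        _ = yi * ((yi * yj) * yj) := by rw [hD.comm yj (yi * yj)]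
        _ = (yi * yi * yj) * yj := by group
        _ = yj⁻¹ * yj := by rw [← hk]
        _ = 1 := inv_mul_cancel yj
    exact eq_inv_of_mul_eq_one_left (hodd _ h4)
  · exact hself _ hk
  · exact hij hl.symm
  · exact hij hl
  · exact hij hl
  · exact hself _ hk

open Classical in
/-- The case `n = 1` (the Petersen-like configuration) only occurs for small `p`. -/
theorem final_n1 (hE : EndSetup P a K U x p 1 wp wm) (hp9 : 9 ≤ p) : False := by
  have hD := hE.data
  have hsymm0 : OrbR G wp wp.swap :=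
    hE.uniq wp.swap (fun h => hE.wp_nd h.symm) (by rw [hD.U_swap, hE.U_wp]; norm_num)
  have hop : ∀ (g : G) (α β : Ω), OrbR G wp (α, β) → OrbR G wp (g • α, g • β) :=
    fun g α β h => h.trans (OrbR.smul g α β)
  have hsym : ∀ α β : Ω, OrbR G wp (α, β) → OrbR G wp (β, α) :=
    fun α β h => hsymm0.trans h.swap
  have hdiag : ∀ α : Ω, ¬ OrbR G wp (α, α) := fun α h => hE.wp_nd (h.diag_iff.mpr rfl)
  have hord : ∀ k : P, k ≠ 1 → orderOf k = p := by
    intro k hk
    have h1 : orderOf k ∣ p := by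
      rw [← hE.card]
      exact orderOf_dvd_card
    rcases (Nat.dvd_prime hE.prime).mp h1 with h2 | h2
    · exact absurd (orderOf_eq_one_iff.mp h2) hk
    · exact h2
  have hpow : ∀ (k : P) (m : ℕ), k ≠ 1 → 0 < m → m < p → k ^ m ≠ 1 := by
    intro k m hk hm hmp h
    have h1 := orderOf_dvd_of_pow_eq_one h
    rw [hord k hk] at h1
    exact absurd (Nat.le_of_dvd hm h1) (by omega)
  have hodd : ∀ k : P, k * k = 1 → k = 1 := by
    intro k hk
    by_contra hk1
    exact hpow k 2 hk1 (by norm_num) (by omega) (by rw [pow_two]; exact hk)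
  have hone : ∀ (i : Fin 2) (h : P), OrbR G wp (a i, (h : G) • a i) → h ≠ 1 := by
    intro i h hh h1
    rw [h1, Subgroup.coe_one, one_smul] at hh
    exact hdiag _ hh
  have hinvX : ∀ (i : Fin 2) (h : P), OrbR G wp (a i, (h : G) • a i) →
      OrbR G wp (a i, ((h⁻¹ : P) : G) • a i) := by
    intro i h hh
    have h1 := hop ((h⁻¹ : P) : G) _ _ (hsym _ _ hh)
    rw [Subgroup.coe_inv, inv_smul_smul] at h1
    rw [Subgroup.coe_inv]
    exact h1
  have hX : ∀ i : Fin 2, ∃ y : P, OrbR G wp (a i, (y : G) • a i) ∧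
      ∀ h : P, OrbR G wp (a i, (h : G) • a i) → h = y ∨ h = y⁻¹ := by
    intro i
    have hc : cnt P a wp i i = 2 := by
      have h1 := hD.cnt00 wp
      have h2 := hD.cnt11 wp
      rw [hE.U_wp, hE.K_wp] at h1 h2
      rcases fin2_cases i with rfl | rfl <;> omega
    unfold cnt at hc
    obtain ⟨y, hy⟩ := Finset.card_pos.mp (by rw [hc]; norm_num :
      0 < (Finset.univ.filter fun g : P => OrbR G wp (a i, (g : G) • a i)).card)
    have hyO := (Finset.mem_filter.mp hy).2
    have hy1 : y ≠ 1 := hone i y hyO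
    have hyy : y ≠ y⁻¹ := by
      intro h
      apply hy1
      apply hodd
      calc y * y = y * y⁻¹ := by rw [← h]
        _ = 1 := mul_inv_cancel y
    have hsub : ({y, y⁻¹} : Finset P) ⊆
        Finset.univ.filter fun g : P => OrbR G wp (a i, (g : G) • a i) := by
      intro h hh
      rw [Finset.mem_insert, Finset.mem_singleton] at hh
      rw [Finset.mem_filter]
      rcases hh with hh | hh
      · rw [hh]
        exact ⟨Finset.mem_univ _, hyO⟩
      · rw [hh]
        exact ⟨Finset.mem_univ _, hinvX i y hyO⟩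
    have heq := Finset.eq_of_subset_of_card_le hsub (by rw [hc, Finset.card_pair hyy])
    refine ⟨y, hyO, fun h hh => ?_⟩
    have h3 : h ∈ ({y, y⁻¹} : Finset P) := by
      rw [heq, Finset.mem_filter]
      exact ⟨Finset.mem_univ _, hh⟩
    rwa [Finset.mem_insert, Finset.mem_singleton] at h3
  have hC : ∀ i j : Fin 2, i ≠ j → ∃ t : P, ∀ h : P, OrbR G wp (a i, (h : G) • a j) → h = t := by
    intro i j hij
    have hc : cnt P a wp i j = 1 := by
      have h1 := hD.cnt01 wp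
      have h2 := hD.cnt10 wp
      rw [hE.U_wp, hE.K_wp] at h1 h2
      rcases fin2_cases i with rfl | rfl <;> rcases fin2_cases j with rfl | rfl
      · exact absurd rfl hij
      · omega
      · omega
      · exact absurd rfl hij
    unfold cnt at hc
    obtain ⟨t, ht⟩ := Finset.card_eq_one.mp hc
    refine ⟨t, fun h hh => ?_⟩
    have h3 : h ∈ Finset.univ.filter fun g : P => OrbR G wp (a i, (g : G) • a j) :=
      Finset.mem_filter.mpr ⟨Finset.mem_univ _, hh⟩
    rw [ht] at h3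
    exact Finset.mem_singleton.mp h3
  obtain ⟨y, hyO, hyX⟩ := hX 0
  obtain ⟨w, hwO, hwY⟩ := hX 1
  obtain ⟨t, ht⟩ := hC 0 1 (by decide)
  obtain ⟨s, hs⟩ := hC 1 0 (by decide)
  have hy1 : y ≠ 1 := hone 0 y hyO
  have hw1 : w ≠ 1 := hone 1 w hwO
  have hN0 : ∀ β : Ω, OrbR G wp (a 0, β) →
      β = (y : G) • a 0 ∨ β = ((y⁻¹ : P) : G) • a 0 ∨ β = (t : G) • a 1 := by
    intro β hβ
    obtain ⟨j, h, rfl⟩ := hD.surj β
    rcases fin2_cases j with rfl | rfl
    · rcases hyX h hβ with hh | hh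
      · left
        rw [hh]
      · right
        left
        rw [hh]
    · right
      right
      rw [ht h hβ]
  have hN1 : ∀ β : Ω, OrbR G wp (a 1, β) →
      β = (w : G) • a 1 ∨ β = ((w⁻¹ : P) : G) • a 1 ∨ β = (s : G) • a 0 := by
    intro β hβ
    obtain ⟨j, h, rfl⟩ := hD.surj β
    rcases fin2_cases j with rfl | rfl
    · right
      right
      rw [hs h hβ]
    · rcases hwY h hβ with hh | hh
      · left
        rw [hh]
      · right
        left
        rw [hh]
  have hXY : ∀ g : P, OrbR G wp (a 0, (g : G) • a 0) → OrbR G wp (a 1, (g : G) • a 1) → False := by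
    intro g h0 h1
    have hg1 : g ≠ 1 := hone 0 g h0
    have e0 := hD.U_orb _ _ h0
    have e1 := hD.U_orb _ _ h1
    rw [hE.U_wp] at e0 e1
    obtain ⟨s1, -, -⟩ := hD.signs hg1
    have h2 := s1.mp (by rw [← e0]; norm_num)
    rw [← e1] at h2
    norm_num at h2
  have hZ : ∀ g : P, g ≠ 1 → U (a 0, (g : G) • a 0) ≠ 0 →
      OrbR G wp (a 0, (g : G) • a 0) ∨ OrbR G wp (a 1, (g : G) • a 1) := by
    intro g hg hU
    obtain ⟨s1, s2, -⟩ := hD.signs hg
    rcases lt_or_gt_of_ne hU with h | h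
    · right
      exact hE.uniq _ (hD.pi_nd hg 1) (s2.mp h)
    · left
      exact hE.uniq _ (hD.pi_nd hg 0) h
  have hyw : y ≠ w := fun h => hXY y hyO (by rw [h]; exact hwO)
  have hyw' : y ≠ w⁻¹ := fun h => hXY y hyO (by rw [h]; exact hinvX 1 w hwO)
  have hwy : w ≠ y := fun h => hyw h.symm
  have hwy' : w ≠ y⁻¹ := fun h => hXY w (by rw [h]; exact hinvX 0 y hyO) hwO
  have hyy : y * y ≠ 1 := fun h => hy1 (hodd y h)
  have hww : w * w ≠ 1 := fun h => hw1 (hodd w h)
  have hA : U (a 0, ((y * y : P) : G) • a 0) ≠ 0 := by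
    intro h0
    obtain ⟨c, hc1, hc2⟩ := hD.zero_same hyy h0
    exact common_nb hD (OrbR G wp) hop 0 1 (by decide) y w s hyO (hinvX 0 y hyO) hN1 hyw hyw'
      hyy hodd c hc1 hc2
  have hB : U (a 0, ((w * w : P) : G) • a 0) ≠ 0 := by
    intro h0
    obtain ⟨c, hc1, hc2⟩ := (hD.zero_same hww h0).symm
    exact common_nb hD (OrbR G wp) hop 1 0 (by decide) w y t hwO (hinvX 1 w hwO) hN0 hwy hwy'
      hww hodd c hc1 hc2
  have hA' : y * y = w ∨ y * y = w⁻¹ := by
    rcases hZ _ hyy hA with h | h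
    · exfalso
      rcases hyX _ h with h' | h'
      · exact hy1 (mul_eq_left.mp h')
      · apply hpow y 3 hy1 (by norm_num) (by omega)
        calc y ^ 3 = y * y * y := pow3_eq y
          _ = y⁻¹ * y := by rw [h']
          _ = 1 := inv_mul_cancel y
    · exact hwY _ h
  have hB' : w * w = y ∨ w * w = y⁻¹ := by
    rcases hZ _ hww hB with h | h
    · exact hyX _ h
    · exfalso
      rcases hwY _ h with h' | h'
      · exact hw1 (mul_eq_left.mp h')
      · apply hpow w 3 hw1 (by norm_num) (by omega)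
        calc w ^ 3 = w * w * w := pow3_eq w
          _ = w⁻¹ * w := by rw [h']
          _ = 1 := inv_mul_cancel w
  have hfin : (y * y) * (y * y) = y ∨ (y * y) * (y * y) = y⁻¹ := by
    rcases hA' with h | h
    · rw [h]
      exact hB'
    · rw [h]
      have h4 : w⁻¹ * w⁻¹ = (w * w)⁻¹ := by group
      rw [h4]
      rcases hB' with h' | h'
      · right
        rw [h']
      · left
        rw [h', inv_inv]
  rcases hfin with h | h
  · apply hpow y 3 hy1 (by norm_num) (by omega)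
    calc y ^ 3 = y⁻¹ * ((y * y) * (y * y)) := pow3_eq' y
      _ = y⁻¹ * y := by rw [h]
      _ = 1 := inv_mul_cancel y
  · apply hpow y 5 hy1 (by norm_num) (by omega)
    calc y ^ 5 = y * ((y * y) * (y * y)) := pow5_eq y
      _ = y * y⁻¹ := by rw [h]
      _ = 1 := mul_inv_cancel y

/-- The final contradiction: the rank cannot be at least four. -/
theorem endgame (hE : EndSetup P a K U x p n wp wm)
    (hr : 4 ≤ Nat.card (MulAction.orbitRel.Quotient G (Ω × Ω)))
    (hN : p * (p - 1) ≤ (Nat.card (MulAction.orbitRel.Quotient G (Ω × Ω)) - 2) *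
      Nat.card (Subgroup.normalizer (P : Set G))) : False := by
  obtain ⟨hNc, hp9⟩ := N_card hE hr hN
  have hn1 := n_eq_one hE hNc
  subst hn1
  exact final_n1 hE (by omega)

end Endgame

end Cfsg.Agent.Lib.Helper17
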