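import Mathlib
import Cfsg.Prelude.Def_Local
import Cfsg.Prelude.Def_LocalEven

/-!
# S3787 foundation (helper17): the wreath-like target property and the subgroup configuration
that yields a wreath section.
-/

set_option autoImplicit false

namespace Cfsg.Agent.Lib.Helper17

open Cfsg

universe u

/-- The property of `W` used in S3787 (`W` looks like `C_p ≀ C_p`). -/
def WrLike (p : ℕ) (W : Type) [Group W] : Prop :=
  ∃ (B : Subgroup W) (t : W), B.Normal ∧ IsMulCommutative B ∧ (∀ b ∈ B, b ^ p = 1) ∧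
    Nat.card B = p ^ p ∧ orderOf t = p ∧ t ∉ B ∧ Nat.card W = p ^ (p + 1) ∧
    Nat.card ↥(B ⊓ Subgroup.centralizer ({t} : Set W)) = p

/-- A configuration `R ≤ M`, `x` in a group `Y` giving a section `M⟨x⟩/R` that is `WrLike`:
`M` normalizes `R`, `x` normalizes `M` and `R`, `x ^ p ∈ R`, `M/R` is elementary abelian of order
`p ^ p`, and the elements of `M` commuting with `x` modulo `R` form `p` cosets of `R`. -/
def WrConfig {Y : Type u} [Group Y] (p : ℕ) (M R : Subgroup Y) (x : Y) : Prop :=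
  R ≤ M ∧ (∀ m ∈ M, ∀ r ∈ R, m * r * m⁻¹ ∈ R) ∧ (∀ m ∈ M, x * m * x⁻¹ ∈ M) ∧
    (∀ r ∈ R, x * r * x⁻¹ ∈ R) ∧ x ^ p ∈ R ∧ (∀ a ∈ M, ∀ b ∈ M, a * b * a⁻¹ * b⁻¹ ∈ R) ∧
    (∀ a ∈ M, a ^ p ∈ R) ∧ Nat.card M = p ^ p * Nat.card R ∧
    Nat.card {m : Y // m ∈ M ∧ x * m * x⁻¹ * m⁻¹ ∈ R} = p * Nat.card R

end Cfsg.Agent.Lib.Helper17
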