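import Mathlib
import Cfsg.Agent.Lib.Helper17.WrDefs

/-!
# S3787 piece GRP (helper17): a configuration `WrConfig p M R x` gives the section
`(M ⊔ ⟨x⟩) / R` with the wreath-like properties.
-/

set_option autoImplicit false

namespace Cfsg.Agent.Lib.Helper17

open Cfsg

universe u v

theorem s3787_grp {Y : Type u} [Group Y] [Finite Y] (p : ℕ) [Fact p.Prime]
    (M R : Subgroup Y) (x : Y) (h : WrConfig p M R x) :
    ∃ (K : Subgroup Y) (_ : (R.subgroupOf K).Normal)
      (B : Subgroup (↥K ⧸ R.subgroupOf K)) (t : ↥K ⧸ R.subgroupOf K),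
      B.Normal ∧ IsMulCommutative B ∧ (∀ b ∈ B, b ^ p = 1) ∧
      Nat.card B = p ^ p ∧ orderOf t = p ∧ t ∉ B ∧ Nat.card (↥K ⧸ R.subgroupOf K) = p ^ (p + 1) ∧
      Nat.card ↥(B ⊓ Subgroup.centralizer ({t} : Set (↥K ⧸ R.subgroupOf K))) = p := by
  classical
  have hp : p.Prime := Fact.out
  obtain ⟨hRM, hMR, hxM, hxR, hxp, hab, hexp, hcard, hF⟩ := h
  have hfin : ∀ (S : Subgroup Y) (g : Y), (∀ s ∈ S, g * s * g⁻¹ ∈ S) →
      ∀ s ∈ S, g⁻¹ * s * g ∈ S := by
    intro S g hg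
    have hk : ∀ k : ℕ, ∀ s ∈ S, g ^ k * s * (g ^ k)⁻¹ ∈ S := by
      intro k
      induction k with
      | zero => intro s hs; simpa using hs
      | succ k ih =>
        intro s hs
        have h1 := hg _ (ih s hs)
        have e : g ^ (k + 1) * s * (g ^ (k + 1))⁻¹ = g * (g ^ k * s * (g ^ k)⁻¹) * g⁻¹ := by
          rw [pow_succ']; group
        rw [e]; exact h1
    intro s hs
    have h1 := hk (orderOf g - 1) s hs
    have h2 : g ^ (orderOf g - 1) = g⁻¹ := by
      have hpos : 0 < orderOf g := orderOf_pos g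
      have h3 : g ^ (orderOf g - 1) * g = 1 := by
        rw [← pow_succ, Nat.sub_add_cancel hpos, pow_orderOf_eq_one]
      exact eq_inv_of_mul_eq_one_left h3
    rw [h2, inv_inv] at h1
    exact h1
  have hnorm : ∀ (S : Subgroup Y) (g : Y), (∀ s ∈ S, g * s * g⁻¹ ∈ S) →
      g ∈ Subgroup.normalizer (S : Set Y) := by
    intro S g hg
    rw [Subgroup.mem_normalizer_iff]
    intro s
    refine ⟨hg s, fun hs => ?_⟩
    have h1 := hfin S g hg _ hs
    have e : g⁻¹ * (g * s * g⁻¹) * g = s := by group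
    rwa [e] at h1
  set K : Subgroup Y := M ⊔ Subgroup.zpowers x with hK
  have hMK : M ≤ K := le_sup_left
  have hxK : x ∈ K := (le_sup_right : Subgroup.zpowers x ≤ K) (Subgroup.mem_zpowers x)
  have hRK : R ≤ K := hRM.trans hMK
  have hKR : K ≤ Subgroup.normalizer (R : Set Y) :=
    sup_le (fun m hm => hnorm R m (hMR m hm)) ((Subgroup.zpowers_le).2 (hnorm R x hxR))
  have hKM : K ≤ Subgroup.normalizer (M : Set Y) :=
    sup_le Subgroup.le_normalizer ((Subgroup.zpowers_le).2 (hnorm M x hxM))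
  haveI hn : (R.subgroupOf K).Normal := (Subgroup.normal_subgroupOf_iff_le_normalizer hRK).2 hKR
  have hMn : (M.subgroupOf K).Normal := (Subgroup.normal_subgroupOf_iff_le_normalizer hMK).2 hKM
  set ψ : ↥K →* ↥K ⧸ R.subgroupOf K := QuotientGroup.mk' (R.subgroupOf K) with hψ
  have hψs : Function.Surjective ψ := QuotientGroup.mk'_surjective _
  have hψ1 : ∀ k : ↥K, ψ k = 1 ↔ (k : Y) ∈ R := by
    intro k
    rw [hψ, QuotientGroup.mk'_apply, QuotientGroup.eq_one_iff, Subgroup.mem_subgroupOf]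
  have hcommQ : ∀ a b : ↥K, ((a : Y) * b * (a : Y)⁻¹ * (b : Y)⁻¹ ∈ R) ↔ ψ a * ψ b = ψ b * ψ a := by
    intro a b
    have e : ((a : Y) * b * (a : Y)⁻¹ * (b : Y)⁻¹ ∈ R) ↔ ψ (a * b * a⁻¹ * b⁻¹) = 1 := by
      rw [hψ1]; rfl
    rw [e, map_mul, map_mul, map_mul, map_inv, map_inv, mul_inv_eq_one, mul_inv_eq_iff_eq_mul]
  set B : Subgroup (↥K ⧸ R.subgroupOf K) := (M.subgroupOf K).map ψ with hB
  set t : ↥K ⧸ R.subgroupOf K := ψ ⟨x, hxK⟩ with ht
  have hBmem : ∀ k : ↥K, ψ k ∈ B ↔ (k : Y) ∈ M := by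
    intro k
    constructor
    · rintro ⟨m, hm, hmk⟩
      have h1 : ψ (m⁻¹ * k) = 1 := by rw [map_mul, map_inv, hmk, inv_mul_cancel]
      rw [hψ1] at h1
      have h2 : (m : Y) ∈ M := Subgroup.mem_subgroupOf.1 hm
      have h3 : ((m⁻¹ * k : ↥K) : Y) ∈ M := hRM h1
      have e : (k : Y) = (m : Y) * ((m⁻¹ * k : ↥K) : Y) := by simp
      rw [e]
      exact M.mul_mem h2 h3
    · intro hk
      exact ⟨k, Subgroup.mem_subgroupOf.2 hk, rfl⟩
  have hcomapcard : ∀ S : Subgroup (↥K ⧸ R.subgroupOf K),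
      Nat.card ↥(S.comap ψ) = Nat.card S * Nat.card R := by
    intro S
    have h2 : (S.comap ψ).index = S.index := Subgroup.index_comap_of_surjective S hψs
    have h3 := Subgroup.card_mul_index (S.comap ψ)
    have h4 := Subgroup.card_mul_index S
    have h5 : Nat.card ↥K = Nat.card (↥K ⧸ R.subgroupOf K) * Nat.card R := by
      rw [Subgroup.card_eq_card_quotient_mul_card_subgroup (R.subgroupOf K),
        Nat.card_congr (Subgroup.subgroupOfEquivOfLe hRK).toEquiv]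
    have hidx : S.index ≠ 0 := Subgroup.index_ne_zero_of_finite
    have h7 : Nat.card ↥(S.comap ψ) * S.index = (Nat.card S * Nat.card R) * S.index := by
      rw [← h2, h3, h5, ← h4, h2]
      ring
    exact Nat.eq_of_mul_eq_mul_right (Nat.pos_of_ne_zero hidx) h7
  have hRpos : 0 < Nat.card R := Nat.card_pos
  have hBcard : Nat.card B = p ^ p := by
    have h1 : B.comap ψ = M.subgroupOf K := by
      ext k
      rw [Subgroup.mem_comap, hBmem, Subgroup.mem_subgroupOf]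
    have h2 := hcomapcard B
    rw [h1, Nat.card_congr (Subgroup.subgroupOfEquivOfLe hMK).toEquiv, hcard] at h2
    exact (Nat.eq_of_mul_eq_mul_right hRpos h2).symm
  have hxM' : x ∉ M := by
    intro hxm
    have hset : ∀ m : Y, (m ∈ M ∧ x * m * x⁻¹ * m⁻¹ ∈ R) ↔ m ∈ M :=
      fun m => ⟨fun h => h.1, fun h => ⟨h, hab x hxm m h⟩⟩
    rw [Nat.card_congr (Equiv.subtypeEquivRight hset)] at hF
    have h1 : Nat.card {m : Y // m ∈ M} = Nat.card M := rfl
    rw [h1, hcard] at hF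
    have h2 : p ^ p = p := Nat.eq_of_mul_eq_mul_right hRpos hF
    have h3 : p ^ 1 < p ^ p := Nat.pow_lt_pow_right hp.one_lt hp.one_lt
    rw [pow_one] at h3
    omega
  have htB : t ∉ B := by
    rw [ht, hBmem]
    exact hxM'
  have htp : t ^ p = 1 := by
    rw [ht, ← map_pow, hψ1]
    exact hxp
  have ht1 : t ≠ 1 := fun h => htB (h ▸ B.one_mem)
  have hBn : B.Normal := Subgroup.Normal.map hMn ψ hψs
  -- the quotient by `B` is generated by the image of `t`
  have hidx : B.index = p := by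
    set φ : (↥K ⧸ R.subgroupOf K) →* (↥K ⧸ R.subgroupOf K) ⧸ B := QuotientGroup.mk' B with hφ
    have hZ : ∀ y (hy : y ∈ K), (φ.comp ψ) ⟨y, hy⟩ ∈ Subgroup.zpowers (φ t) := by
      have hle : K ≤ ((Subgroup.zpowers (φ t)).comap (φ.comp ψ)).map K.subtype := by
        refine sup_le ?_ ((Subgroup.zpowers_le).2 ?_)
        · intro m hm
          refine ⟨⟨m, hMK hm⟩, ?_, rfl⟩
          show (φ.comp ψ) ⟨m, hMK hm⟩ ∈ Subgroup.zpowers (φ t)
          rw [MonoidHom.comp_apply]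
          have h1 : ψ ⟨m, hMK hm⟩ ∈ B := (hBmem _).2 hm
          have h2 : φ (ψ ⟨m, hMK hm⟩) = 1 := by
            rw [hφ, QuotientGroup.mk'_apply, QuotientGroup.eq_one_iff]; exact h1
          rw [h2]
          exact Subgroup.one_mem _
        · refine ⟨⟨x, hxK⟩, ?_, rfl⟩
          show (φ.comp ψ) ⟨x, hxK⟩ ∈ Subgroup.zpowers (φ t)
          rw [MonoidHom.comp_apply]
          exact Subgroup.mem_zpowers _
      intro y hy
      obtain ⟨k, hk, hky⟩ := hle hy
      have e : (⟨y, hy⟩ : ↥K) = k := Subtype.ext hky.symm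
      rw [e]
      exact hk
    have htop : Subgroup.zpowers (φ t) = ⊤ := by
      rw [eq_top_iff]
      intro q _
      obtain ⟨q', rfl⟩ := QuotientGroup.mk'_surjective B q
      obtain ⟨k, rfl⟩ := hψs q'
      exact hZ k.1 k.2
    have hφt : orderOf (φ t) = p := by
      apply orderOf_eq_prime
      · rw [← map_pow, htp, map_one]
      · intro h1
        rw [hφ, QuotientGroup.mk'_apply, QuotientGroup.eq_one_iff] at h1
        exact htB h1
    rw [Subgroup.index_eq_card, ← Subgroup.card_top (G := (↥K ⧸ R.subgroupOf K) ⧸ B), ← htop,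
      Nat.card_zpowers, hφt]
  refine ⟨K, hn, B, t, hBn, ?_, ?_, hBcard, orderOf_eq_prime htp ht1, htB, ?_, ?_⟩
  · refine ⟨⟨?_⟩⟩
    rintro ⟨_, m₁, hm₁, rfl⟩ ⟨_, m₂, hm₂, rfl⟩
    apply Subtype.ext
    show ψ m₁ * ψ m₂ = ψ m₂ * ψ m₁
    rw [← hcommQ]
    exact hab _ (Subgroup.mem_subgroupOf.1 hm₁) _ (Subgroup.mem_subgroupOf.1 hm₂)
  · rintro _ ⟨m, hm, rfl⟩
    rw [← map_pow, hψ1]
    exact hexp _ (Subgroup.mem_subgroupOf.1 hm)
  · rw [← Subgroup.card_mul_index B, hBcard, hidx, pow_succ]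
  · set S : Subgroup (↥K ⧸ R.subgroupOf K) :=
      B ⊓ Subgroup.centralizer ({t} : Set (↥K ⧸ R.subgroupOf K)) with hS
    have hSmem : ∀ k : ↥K, k ∈ S.comap ψ ↔
        ((k : Y) ∈ M ∧ x * (k : Y) * x⁻¹ * (k : Y)⁻¹ ∈ R) := by
      intro k
      rw [Subgroup.mem_comap, hS, Subgroup.mem_inf, hBmem, Subgroup.mem_centralizer_iff]
      refine and_congr Iff.rfl ?_
      have e := hcommQ ⟨x, hxK⟩ k
      constructor
      · intro h1
        exact e.2 (h1 t (Set.mem_singleton t))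
      · intro h1 g hg
        rw [Set.mem_singleton_iff] at hg
        rw [hg]
        exact e.1 h1
    let eqv : ↥(S.comap ψ) ≃ {m : Y // m ∈ M ∧ x * m * x⁻¹ * m⁻¹ ∈ R} :=
      { toFun := fun k => ⟨((k : ↥K) : Y), (hSmem k.1).1 k.2⟩
        invFun := fun m => ⟨⟨m.1, hMK m.2.1⟩, (hSmem _).2 m.2⟩
        left_inv := fun k => rfl
        right_inv := fun m => rfl }
    have h1 := hcomapcard S
    rw [Nat.card_congr eqv, hF] at h1
    exact (Nat.eq_of_mul_eq_mul_right hRpos h1).symm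

end Cfsg.Agent.Lib.Helper17
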