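import Mathlib

/-!
# S3787 piece LIN (helper17): choosing the subspace `C` and the vectors `v`, `w`.
-/

set_option autoImplicit false

namespace Cfsg.Agent.Lib.Helper17

universe u v

theorem s3787_lin (p : ℕ) [Fact p.Prime] {V : Type v} [AddCommGroup V] [Module (ZMod p) V]
    (T : Module.End (ZMod p) V) (hT : T ^ p = 0) (hne : T ^ (p - 1) ≠ 0) (c : V) (hc : T c = 0) :
    ∃ (C : Submodule (ZMod p) V) (v w : V), (∀ u ∈ C, T u = 0) ∧ c + (T ^ (p - 1)) w ∈ C ∧
      (T ^ (p - 1)) v ∉ C := by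
  obtain ⟨v₀, hv₀⟩ : ∃ v₀, (T ^ (p - 1)) v₀ ≠ 0 := by
    by_contra h
    push Not at h
    exact hne (LinearMap.ext h)
  by_cases hcr : ∃ w₀, (T ^ (p - 1)) w₀ = c
  · obtain ⟨w₀, hw₀⟩ := hcr
    refine ⟨⊥, v₀, -w₀, ?_, ?_, ?_⟩
    · intro u hu
      rw [(Submodule.mem_bot _).1 hu, map_zero]
    · rw [map_neg, hw₀, add_neg_cancel]
      exact Submodule.zero_mem _
    · rw [Submodule.mem_bot]
      exact hv₀
  · refine ⟨Submodule.span (ZMod p) {c}, v₀, 0, ?_, ?_, ?_⟩
    · intro u hu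
      obtain ⟨a, rfl⟩ := Submodule.mem_span_singleton.1 hu
      rw [map_smul, hc, smul_zero]
    · rw [map_zero, add_zero]
      exact Submodule.mem_span_singleton_self c
    · intro h
      obtain ⟨a, ha⟩ := Submodule.mem_span_singleton.1 h
      have ha0 : a ≠ 0 := by
        rintro rfl
        rw [zero_smul] at ha
        exact hv₀ ha.symm
      apply hcr
      refine ⟨a⁻¹ • v₀, ?_⟩
      rw [map_smul, ← ha, smul_smul, inv_mul_cancel₀ ha0, one_smul]

end Cfsg.Agent.Lib.Helper17
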