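import Mathlib
import Cfsg.Agent.Lib.Helper17.WrDefs
import Cfsg.Agent.Lib.Helper17.HHc

/-!
# S3787 piece MID (helper17): from the linear data on `V` (a quotient of `N`) to a subgroup
configuration `WrConfig p M R x'`.
-/

set_option autoImplicit false

namespace Cfsg.Agent.Lib.Helper17

open Cfsg

universe u v

theorem s3787_mid {Y : Type u} [Group Y] [Finite Y] (p : ℕ) [Fact p.Prime]
    {V : Type v} [AddCommGroup V] [Module (ZMod p) V] [Finite V]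
    (N : Subgroup Y) (x : Y) (hxN : ∀ a ∈ N, x * a * x⁻¹ ∈ N) (hxp : x ^ p ∈ N)
    (π : ↥N →* Multiplicative V) (hπ : Function.Surjective π)
    (τ : Module.End (ZMod p) V)
    (hτ : ∀ a : ↥N, π ⟨x * a * x⁻¹, hxN a a.2⟩
        = Multiplicative.ofAdd (τ (Multiplicative.toAdd (π a))))
    (C U : Submodule (ZMod p) V) (w : V) (hCU : C ≤ U)
    (hτC : ∀ u ∈ C, τ u ∈ C) (hτU : ∀ u ∈ U, τ u ∈ U)
    (hc : Multiplicative.toAdd (π ⟨x ^ p, hxp⟩) + ((τ - 1) ^ (p - 1)) w ∈ C)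
    (hU : Nat.card U = p ^ p * Nat.card C)
    (hfix : Nat.card ↥(U ⊓ C.comap (τ - 1)) = p * Nat.card C) :
    ∃ (M R : Subgroup Y) (x' : Y), WrConfig p M R x' := by
  classical
  have hp : p.Prime := Fact.out
  let pre : Submodule (ZMod p) V → Subgroup Y := fun S =>
    ((AddSubgroup.toSubgroup S.toAddSubgroup).comap π).map N.subtype
  have hmem : ∀ (S : Submodule (ZMod p) V) (y : Y),
      y ∈ pre S ↔ ∃ h : y ∈ N, Multiplicative.toAdd (π ⟨y, h⟩) ∈ S := by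
    intro S y
    constructor
    · rintro ⟨a, ha, rfl⟩
      exact ⟨a.2, ha⟩
    · rintro ⟨h, hs⟩
      exact ⟨⟨y, h⟩, hs, rfl⟩
  have hcard : ∀ S : Submodule (ZMod p) V, Nat.card (pre S) = Nat.card S * Nat.card π.ker := by
    intro S
    have h1 : Nat.card (pre S) = Nat.card ((AddSubgroup.toSubgroup S.toAddSubgroup).comap π) :=
      (Nat.card_congr (Subgroup.equivMapOfInjective _ N.subtype N.subtype_injective).toEquiv).symm
    rw [h1]
    set T := AddSubgroup.toSubgroup S.toAddSubgroup with hT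
    have h2 : (T.comap π).index = T.index := Subgroup.index_comap_of_surjective T hπ
    have h3 := Subgroup.card_mul_index (T.comap π)
    have h4 := Subgroup.card_mul_index T
    have h5 : Nat.card ↥N = Nat.card (Multiplicative V) * Nat.card π.ker := by
      rw [← Nat.card_congr (QuotientGroup.quotientKerEquivOfSurjective π hπ).toEquiv]
      exact Subgroup.card_eq_card_quotient_mul_card_subgroup π.ker
    have h6 : Nat.card T = Nat.card S := rfl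
    have hidx : T.index ≠ 0 := Subgroup.index_ne_zero_of_finite
    have h7 : Nat.card ↥(T.comap π) * T.index = (Nat.card S * Nat.card π.ker) * T.index := by
      rw [← h2, h3, h5, ← h4, h2, h6]
      ring
    exact Nat.eq_of_mul_eq_mul_right (Nat.pos_of_ne_zero hidx) h7
  obtain ⟨a, ha⟩ := hπ (Multiplicative.ofAdd w)
  have hcomm : ∀ m n : ↥N, π (m * n * m⁻¹) = π n := by
    intro m n
    rw [map_mul, map_mul, map_inv, mul_comm (π m), mul_assoc, mul_inv_cancel, mul_one]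
  have hx'N : ∀ n ∈ N, (a : Y) * x * n * ((a : Y) * x)⁻¹ ∈ N := by
    intro n hn
    have h1 := hxN n hn
    have e : (a : Y) * x * n * ((a : Y) * x)⁻¹ = (a : Y) * (x * n * x⁻¹) * (a : Y)⁻¹ := by group
    rw [e]
    exact N.mul_mem (N.mul_mem a.2 h1) (N.inv_mem a.2)
  have hx'τ : ∀ n : ↥N, π ⟨(a : Y) * x * n * ((a : Y) * x)⁻¹, hx'N n n.2⟩
      = Multiplicative.ofAdd (τ (Multiplicative.toAdd (π n))) := by
    intro n
    have e : (⟨(a : Y) * x * n * ((a : Y) * x)⁻¹, hx'N n n.2⟩ : ↥N)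
        = a * ⟨x * n * x⁻¹, hxN n n.2⟩ * a⁻¹ := Subtype.ext (by
      show (a : Y) * x * n * ((a : Y) * x)⁻¹ = (a : Y) * (x * n * x⁻¹) * (a : Y)⁻¹
      group)
    rw [e, hcomm, hτ]
  have hpowN : ∀ k : ℕ, ∀ b ∈ N, x ^ k * b * (x ^ k)⁻¹ ∈ N := by
    intro k
    induction k with
    | zero => intro b hb; simpa using hb
    | succ k ih =>
      intro b hb
      have h1 := hxN _ (ih b hb)
      have e : x ^ (k + 1) * b * (x ^ (k + 1))⁻¹ = x * (x ^ k * b * (x ^ k)⁻¹) * x⁻¹ := by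
        rw [pow_succ']; group
      rw [e]; exact h1
  have hiter : ∀ k : ℕ, ∀ b : ↥N, π ⟨x ^ k * b * (x ^ k)⁻¹, hpowN k b b.2⟩
      = Multiplicative.ofAdd ((τ ^ k) (Multiplicative.toAdd (π b))) := by
    intro k
    induction k with
    | zero =>
      intro b
      have e : (⟨x ^ 0 * b * (x ^ 0)⁻¹, hpowN 0 b b.2⟩ : ↥N) = b := Subtype.ext (by simp)
      rw [e]; simp
    | succ k ih =>
      intro b
      have e : (⟨x ^ (k + 1) * b * (x ^ (k + 1))⁻¹, hpowN (k + 1) b b.2⟩ : ↥N)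
          = ⟨x * ((⟨x ^ k * b * (x ^ k)⁻¹, hpowN k b b.2⟩ : ↥N) : Y) * x⁻¹,
              hxN _ (hpowN k b b.2)⟩ := Subtype.ext (by
        show x ^ (k + 1) * b * (x ^ (k + 1))⁻¹ = x * (x ^ k * b * (x ^ k)⁻¹) * x⁻¹
        rw [pow_succ']; group)
      rw [e, hτ, ih b, pow_succ']
      rfl
  have hnorm : ∀ k : ℕ, ∃ r : ↥N, (r : Y) * x ^ k = ((a : Y) * x) ^ k ∧
      Multiplicative.toAdd (π r) = ∑ i ∈ Finset.range k, (τ ^ i) w := by
    intro k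
    induction k with
    | zero => exact ⟨1, by simp, by simp⟩
    | succ k ih =>
      obtain ⟨r, hr1, hr2⟩ := ih
      refine ⟨r * ⟨x ^ k * a * (x ^ k)⁻¹, hpowN k a a.2⟩, ?_, ?_⟩
      · rw [pow_succ ((a : Y) * x), ← hr1]
        show (r : Y) * (x ^ k * a * (x ^ k)⁻¹) * x ^ (k + 1) = r * x ^ k * (a * x)
        rw [pow_succ]; group
      · rw [map_mul, toAdd_mul, hr2, hiter k a, ha, Finset.sum_range_succ]
        simp
  have hx'p : ∃ h : ((a : Y) * x) ^ p ∈ N,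
      Multiplicative.toAdd (π ⟨((a : Y) * x) ^ p, h⟩) ∈ C := by
    obtain ⟨r, hr1, hr2⟩ := hnorm p
    have h : ((a : Y) * x) ^ p ∈ N := by
      rw [← hr1]; exact N.mul_mem r.2 hxp
    refine ⟨h, ?_⟩
    have e : (⟨((a : Y) * x) ^ p, h⟩ : ↥N) = r * ⟨x ^ p, hxp⟩ := Subtype.ext hr1.symm
    rw [e, map_mul, toAdd_mul, hr2]
    have hg := hh_geom_pow (ZMod p) p τ 1
    rw [pow_one] at hg
    have h3 : ∑ i ∈ Finset.range p, (τ ^ i) w = ((τ - 1) ^ (p - 1)) w := by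
      rw [← hg, LinearMap.sum_apply]
    rw [h3, add_comm]
    exact hc
  refine ⟨pre U, pre C, (a : Y) * x, ?_, ?_, ?_, ?_, ?_, ?_, ?_, ?_, ?_⟩
  · intro y hy
    rw [hmem] at hy ⊢
    obtain ⟨h, hs⟩ := hy
    exact ⟨h, hCU hs⟩
  · intro m hm r hr
    rw [hmem] at hm hr ⊢
    obtain ⟨hmN, -⟩ := hm
    obtain ⟨hrN, hrC⟩ := hr
    refine ⟨N.mul_mem (N.mul_mem hmN hrN) (N.inv_mem hmN), ?_⟩
    have e : (⟨m * r * m⁻¹, N.mul_mem (N.mul_mem hmN hrN) (N.inv_mem hmN)⟩ : ↥N)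
        = ⟨m, hmN⟩ * ⟨r, hrN⟩ * ⟨m, hmN⟩⁻¹ := rfl
    rw [e, hcomm]
    exact hrC
  · intro m hm
    rw [hmem] at hm ⊢
    obtain ⟨hmN, hmU⟩ := hm
    refine ⟨hx'N m hmN, ?_⟩
    rw [hx'τ ⟨m, hmN⟩]
    exact hτU _ hmU
  · intro m hm
    rw [hmem] at hm ⊢
    obtain ⟨hmN, hmU⟩ := hm
    refine ⟨hx'N m hmN, ?_⟩
    rw [hx'τ ⟨m, hmN⟩]
    exact hτC _ hmU
  · rw [hmem]
    exact hx'p
  · intro b hb d hd
    rw [hmem] at hb hd ⊢
    obtain ⟨hbN, -⟩ := hb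
    obtain ⟨hdN, -⟩ := hd
    refine ⟨N.mul_mem (N.mul_mem (N.mul_mem hbN hdN) (N.inv_mem hbN)) (N.inv_mem hdN), ?_⟩
    have e : (⟨b * d * b⁻¹ * d⁻¹,
        N.mul_mem (N.mul_mem (N.mul_mem hbN hdN) (N.inv_mem hbN)) (N.inv_mem hdN)⟩ : ↥N)
        = ⟨b, hbN⟩ * ⟨d, hdN⟩ * ⟨b, hbN⟩⁻¹ * ⟨d, hdN⟩⁻¹ := rfl
    rw [e, map_mul, hcomm, map_inv, mul_inv_cancel]
    exact C.zero_mem
  · intro b hb
    rw [hmem] at hb ⊢
    obtain ⟨hbN, -⟩ := hb
    refine ⟨N.pow_mem hbN p, ?_⟩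
    have e : (⟨b ^ p, N.pow_mem hbN p⟩ : ↥N) = ⟨b, hbN⟩ ^ p := rfl
    rw [e, map_pow, toAdd_pow, ZModModule.char_nsmul_eq_zero]
    exact C.zero_mem
  · rw [hcard, hcard, hU]
    ring
  · have hset : ∀ m : Y, (m ∈ pre U ∧ (a : Y) * x * m * ((a : Y) * x)⁻¹ * m⁻¹ ∈ pre C) ↔
        m ∈ pre (U ⊓ C.comap (τ - 1)) := by
      intro m
      rw [hmem, hmem, hmem]
      constructor
      · rintro ⟨⟨hmN, hmU⟩, ⟨h2, h3⟩⟩
        refine ⟨hmN, hmU, ?_⟩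
        have e : (⟨(a : Y) * x * m * ((a : Y) * x)⁻¹ * m⁻¹, h2⟩ : ↥N)
            = ⟨(a : Y) * x * m * ((a : Y) * x)⁻¹, hx'N m hmN⟩ * ⟨m, hmN⟩⁻¹ := rfl
        rw [e, map_mul, hx'τ ⟨m, hmN⟩, map_inv] at h3
        show (τ - 1) (Multiplicative.toAdd (π ⟨m, hmN⟩)) ∈ C
        rw [LinearMap.sub_apply]
        simpa [sub_eq_add_neg] using h3
      · rintro ⟨hmN, hmU, hmC⟩
        refine ⟨⟨hmN, hmU⟩, N.mul_mem (hx'N m hmN) (N.inv_mem hmN), ?_⟩
        have e : (⟨(a : Y) * x * m * ((a : Y) * x)⁻¹ * m⁻¹,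
            N.mul_mem (hx'N m hmN) (N.inv_mem hmN)⟩ : ↥N)
            = ⟨(a : Y) * x * m * ((a : Y) * x)⁻¹, hx'N m hmN⟩ * ⟨m, hmN⟩⁻¹ := rfl
        rw [e, map_mul, hx'τ ⟨m, hmN⟩, map_inv]
        have hmC' : (τ - 1) (Multiplicative.toAdd (π ⟨m, hmN⟩)) ∈ C := hmC
        rw [LinearMap.sub_apply] at hmC'
        simpa [sub_eq_add_neg] using hmC'
    rw [Nat.card_congr (Equiv.subtypeEquivRight hset)]
    show Nat.card ↥(pre (U ⊓ C.comap (τ - 1))) = _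
    rw [hcard, hcard, hfix]
    ring

end Cfsg.Agent.Lib.Helper17
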