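import Mathlib
import Cfsg.Agent.S0633

/-!
# S3787 piece MINP (helper17): Hall–Higman Theorem B for an element of order `p`,
`p` an odd non-Fermat prime: `(x - 1) ^ (p - 1) ≠ 0`.
-/

set_option autoImplicit false

namespace Cfsg.Agent.Lib.Helper17

open Cfsg

universe u v

theorem s3787_minp {p : ℕ} [Fact p.Prime] (hp2 : p ≠ 2) (hnf : ¬ ∃ k : ℕ, p = 2 ^ k + 1)
    {V : Type v} [AddCommGroup V] [Module (ZMod p) V] [Finite V]
    (H : Subgroup (V ≃ₗ[ZMod p] V)) (hsol : IsPSolvable p H) (hOp : pCore p H = ⊥)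
    (x : V ≃ₗ[ZMod p] V) (hx : x ∈ H) (hord : orderOf x = p) :
    ((x : Module.End (ZMod p) V) - 1) ^ (p - 1) ≠ 0 := by
  have hp : p.Prime := Fact.out
  intro hzero
  haveI : Nontrivial V := by
    by_contra hnt
    rw [not_nontrivial_iff_subsingleton] at hnt
    have h1 : x = 1 := by
      ext v
      exact Subsingleton.elim _ _
    rw [h1, orderOf_one] at hord
    exact hp.one_lt.ne hord
  haveI : Finite (V ≃ₗ[ZMod p] V) :=
    Finite.of_injective (fun f : V ≃ₗ[ZMod p] V => (f : V → V)) DFunLike.coe_injective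
  have hprime : Prime (Polynomial.X - 1 : Polynomial (ZMod p)) := by
    simpa using Polynomial.prime_X_sub_C (1 : ZMod p)
  have hdvd : minpoly (ZMod p) (x : Module.End (ZMod p) V) ∣ (Polynomial.X - 1) ^ (p - 1) := by
    apply minpoly.dvd
    simp [hzero]
  obtain ⟨r, hr_le, hassoc⟩ := (dvd_prime_pow hprime _).1 hdvd
  have hint : IsIntegral (ZMod p) (x : Module.End (ZMod p) V) := Algebra.IsIntegral.isIntegral _
  have hmon : ((Polynomial.X - 1 : Polynomial (ZMod p)) ^ r).Monic := by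
    have := (Polynomial.monic_X_sub_C (1 : ZMod p)).pow r
    simpa using this
  have hr : minpoly (ZMod p) (x : Module.End (ZMod p) V) = (Polynomial.X - 1) ^ r :=
    Polynomial.eq_of_monic_of_associated (minpoly.monic hint) hmon hassoc
  have h := Cfsg.Agent.S0633.result H hsol hOp x hx 1 (by rw [pow_one]; exact hord) r hr
  have hp1 : 1 ≤ p := hp.pos
  rcases h with h | ⟨n₀, q, m, hn1, hn2, hq, hm, hpq, -, -⟩
  · rw [pow_one] at h
    omega
  · have hn0 : n₀ = 1 := le_antisymm hn2 hn1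
    subst hn0
    rw [pow_one] at hpq
    have hodd : Odd p := hp.odd_of_ne_two hp2
    have heven : Even (p - 1) := by
      obtain ⟨k, hk⟩ := hodd
      exact ⟨k, by omega⟩
    rw [hpq] at heven
    have hq2 : q = 2 := by
      have h2 : (2 : ℕ) ∣ q ^ m := heven.two_dvd
      have h3 : (2 : ℕ) ∣ q := Nat.prime_two.dvd_of_dvd_pow h2
      exact ((Nat.prime_dvd_prime_iff_eq Nat.prime_two hq).1 h3).symm
    subst hq2
    exact hnf ⟨m, by omega⟩

end Cfsg.Agent.Lib.Helper17
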