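import Mathlib
import Cfsg.Agent.Lib.Helper17.WrDefs

/-!
# S3787 piece TR (helper17): transporting the wreath-like property to a group in `Type`.
-/

set_option autoImplicit false

namespace Cfsg.Agent.Lib.Helper17

open Cfsg

universe u v

theorem s3787_tr {Q : Type u} [Group Q] [Finite Q] (p : ℕ)
    (h : ∃ (B : Subgroup Q) (t : Q), B.Normal ∧ IsMulCommutative B ∧ (∀ b ∈ B, b ^ p = 1) ∧
      Nat.card B = p ^ p ∧ orderOf t = p ∧ t ∉ B ∧ Nat.card Q = p ^ (p + 1) ∧
      Nat.card ↥(B ⊓ Subgroup.centralizer ({t} : Set Q)) = p) :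
    ∃ (W : Type) (_ : Group W) (_ : Finite W), WrLike p W ∧ Nonempty (Q ≃* W) := by
  obtain ⟨B, t, hBn, hBc, hBe, hBcard, hto, htB, hQ, hcent⟩ := h
  haveI : Small.{0} Q := Countable.toSmall Q
  let e : Q ≃* Shrink.{0} Q := (Shrink.mulEquiv (α := Q)).symm
  haveI iF : Finite (Shrink.{0} Q) := Finite.of_equiv Q e.toEquiv
  have hmem : ∀ (S : Subgroup Q) (w : Shrink.{0} Q),
      w ∈ S.map e.toMonoidHom ↔ e.symm w ∈ S := by
    intro S w
    constructor
    · rintro ⟨b, hb, rfl⟩
      simpa using hb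
    · intro hw
      exact ⟨e.symm w, hw, by simp⟩
  have hcard : ∀ S : Subgroup Q, Nat.card ↥(S.map e.toMonoidHom) = Nat.card S := fun S =>
    (Nat.card_congr (S.equivMapOfInjective e.toMonoidHom e.injective).toEquiv).symm
  refine ⟨Shrink.{0} Q, inferInstance, iF,
    ⟨B.map e.toMonoidHom, e t, ?_, ?_, ?_, ?_, ?_, ?_, ?_, ?_⟩, ⟨e⟩⟩
  · exact Subgroup.Normal.map hBn _ e.surjective
  · refine ⟨⟨?_⟩⟩
    rintro ⟨a, ha⟩ ⟨b, hb⟩
    apply Subtype.ext
    show a * b = b * a
    rw [hmem] at ha hb
    have h1 := hBc.is_comm.comm ⟨e.symm a, ha⟩ ⟨e.symm b, hb⟩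
    have h2 : e.symm a * e.symm b = e.symm b * e.symm a := congrArg Subtype.val h1
    apply e.symm.injective
    rw [map_mul, map_mul, h2]
  · intro b hb
    rw [hmem] at hb
    apply e.symm.injective
    rw [map_pow, hBe _ hb, map_one]
  · rw [hcard, hBcard]
  · rw [MulEquiv.orderOf_eq, hto]
  · intro h
    rw [hmem] at h
    apply htB
    simpa using h
  · rw [← Nat.card_congr e.toEquiv, hQ]
  · have hS : B.map e.toMonoidHom ⊓ Subgroup.centralizer ({e t} : Set (Shrink.{0} Q))
        = (B ⊓ Subgroup.centralizer ({t} : Set Q)).map e.toMonoidHom := by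
      ext w
      rw [Subgroup.mem_inf, hmem, hmem, Subgroup.mem_inf, Subgroup.mem_centralizer_iff,
        Subgroup.mem_centralizer_iff]
      refine and_congr Iff.rfl ?_
      constructor
      · intro h1 g hg
        rw [Set.mem_singleton_iff] at hg
        rw [hg]
        have h2 := h1 (e t) (Set.mem_singleton _)
        apply e.injective
        rw [map_mul, map_mul]
        simpa using h2
      · intro h1 g hg
        rw [Set.mem_singleton_iff] at hg
        rw [hg]
        have h2 := h1 t (Set.mem_singleton _)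
        apply e.symm.injective
        rw [map_mul, map_mul]
        simpa using h2
    rw [hS, hcard, hcent]

end Cfsg.Agent.Lib.Helper17
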