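import Mathlib
import Cfsg.Agent.Lib.Helper17.WrDefs
import Cfsg.Agent.Lib.Helper17.WrLin
import Cfsg.Agent.Lib.Helper17.WrTr
import Cfsg.Agent.Lib.Helper17.WrMinp
import Cfsg.Agent.Lib.Helper17.WrMid
import Cfsg.Agent.Lib.Helper17.WrGrp
import Cfsg.Agent.Lib.Helper17.HHc
import Cfsg.Agent.Lib.Helper23.WrCYC
import Cfsg.Agent.Lib.Helper29.WrCRIT
import Cfsg.Agent.Lib.Helper29.WrREPA
import Cfsg.Agent.Lib.Helper29.WrREPB
import Cfsg.Agent.Lib.Helper78.WrRANGE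
import Cfsg.Agent.Lib.Helper78.WrSYL
import Cfsg.Agent.Lib.Helper40.HallHigman
import Cfsg.Agent.Lib.Helper75.FrattiniAct

/-!
# S3787 assembly (helper17)
-/

set_option autoImplicit false

namespace Cfsg.Agent.Lib.Helper17

open Cfsg

universe u v

theorem s3787_secgrp {Y : Type u} [Group Y] [Finite Y] (p : ℕ) [Fact p.Prime]
    (M R : Subgroup Y) (x : Y) (h : WrConfig p M R x) :
    ∃ (W : Type) (_ : Group W) (_ : Finite W), WrLike p W ∧ Involves W Y := by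
  obtain ⟨K, hn, B, t, hB⟩ := s3787_grp p M R x h
  obtain ⟨W, iG, iF, hW, ⟨e⟩⟩ := s3787_tr (Q := ↥K ⧸ R.subgroupOf K) p ⟨B, t, hB⟩
  exact ⟨W, iG, iF, hW, K, R, hn, ⟨e⟩⟩

/-- The section lemma: LIN + CYC + MID + GRP + TR. -/
theorem s3787_sec {Y : Type u} [Group Y] [Finite Y] (p : ℕ) [Fact p.Prime]
    {V : Type v} [AddCommGroup V] [Module (ZMod p) V] [Finite V]
    (N : Subgroup Y) (x : Y) (hxN : ∀ a ∈ N, x * a * x⁻¹ ∈ N) (hxp : x ^ p ∈ N)
    (π : ↥N →* Multiplicative V) (hπ : Function.Surjective π)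
    (τ : Module.End (ZMod p) V)
    (hτ : ∀ a : ↥N, π ⟨x * a * x⁻¹, hxN a a.2⟩
        = Multiplicative.ofAdd (τ (Multiplicative.toAdd (π a))))
    (hne : (τ - 1) ^ (p - 1) ≠ 0) :
    ∃ (W : Type) (_ : Group W) (_ : Finite W), WrLike p W ∧ Involves W Y := by
  have hp : p.Prime := Fact.out
  -- iterated equivariance
  have hpowN : ∀ k : ℕ, ∀ a ∈ N, x ^ k * a * (x ^ k)⁻¹ ∈ N := by
    intro k
    induction k with
    | zero => intro a ha; simpa using ha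
    | succ k ih =>
      intro a ha
      have h1 := hxN _ (ih a ha)
      have e : x ^ (k + 1) * a * (x ^ (k + 1))⁻¹ = x * (x ^ k * a * (x ^ k)⁻¹) * x⁻¹ := by
        rw [pow_succ']; group
      rw [e]; exact h1
  have hiter : ∀ k : ℕ, ∀ a : ↥N, π ⟨x ^ k * a * (x ^ k)⁻¹, hpowN k a a.2⟩
      = Multiplicative.ofAdd ((τ ^ k) (Multiplicative.toAdd (π a))) := by
    intro k
    induction k with
    | zero =>
      intro a
      have e : (⟨x ^ 0 * a * (x ^ 0)⁻¹, hpowN 0 a a.2⟩ : ↥N) = a := Subtype.ext (by simp)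
      rw [e]; simp
    | succ k ih =>
      intro a
      have e : (⟨x ^ (k + 1) * a * (x ^ (k + 1))⁻¹, hpowN (k + 1) a a.2⟩ : ↥N)
          = ⟨x * ((⟨x ^ k * a * (x ^ k)⁻¹, hpowN k a a.2⟩ : ↥N) : Y) * x⁻¹,
              hxN _ (hpowN k a a.2)⟩ := Subtype.ext (by
        show x ^ (k + 1) * a * (x ^ (k + 1))⁻¹ = x * (x ^ k * a * (x ^ k)⁻¹) * x⁻¹
        rw [pow_succ']; group)
      rw [e, hτ, ih a, pow_succ']
      rfl
  have hτp : τ ^ p = 1 := by
    apply LinearMap.ext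
    intro u
    obtain ⟨a, ha⟩ := hπ (Multiplicative.ofAdd u)
    have h1 := hiter p a
    have e : (⟨x ^ p * a * (x ^ p)⁻¹, hpowN p a a.2⟩ : ↥N) = ⟨x ^ p, hxp⟩ * a * ⟨x ^ p, hxp⟩⁻¹ :=
      Subtype.ext (by simp)
    rw [e, map_mul, map_mul, map_inv, mul_comm (π ⟨x ^ p, hxp⟩), mul_assoc, mul_inv_cancel,
      mul_one, ha] at h1
    have h2 := congrArg Multiplicative.toAdd h1
    simpa using h2.symm
  have hT : (τ - 1) ^ p = 0 := by
    have h := hh_sub_one_pow (ZMod p) p τ 1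
    rw [pow_one] at h
    rw [h, hτp, sub_self]
  have hc : (τ - 1) (Multiplicative.toAdd (π ⟨x ^ p, hxp⟩)) = 0 := by
    have h1 := hτ ⟨x ^ p, hxp⟩
    have e : (⟨x * ((⟨x ^ p, hxp⟩ : ↥N) : Y) * x⁻¹, hxN _ hxp⟩ : ↥N) = ⟨x ^ p, hxp⟩ :=
      Subtype.ext (by
        show x * x ^ p * x⁻¹ = x ^ p
        rw [← pow_succ', pow_succ, mul_assoc, mul_inv_cancel, mul_one])
    rw [e] at h1
    have h2 := congrArg Multiplicative.toAdd h1
    simp only [toAdd_ofAdd] at h2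
    rw [LinearMap.sub_apply, ← h2]
    simp
  obtain ⟨C, v, w, hC0, hcw, hv⟩ := s3787_lin p (τ - 1) hT hne _ hc
  have hTC : ∀ u ∈ C, (τ - 1) u ∈ C := fun u hu => by rw [hC0 u hu]; exact C.zero_mem
  obtain ⟨U, hCU, hTU, hUcard, hfix⟩ := Cfsg.Agent.Lib.Helper23.s3787_cyc p (τ - 1) hT C hTC v hv
  have hτC : ∀ u ∈ C, τ u ∈ C := fun u hu => by
    have h1 := hTC u hu
    have e : τ u = (τ - 1) u + u := by simp
    rw [e]; exact C.add_mem h1 hu
  have hτU : ∀ u ∈ U, τ u ∈ U := fun u hu => by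
    have h1 := hTU u hu
    have e : τ u = (τ - 1) u + u := by simp
    rw [e]; exact U.add_mem h1 hu
  obtain ⟨M, R, x', hcfg⟩ :=
    s3787_mid p N x hxN hxp π hπ τ hτ C U w hCU hτC hτU hcw hUcard hfix
  exact s3787_secgrp p M R x' hcfg

/-- S3787 with the target property folded. -/
theorem s3787_main {G : Type u} [Group G] [Finite G] {p : ℕ} [Fact p.Prime] (hp2 : p ≠ 2)
    (hnf : ¬ ∃ k : ℕ, p = 2 ^ k + 1) (hG : IsPSolvable p G) (P : Sylow p G)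
    (hwr : ∀ (W : Type) [Group W] [Finite W], WrLike p W → ¬ Involves W ↥(P : Subgroup G)) :
    PLengthLE p 1 G := by
  classical
  have hp : p.Prime := Fact.out
  haveI hn : (pPrimeCore p G).Normal := Cfsg.Agent.Lib.Helper81.pPrimeCore_normal p
  by_contra hcon
  have hXsol : IsPSolvable p (G ⧸ pPrimeCore p G) :=
    Cfsg.Agent.Lib.Helper75.Fratt.isPSolvable_quotient _ hG
  have hXpp : pPrimeCore p (G ⧸ pPrimeCore p G) = ⊥ :=
    Cfsg.Agent.Lib.Helper75.Fratt.pPrimeCore_quotient_eq_bot' p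
  haveI hN : (pCore p (G ⧸ pPrimeCore p G)).Normal := Cfsg.Agent.Lib.Helper40.pCore_normal' p
  have hNp : IsPGroup p (pCore p (G ⧸ pPrimeCore p G)) :=
    Cfsg.Agent.Lib.Helper40.pCore_isPGroup' p
  obtain ⟨V, iA, iM, iF, ρ, π, hπs, hπeq, hπfr⟩ :=
    Cfsg.Agent.Lib.Helper29.s3787_repA p (pCore p (G ⧸ pPrimeCore p G)) hNp
  have hker : ρ.ker = pCore p (G ⧸ pPrimeCore p G) :=
    Cfsg.Agent.Lib.Helper29.s3787_repB p hXsol hXpp ρ π hπs hπeq hπfr
  obtain ⟨hHsol, hHcore⟩ := Cfsg.Agent.Lib.Helper78.s3787_range p hXsol ρ hker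
  have hex : ∃ g ∈ (P : Subgroup G),
      QuotientGroup.mk' (pPrimeCore p G) g ∉ pCore p (G ⧸ pPrimeCore p G) := by
    by_contra h
    push Not at h
    exact hcon (Cfsg.Agent.Lib.Helper29.s3787_crit p P h)
  obtain ⟨g, hgP, hgN⟩ := hex
  have hρg : ρ (QuotientGroup.mk' (pPrimeCore p G) g) ≠ 1 := fun h =>
    hgN (hker ▸ (MonoidHom.mem_ker.2 h))
  obtain ⟨k, hk⟩ := P.isPGroup' ⟨g, hgP⟩
  have hgk : g ^ p ^ k = 1 := by simpa using congrArg Subtype.val hk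
  have hρk : (ρ (QuotientGroup.mk' (pPrimeCore p G) g)) ^ p ^ k = 1 := by
    rw [← map_pow, ← map_pow, hgk, map_one, map_one]
  obtain ⟨j, hj⟩ : ∃ j, orderOf (ρ (QuotientGroup.mk' (pPrimeCore p G) g)) = p ^ j := by
    obtain ⟨j, -, hj⟩ := (Nat.dvd_prime_pow hp).1 (orderOf_dvd_of_pow_eq_one hρk)
    exact ⟨j, hj⟩
  have hj1 : 1 ≤ j := by
    rcases Nat.eq_zero_or_pos j with rfl | h
    · rw [pow_zero, orderOf_eq_one_iff] at hj; exact absurd hj hρg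
    · exact h
  have hxP : g ^ p ^ (j - 1) ∈ (P : Subgroup G) := Subgroup.pow_mem _ hgP _
  have hord : orderOf (ρ (QuotientGroup.mk' (pPrimeCore p G) (g ^ p ^ (j - 1)))) = p := by
    rw [map_pow, map_pow]
    have h1 : orderOf (ρ (QuotientGroup.mk' (pPrimeCore p G) g)) ≠ 0 := by
      rw [hj]; exact pow_ne_zero _ hp.ne_zero
    have h2 : p ∣ orderOf (ρ (QuotientGroup.mk' (pPrimeCore p G) g)) := by
      rw [hj]; exact dvd_pow_self p (by omega)
    have h3 := orderOf_pow_orderOf_div h1 h2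
    have h4 : orderOf (ρ (QuotientGroup.mk' (pPrimeCore p G) g)) / p = p ^ (j - 1) := by
      rw [hj]
      obtain ⟨i, rfl⟩ : ∃ i, j = i + 1 := ⟨j - 1, by omega⟩
      rw [pow_succ, Nat.mul_div_cancel _ hp.pos]; simp
    rw [h4] at h3
    exact h3
  set x : G := g ^ p ^ (j - 1) with hx
  have hne := s3787_minp hp2 hnf ρ.range hHsol hHcore
    (ρ (QuotientGroup.mk' (pPrimeCore p G) x)) ⟨_, rfl⟩ hord
  -- the configuration inside `P`
  set N' : Subgroup ↥(P : Subgroup G) :=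
    ((pCore p (G ⧸ pPrimeCore p G)).comap (QuotientGroup.mk' (pPrimeCore p G))).subgroupOf
      (P : Subgroup G) with hN'
  have hmemN' : ∀ a : ↥(P : Subgroup G), a ∈ N' ↔
      QuotientGroup.mk' (pPrimeCore p G) (a : G) ∈ pCore p (G ⧸ pPrimeCore p G) := by
    intro a
    rw [hN', Subgroup.mem_subgroupOf, Subgroup.mem_comap]
  have hxN' : ∀ a ∈ N', (⟨x, hxP⟩ : ↥(P : Subgroup G)) * a * (⟨x, hxP⟩ : ↥(P : Subgroup G))⁻¹ ∈ N' := by
    intro a ha
    rw [hmemN'] at ha ⊢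
    have := hN.conj_mem _ ha (QuotientGroup.mk' (pPrimeCore p G) x)
    simpa using this
  have hxp' : (⟨x, hxP⟩ : ↥(P : Subgroup G)) ^ p ∈ N' := by
    rw [hmemN', ← hker, MonoidHom.mem_ker]
    have h1 := pow_orderOf_eq_one (ρ (QuotientGroup.mk' (pPrimeCore p G) x))
    rw [hord] at h1
    simpa using h1
  let φ : ↥N' →* ↥(pCore p (G ⧸ pPrimeCore p G)) :=
    ((QuotientGroup.mk' (pPrimeCore p G)).comp
      ((P : Subgroup G).subtype.comp N'.subtype)).codRestrict (pCore p (G ⧸ pPrimeCore p G))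
      (fun a => (hmemN' a.1).1 a.2)
  have hφ : ∀ a : ↥N', ((φ a : ↥(pCore p (G ⧸ pPrimeCore p G))) : G ⧸ pPrimeCore p G)
      = QuotientGroup.mk' (pPrimeCore p G) ((a : ↥(P : Subgroup G)) : G) := fun a => rfl
  have hπ's : Function.Surjective (π.comp φ) := by
    intro u
    obtain ⟨a, ha⟩ := hπs u
    have h1 := Cfsg.Agent.Lib.Helper78.s3787_syl p P (pPrimeCore p G) a.2
    obtain ⟨g', hg'P, hg'⟩ := h1
    have hmem : (⟨g', hg'P⟩ : ↥(P : Subgroup G)) ∈ N' := by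
      rw [hmemN']; show QuotientGroup.mk' (pPrimeCore p G) g' ∈ _; rw [hg']; exact a.2
    refine ⟨⟨⟨g', hg'P⟩, hmem⟩, ?_⟩
    have e : φ ⟨⟨g', hg'P⟩, hmem⟩ = a := Subtype.ext hg'
    rw [MonoidHom.comp_apply, e, ha]
  have hτ' : ∀ a : ↥N', (π.comp φ) ⟨(⟨x, hxP⟩ : ↥(P : Subgroup G)) * a * (⟨x, hxP⟩ : ↥(P : Subgroup G))⁻¹,
        hxN' a a.2⟩
      = Multiplicative.ofAdd ((((ρ (QuotientGroup.mk' (pPrimeCore p G) x) : V ≃ₗ[ZMod p] V)) :
          Module.End (ZMod p) V) (Multiplicative.toAdd ((π.comp φ) a))) := by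
    intro a
    have h1 := hπeq (QuotientGroup.mk' (pPrimeCore p G) x) (φ a)
    have e : φ ⟨(⟨x, hxP⟩ : ↥(P : Subgroup G)) * a * (⟨x, hxP⟩ : ↥(P : Subgroup G))⁻¹, hxN' a a.2⟩
        = ⟨QuotientGroup.mk' (pPrimeCore p G) x * (φ a : G ⧸ pPrimeCore p G) *
            (QuotientGroup.mk' (pPrimeCore p G) x)⁻¹,
            hN.conj_mem _ (φ a).2 (QuotientGroup.mk' (pPrimeCore p G) x)⟩ :=
      Subtype.ext (by
        show QuotientGroup.mk' (pPrimeCore p G) (x * ((a : ↥(P : Subgroup G)) : G) * x⁻¹)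
          = QuotientGroup.mk' (pPrimeCore p G) x *
              QuotientGroup.mk' (pPrimeCore p G) ((a : ↥(P : Subgroup G)) : G) *
              (QuotientGroup.mk' (pPrimeCore p G) x)⁻¹
        rw [map_mul, map_mul, map_inv])
    rw [MonoidHom.comp_apply, e, h1]
    rfl
  obtain ⟨W, iG, iF', hW, hinv⟩ := s3787_sec p N' ⟨x, hxP⟩ hxN' hxp' (π.comp φ) hπ's
    (((ρ (QuotientGroup.mk' (pPrimeCore p G) x) : V ≃ₗ[ZMod p] V)) : Module.End (ZMod p) V)
    hτ' hne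
  exact hwr W hW hinv

end Cfsg.Agent.Lib.Helper17
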